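import Mathlib

set_option autoImplicit false

namespace Cfsg.Agent.Lib.Helper28

open Finset

/-- words of length 24 -/
abbrev V24 : Type := Fin 24 → ZMod 2

/-- support of a word -/
def supp (u : V24) : Finset (Fin 24) := Finset.univ.filter fun i => u i ≠ 0

/-- indicator word of a set -/
def ind (s : Finset (Fin 24)) : V24 := fun i => if i ∈ s then 1 else 0

theorem hammingNorm_eq_card_supp (u : V24) : hammingNorm u = (supp u).card := rfl

theorem mem_supp {u : V24} {i : Fin 24} : i ∈ supp u ↔ u i ≠ 0 := by
  simp [supp]

theorem zmod2_ne_zero_iff (a : ZMod 2) : a ≠ 0 ↔ a = 1 := by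
  revert a; decide

theorem supp_ind (s : Finset (Fin 24)) : supp (ind s) = s := by
  ext i
  simp [supp, ind]

theorem ind_supp (u : V24) : ind (supp u) = u := by
  funext i
  by_cases h : u i = 0
  · simp [ind, supp, h]
  · have h1 : u i = 1 := (zmod2_ne_zero_iff _).1 h
    simp [ind, supp, h1]

/-- words correspond to subsets -/
def suppEquiv : V24 ≃ Finset (Fin 24) where
  toFun := supp
  invFun := ind
  left_inv := ind_supp
  right_inv := supp_ind

theorem supp_injective : Function.Injective supp := suppEquiv.injective

theorem card_weight_eq (k : ℕ) :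
    (Finset.univ.filter fun u : V24 => hammingNorm u = k).card = Nat.choose 24 k := by
  have h : (Finset.univ.filter fun u : V24 => hammingNorm u = k).card
      = (Finset.powersetCard k (Finset.univ : Finset (Fin 24))).card := by
    apply Finset.card_bij (fun u _ => supp u)
    · intro u hu
      simp only [Finset.mem_filter, Finset.mem_univ, true_and] at hu
      rw [Finset.mem_powersetCard]
      exact ⟨Finset.subset_univ _, by rw [← hammingNorm_eq_card_supp, hu]⟩
    · intro a _ b _ hab
      exact supp_injective hab
    · intro s hs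
      rw [Finset.mem_powersetCard] at hs
      refine ⟨ind s, ?_, supp_ind s⟩
      simp only [Finset.mem_filter, Finset.mem_univ, true_and]
      rw [hammingNorm_eq_card_supp, supp_ind, hs.2]
  rw [h, Finset.card_powersetCard]
  simp

theorem supp_sub_subset (u v : V24) : supp (u - v) ⊆ supp u ∪ supp v := by
  intro i hi
  rw [mem_supp] at hi
  rw [Finset.mem_union, mem_supp, mem_supp]
  by_contra hcon
  push Not at hcon
  apply hi
  simp [hcon.1, hcon.2]

/-- Two words of weight at most four whose difference has weight at least eight. -/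
theorem weight_four_disjoint {u v : V24} (hu : hammingNorm u ≤ 4) (hv : hammingNorm v ≤ 4)
    (h8 : 8 ≤ hammingNorm (u - v)) :
    hammingNorm u = 4 ∧ hammingNorm v = 4 ∧ Disjoint (supp u) (supp v) := by
  rw [hammingNorm_eq_card_supp] at hu hv h8
  have h1 : (supp (u - v)).card ≤ (supp u ∪ supp v).card := Finset.card_le_card (supp_sub_subset u v)
  have h2 := Finset.card_union_add_card_inter (supp u) (supp v)
  have h3 : (supp u ∩ supp v).card = 0 := by omega
  refine ⟨by rw [hammingNorm_eq_card_supp]; omega, by rw [hammingNorm_eq_card_supp]; omega, ?_⟩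
  rw [Finset.disjoint_iff_inter_eq_empty]
  exact Finset.card_eq_zero.1 h3


section counting

variable (C : Submodule (ZMod 2) V24)

theorem card_quot (hdim : Module.finrank (ZMod 2) C = 12) : Nat.card (V24 ⧸ C) = 4096 := by
  have h1 := Submodule.finrank_quotient_add_finrank C
  have h2 : Module.finrank (ZMod 2) V24 = 24 := by simp
  have h3 : Module.finrank (ZMod 2) (V24 ⧸ C) = 12 := by omega
  rw [Module.natCard_eq_pow_finrank (K := ZMod 2), h3, Nat.card_zmod]
  norm_num

/-- same coset, weight at most four, distinct -/
theorem same_coset {C : Submodule (ZMod 2) V24} (hmin : ∀ w ∈ C, w ≠ 0 → 8 ≤ hammingNorm w)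
    {u v : V24} (hu : hammingNorm u ≤ 4) (hv : hammingNorm v ≤ 4) (huv : u - v ∈ C) (hne : u ≠ v) :
    hammingNorm u = 4 ∧ hammingNorm v = 4 ∧ Disjoint (supp u) (supp v) :=
  weight_four_disjoint hu hv (hmin _ huv (sub_ne_zero.2 hne))

/-- a family of words of weight four with pairwise disjoint supports has at most six members -/
theorem card_le_six (S : Finset V24) (h4 : ∀ u ∈ S, hammingNorm u = 4)
    (hd : ∀ u ∈ S, ∀ v ∈ S, u ≠ v → Disjoint (supp u) (supp v)) : S.card ≤ 6 := by
  have h1 : (S.biUnion supp).card = ∑ u ∈ S, (supp u).card :=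
    Finset.card_biUnion (fun u hu v hv huv => hd u hu v hv huv)
  have h2 : ∑ u ∈ S, (supp u).card = ∑ _u ∈ S, 4 :=
    Finset.sum_congr rfl (fun u hu => by rw [← hammingNorm_eq_card_supp, h4 u hu])
  have h3 : (S.biUnion supp).card ≤ 24 := by
    have := Finset.card_le_univ (S.biUnion supp)
    simpa using this
  rw [h2] at h1
  simp at h1
  omega

/-- if there are exactly six, the supports cover everything -/
theorem cover_of_six (S : Finset V24) (h4 : ∀ u ∈ S, hammingNorm u = 4)
    (hd : ∀ u ∈ S, ∀ v ∈ S, u ≠ v → Disjoint (supp u) (supp v)) (h6 : S.card = 6) (i : Fin 24) :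
    ∃ u ∈ S, i ∈ supp u := by
  have h1 : (S.biUnion supp).card = ∑ u ∈ S, (supp u).card :=
    Finset.card_biUnion (fun u hu v hv huv => hd u hu v hv huv)
  have h2 : ∑ u ∈ S, (supp u).card = ∑ _u ∈ S, 4 :=
    Finset.sum_congr rfl (fun u hu => by rw [← hammingNorm_eq_card_supp, h4 u hu])
  rw [h2] at h1
  simp [h6] at h1
  have h3 : S.biUnion supp = Finset.univ := by
    apply Finset.eq_univ_of_card
    simpa using h1
  have : i ∈ S.biUnion supp := by rw [h3]; exact Finset.mem_univ i
  simpa using this


theorem card_weight_le_three :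
    (Finset.univ.filter fun u : V24 => hammingNorm u ≤ 3).card = 2325 := by
  have h := Finset.card_eq_sum_card_fiberwise (f := fun u : V24 => hammingNorm u)
    (s := Finset.univ.filter fun u : V24 => hammingNorm u ≤ 3) (t := Finset.range 4)
    (by
      intro x hx
      simp only [Finset.coe_filter, Finset.mem_univ, true_and, Set.mem_ofPred_eq] at hx
      simp only [Finset.coe_range, Set.mem_Iio]
      omega)
  rw [h]
  have h2 : ∀ k ∈ Finset.range 4,
      ((Finset.univ.filter fun u : V24 => hammingNorm u ≤ 3).filter fun u => hammingNorm u = k).card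
        = Nat.choose 24 k := by
    intro k hk
    have he : ((Finset.univ.filter fun u : V24 => hammingNorm u ≤ 3).filter fun u => hammingNorm u = k)
        = Finset.univ.filter fun u : V24 => hammingNorm u = k := by
      ext u
      simp only [Finset.mem_filter, Finset.mem_univ, true_and]
      rw [Finset.mem_range] at hk
      constructor
      · exact fun h => h.2
      · exact fun h => ⟨by omega, h⟩
    rw [he]
    exact card_weight_eq k
  rw [Finset.sum_congr rfl h2]
  decide

open Classical in
/-- The counting theorem: every coset has a leader of weight at most three, or exactly six words of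
weight four. -/
theorem leaders (hdim : Module.finrank (ZMod 2) C = 12)
    (hmin : ∀ w ∈ C, w ≠ 0 → 8 ≤ hammingNorm w) (w : V24) :
    (∃ u : V24, hammingNorm u ≤ 3 ∧ u - w ∈ C) ∨
      (Finset.univ.filter fun u : V24 => hammingNorm u = 4 ∧ u - w ∈ C).card = 6 := by
  set π : V24 → V24 ⧸ C := fun u => Submodule.Quotient.mk u with hπ
  have hπeq : ∀ u v : V24, π u = π v ↔ u - v ∈ C := fun u v => Submodule.Quotient.eq C
  set A : Finset V24 := Finset.univ.filter fun u : V24 => hammingNorm u ≤ 3 with hA
  set B : Finset V24 := Finset.univ.filter fun u : V24 => hammingNorm u = 4 with hB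
  have hAcard : A.card = 2325 := card_weight_le_three
  have hBcard : B.card = 10626 := by
    rw [hB, card_weight_eq]; decide
  have hAinj : Set.InjOn π A := by
    intro u hu v hv huv
    simp only [hA, Finset.coe_filter, Finset.mem_univ, true_and, Set.mem_ofPred_eq] at hu hv
    by_contra hne
    have := same_coset hmin (by omega) (by omega) ((hπeq u v).1 huv) hne
    omega
  have hAimg : (A.image π).card = 2325 := by
    rw [Finset.card_image_of_injOn hAinj, hAcard]
  have hdisj : Disjoint (A.image π) (B.image π) := by
    rw [Finset.disjoint_left]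
    intro q hqA hqB
    rw [Finset.mem_image] at hqA hqB
    obtain ⟨u, hu, rfl⟩ := hqA
    obtain ⟨v, hv, hvu⟩ := hqB
    simp only [hA, hB, Finset.mem_filter, Finset.mem_univ, true_and] at hu hv
    have hne : v ≠ u := by
      rintro rfl
      omega
    have := same_coset hmin (by omega) (by omega) ((hπeq v u).1 hvu) hne
    omega
  have hQ : Fintype.card (V24 ⧸ C) = 4096 := by
    rw [← Nat.card_eq_fintype_card]; exact card_quot C hdim
  have hunion : (A.image π ∪ B.image π).card ≤ 4096 := by
    rw [← hQ]; exact Finset.card_le_univ _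
  rw [Finset.card_union_of_disjoint hdisj, hAimg] at hunion
  have hfib : ∀ q ∈ B.image π, (B.filter fun a => π a = q).card ≤ 6 := by
    intro q _
    apply card_le_six
    · intro u hu
      simp only [hB, Finset.mem_filter, Finset.mem_univ, true_and] at hu
      exact hu.1
    · intro u hu v hv huv
      simp only [hB, Finset.mem_filter, Finset.mem_univ, true_and] at hu hv
      exact (same_coset hmin (by omega) (by omega) ((hπeq u v).1 (hu.2.trans hv.2.symm)) huv).2.2
  have hsum := Finset.card_eq_sum_card_image π B
  have hsumle : ∑ q ∈ B.image π, (B.filter fun a => π a = q).card ≤ ∑ _q ∈ B.image π, 6 :=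
    Finset.sum_le_sum hfib
  have hconst : ∑ _q ∈ B.image π, 6 = (B.image π).card * 6 := by simp
  have hBimg : (B.image π).card = 1771 := by omega
  have hfib6 : ∀ q ∈ B.image π, (B.filter fun a => π a = q).card = 6 := by
    intro q hq
    by_contra hne
    have hlt : (B.filter fun a => π a = q).card < 6 := lt_of_le_of_ne (hfib q hq) hne
    have : ∑ q ∈ B.image π, (B.filter fun a => π a = q).card < ∑ _q ∈ B.image π, 6 :=
      Finset.sum_lt_sum hfib ⟨q, hq, hlt⟩
    omega
  have huniv : A.image π ∪ B.image π = Finset.univ := by
    apply Finset.eq_univ_of_card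
    rw [Finset.card_union_of_disjoint hdisj, hAimg, hBimg, hQ]
  have hw : π w ∈ A.image π ∪ B.image π := by rw [huniv]; exact Finset.mem_univ _
  rw [Finset.mem_union] at hw
  rcases hw with hw | hw
  · left
    rw [Finset.mem_image] at hw
    obtain ⟨u, hu, huw⟩ := hw
    simp only [hA, Finset.mem_filter, Finset.mem_univ, true_and] at hu
    exact ⟨u, hu, (hπeq u w).1 huw⟩
  · right
    have he : (Finset.univ.filter fun u : V24 => hammingNorm u = 4 ∧ u - w ∈ C)
        = B.filter fun a => π a = π w := by
      ext u
      simp only [hB, Finset.mem_filter, Finset.mem_univ, true_and, hπeq]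
    rw [he]
    exact hfib6 _ hw

end counting

end Cfsg.Agent.Lib.Helper28
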