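import Cfsg.Agent.Lib.Helper28.AbsGolay

set_option autoImplicit false

namespace Cfsg.Agent.Lib.Helper28

open Finset

theorem supp_sub (u v : V24) : supp (u - v) = (supp u \ supp v) ∪ (supp v \ supp u) := by
  ext i
  simp only [Finset.mem_union, Finset.mem_sdiff, mem_supp, Pi.sub_apply]
  generalize u i = a
  generalize v i = b
  revert a b
  decide

theorem sub_eq_add' (u v : V24) : u - v = u + v := by
  funext i
  simp only [Pi.sub_apply, Pi.add_apply]
  generalize u i = a
  generalize v i = b
  revert a b
  decide

theorem weight_sub (u v : V24) :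
    hammingNorm (u - v) + 2 * (supp u ∩ supp v).card = hammingNorm u + hammingNorm v := by
  rw [hammingNorm_eq_card_supp, hammingNorm_eq_card_supp, hammingNorm_eq_card_supp, supp_sub]
  have hd : Disjoint (supp u \ supp v) (supp v \ supp u) := by
    rw [Finset.disjoint_left]
    intro i hi hi'
    rw [Finset.mem_sdiff] at hi hi'
    exact hi.2 hi'.1
  rw [Finset.card_union_of_disjoint hd]
  have h1 := Finset.card_sdiff_add_card_inter (supp u) (supp v)
  have h2 := Finset.card_sdiff_add_card_inter (supp v) (supp u)
  rw [Finset.inter_comm (supp v) (supp u)] at h2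
  omega

theorem weight_add (u v : V24) :
    hammingNorm (u + v) + 2 * (supp u ∩ supp v).card = hammingNorm u + hammingNorm v := by
  rw [← sub_eq_add']; exact weight_sub u v

variable {C : Submodule (ZMod 2) V24}

/-- Every five points lie in the support of a code word of weight eight. -/
theorem exists_octad (hdim : Module.finrank (ZMod 2) C = 12)
    (hmin : ∀ w ∈ C, w ≠ 0 → 8 ≤ hammingNorm w) (s : Finset (Fin 24)) (hs : s.card = 5) :
    ∃ c ∈ C, hammingNorm c = 8 ∧ s ⊆ supp c := by
  classical
  have hne : s.Nonempty := by rw [← Finset.card_pos]; omega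
  obtain ⟨x, hx⟩ := hne
  set T := s.erase x with hT
  have hTcard : T.card = 4 := by rw [hT, Finset.card_erase_of_mem hx, hs]
  set u : V24 := ind T with hu
  have hu4 : hammingNorm u = 4 := by rw [hammingNorm_eq_card_supp, hu, supp_ind, hTcard]
  rcases leaders C hdim hmin u with ⟨v, hv3, hvC⟩ | h6
  · exfalso
    have hne : v ≠ u := by
      rintro rfl
      omega
    have := same_coset hmin (by omega) (by omega) hvC hne
    omega
  · set S := Finset.univ.filter fun v : V24 => hammingNorm v = 4 ∧ v - u ∈ C with hS
    have hS4 : ∀ v ∈ S, hammingNorm v = 4 := by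
      intro v hv
      simp only [hS, Finset.mem_filter, Finset.mem_univ, true_and] at hv
      exact hv.1
    have hSd : ∀ v ∈ S, ∀ v' ∈ S, v ≠ v' → Disjoint (supp v) (supp v') := by
      intro v hv v' hv' hne
      simp only [hS, Finset.mem_filter, Finset.mem_univ, true_and] at hv hv'
      have hvv : v - v' ∈ C := by
        have := C.sub_mem hv.2 hv'.2
        simpa using this
      exact (same_coset hmin (by omega) (by omega) hvv hne).2.2
    obtain ⟨v, hvS, hxv⟩ := cover_of_six S hS4 hSd h6 x
    have huS : u ∈ S := by
      simp only [hS, Finset.mem_filter, Finset.mem_univ, true_and]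
      exact ⟨hu4, by simp⟩
    have hvu : v ≠ u := by
      rintro rfl
      rw [hu, supp_ind, hT] at hxv
      exact (Finset.notMem_erase x s) hxv
    have hdis := hSd v hvS u huS hvu
    have hvC : v - u ∈ C := by
      simp only [hS, Finset.mem_filter, Finset.mem_univ, true_and] at hvS
      exact hvS.2
    refine ⟨v - u, hvC, ?_, ?_⟩
    · have h := weight_sub v u
      rw [Finset.disjoint_iff_inter_eq_empty.1 hdis, hS4 v hvS, hu4] at h
      simpa using h
    · intro i hi
      rw [supp_sub, Finset.mem_union, Finset.mem_sdiff, Finset.mem_sdiff]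
      by_cases hix : i = x
      · left
        subst hix
        exact ⟨hxv, fun h => (Finset.disjoint_left.1 hdis) hxv h⟩
      · right
        have hiu : i ∈ supp u := by
          rw [hu, supp_ind, hT]
          exact Finset.mem_erase.2 ⟨hix, hi⟩
        exact ⟨hiu, fun h => (Finset.disjoint_left.1 hdis) h hiu⟩

/-- Two code words of weight eight sharing five points are equal. -/
theorem octad_unique (hmin : ∀ w ∈ C, w ≠ 0 → 8 ≤ hammingNorm w) {c c' : V24} (hc : c ∈ C)
    (hc' : c' ∈ C) (h8 : hammingNorm c = 8) (h8' : hammingNorm c' = 8) {s : Finset (Fin 24)}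
    (hs : 5 ≤ s.card) (hsc : s ⊆ supp c) (hsc' : s ⊆ supp c') : c = c' := by
  by_contra hne
  have h1 := hmin _ (C.sub_mem hc hc') (sub_ne_zero.2 hne)
  have h2 := weight_sub c c'
  have h3 : s.card ≤ (supp c ∩ supp c').card :=
    Finset.card_le_card (Finset.subset_inter hsc hsc')
  omega

end Cfsg.Agent.Lib.Helper28
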