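import Mathlib
import Cfsg.Agent.Lib.Helper11.M24Sets

set_option autoImplicit false

namespace Cfsg.Agent.Lib.Helper28

open Cfsg Cfsg.Agent.Lib.Helper3 Cfsg.Agent.Lib.Helper11
open scoped Pointwise

/-- pointwise stabiliser in the group of the code -/
def Fx (s : Finset GolayPt) : Subgroup (Equiv.Perm GolayPt) :=
  M24 ⊓ fixingSubgroup (Equiv.Perm GolayPt) (s : Set GolayPt)

theorem mem_Fx {s : Finset GolayPt} {g : Equiv.Perm GolayPt} :
    g ∈ Fx s ↔ g ∈ M24 ∧ ∀ p ∈ s, g p = p := by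
  rw [Fx, Subgroup.mem_inf, mem_fixingSubgroup_iff]
  rfl

theorem card_Fx_smul {h : Equiv.Perm GolayPt} (hh : h ∈ M24) (s : Finset GolayPt) :
    Nat.card (Fx (h • s)) = Nat.card (Fx s) :=
  (Nat.card_congr (fixConj h hh s)).symm

theorem card_subtype_Fx (s : Finset GolayPt) :
    Nat.card {g : Equiv.Perm GolayPt // g ∈ M24 ∧ ∀ p ∈ s, g p = p} = Nat.card (Fx s) := by
  apply Nat.card_congr
  exact Equiv.subtypeEquivRight (fun g => mem_Fx.symm)

theorem Fx_insert (a : GolayPt) (s : Finset GolayPt) :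
    Fx (insert a s) = Fx s ⊓ MulAction.stabilizer (Equiv.Perm GolayPt) a := by
  ext g
  rw [Subgroup.mem_inf, mem_Fx, mem_Fx, MulAction.mem_stabilizer_iff]
  constructor
  · rintro ⟨h1, h2⟩
    exact ⟨⟨h1, fun p hp => h2 p (Finset.mem_insert_of_mem hp)⟩, h2 a (Finset.mem_insert_self _ _)⟩
  · rintro ⟨⟨h1, h2⟩, h3⟩
    refine ⟨h1, fun p hp => ?_⟩
    rcases Finset.mem_insert.1 hp with rfl | hp
    · exact h3
    · exact h2 p hp

theorem Fx_base5 : Fx ((Finset.range 5).image bpt) = K 5 := by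
  ext g
  rw [mem_Fx, mem_K]
  apply and_congr_right
  intro _
  constructor
  · intro h j hj
    exact h _ (Finset.mem_image.2 ⟨j, Finset.mem_range.2 hj, rfl⟩)
  · intro h p hp
    obtain ⟨j, hj, rfl⟩ := Finset.mem_image.1 hp
    exact h j (Finset.mem_range.1 hj)

theorem card_Fx_five {B : Finset GolayPt} (hB : B.card = 5) : Nat.card (Fx B) = 48 := by
  obtain ⟨u, hu, hbase⟩ := exists_map_to_base B (by rw [hB])
  have huM : u ∈ M24 := H_le hu
  have himg : (Finset.range 5).image bpt = u • B := by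
    apply Finset.eq_of_subset_of_card_le
    · intro p hp
      obtain ⟨j, hj, rfl⟩ := Finset.mem_image.1 hp
      exact hbase j (Finset.mem_range.1 hj)
    · rw [Finset.card_smul_finset, hB, Finset.card_image_of_injOn, Finset.card_range]
      intro i hi j hj hij
      have hi' := Finset.mem_range.1 hi
      have hj' := Finset.mem_range.1 hj
      exact bpt_inj (by omega) (by omega) hij
  rw [← card_Fx_smul huM, ← himg, Fx_base5]
  exact card_K_values.2.2.1

theorem smul_octad_of_Fx {B o : Finset GolayPt} (hB : 5 ≤ B.card) (ho : o ∈ octads) (hBo : B ⊆ o)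
    {g : Equiv.Perm GolayPt} (hg : g ∈ Fx B) : g • o = o := by
  rw [mem_Fx] at hg
  apply octad_unique (s := B) (smul_mem_octads hg.1 ho) ho hB _ hBo
  intro p hp
  have : g p ∈ g • o := Finset.smul_mem_smul_finset (hBo hp)
  rwa [hg.2 p hp] at this

theorem orbit_Fx_five {B o : Finset GolayPt} (hB : B.card = 5) (ho : o ∈ octads) (hBo : B ⊆ o)
    {a : GolayPt} (ha : a ∉ B) :
    MulAction.orbit (Fx B) a = {q | q ∉ B ∧ (q ∈ o ↔ a ∈ o)} := by
  ext q
  constructor
  · rintro ⟨⟨g, hg⟩, rfl⟩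
    have hgo := smul_octad_of_Fx hB.ge ho hBo hg
    have hg' := mem_Fx.1 hg
    show g a ∉ B ∧ (g a ∈ o ↔ a ∈ o)
    constructor
    · intro h
      have h1 := hg'.2 _ h
      have h2 : g a = a := g.injective h1
      rw [h2] at h
      exact ha h
    · conv_lhs => rw [← hgo]
      exact Finset.smul_mem_smul_finset_iff g
  · rintro ⟨hq, hqo⟩
    obtain ⟨g, hg, hgB, hga⟩ := fix5_trans B hB a q ha hq o ho hBo hqo.symm
    exact ⟨⟨g, mem_Fx.2 ⟨hg, hgB⟩⟩, hga⟩

theorem card_Fx_six_in {E : Finset GolayPt} (hE : E.card = 6) (h : ∃ o ∈ octads, E ⊆ o) :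
    Nat.card (Fx E) = 16 := by
  obtain ⟨o, ho, hEo⟩ := h
  obtain ⟨a, ha⟩ : E.Nonempty := by rw [← Finset.card_pos]; omega
  have hB : (E.erase a).card = 5 := by rw [Finset.card_erase_of_mem ha, hE]
  have hBo : E.erase a ⊆ o := (Finset.erase_subset _ _).trans hEo
  have h48 := card_eq_orbit_mul (Fx (E.erase a)) a
  rw [card_Fx_five hB, ← Fx_insert, Finset.insert_erase ha,
    orbit_Fx_five hB ho hBo (Finset.notMem_erase a E)] at h48
  have hset : {q | q ∉ E.erase a ∧ (q ∈ o ↔ a ∈ o)} = ((o \ E.erase a : Finset GolayPt) : Set GolayPt) := by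
    ext q
    simp only [Set.mem_ofPred_eq, Finset.coe_sdiff, Set.mem_sdiff, Finset.mem_coe]
    constructor
    · rintro ⟨h1, h2⟩
      exact ⟨h2.2 (hEo ha), h1⟩
    · rintro ⟨h1, h2⟩
      exact ⟨h2, fun _ => hEo ha, fun _ => h1⟩
  rw [hset, Set.ncard_coe_finset, Finset.card_sdiff_of_subset hBo, hB, ho.2] at h48
  omega

theorem card_Fx_six_out {E : Finset GolayPt} (hE : E.card = 6) (h : ¬ ∃ o ∈ octads, E ⊆ o) :
    Nat.card (Fx E) = 3 := by
  obtain ⟨a, ha⟩ : E.Nonempty := by rw [← Finset.card_pos]; omega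
  have hB : (E.erase a).card = 5 := by rw [Finset.card_erase_of_mem ha, hE]
  obtain ⟨o, ho, hBo⟩ := exists_octad _ hB
  have hao : a ∉ o := by
    intro hao
    apply h
    refine ⟨o, ho, ?_⟩
    rw [← Finset.insert_erase ha]
    exact Finset.insert_subset hao hBo
  have h48 := card_eq_orbit_mul (Fx (E.erase a)) a
  rw [card_Fx_five hB, ← Fx_insert, Finset.insert_erase ha,
    orbit_Fx_five hB ho hBo (Finset.notMem_erase a E)] at h48
  have hset : {q | q ∉ E.erase a ∧ (q ∈ o ↔ a ∈ o)} = ((oᶜ : Finset GolayPt) : Set GolayPt) := by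
    ext q
    simp only [Set.mem_ofPred_eq, Finset.coe_compl, Set.mem_compl_iff, Finset.mem_coe]
    constructor
    · rintro ⟨h1, h2⟩ h3
      exact hao (h2.1 h3)
    · intro h1
      exact ⟨fun h2 => h1 (hBo h2), fun h2 => absurd h2 h1, fun h2 => absurd h2 hao⟩
  have h24 : Fintype.card GolayPt = 24 := rfl
  rw [hset, Set.ncard_coe_finset, Finset.card_compl, ho.2, h24] at h48
  omega

theorem mem_iff_of_smul_eq {g : Equiv.Perm GolayPt} {E : Finset GolayPt} (h : g • E = E)
    (x : GolayPt) : g x ∈ E ↔ x ∈ E := by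
  conv_lhs => rw [← h]
  exact Finset.smul_mem_smul_finset_iff g

theorem smul_eq_of_maps {g : Equiv.Perm GolayPt} {E : Finset GolayPt} (h : ∀ x ∈ E, g x ∈ E) :
    g • E = E := by
  apply Finset.eq_of_subset_of_card_le
  · intro p hp
    obtain ⟨x, hx, rfl⟩ := Finset.mem_smul_finset.1 hp
    exact h x hx
  · rw [Finset.card_smul_finset]

/-- restriction of the setwise stabiliser to the set -/
def resHom (E : Finset GolayPt) : ↥(MulAction.stabilizer M24 E) →* Equiv.Perm ↥E where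
  toFun g := Equiv.Perm.subtypePerm (g.1.1) (mem_iff_of_smul_eq g.2)
  map_one' := by
    ext x
    rfl
  map_mul' a b := by
    ext x
    rfl

theorem resHom_apply (E : Finset GolayPt) (g : ↥(MulAction.stabilizer M24 E)) (x : ↥E) :
    ((resHom E g x : ↥E) : GolayPt) = g.1.1 x := rfl

theorem card_ker_resHom (E : Finset GolayPt) : Nat.card (resHom E).ker = Nat.card (Fx E) := by
  apply Nat.card_congr
  refine
    { toFun := fun g => ⟨g.1.1.1, mem_Fx.2 ⟨g.1.1.2, fun p hp => ?_⟩⟩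
      invFun := fun g => ⟨⟨⟨g.1, (mem_Fx.1 g.2).1⟩, ?_⟩, ?_⟩
      left_inv := fun _ => rfl
      right_inv := fun _ => rfl }
  · have h1 := g.2
    rw [MonoidHom.mem_ker] at h1
    have h2 := congrArg (fun σ : Equiv.Perm ↥E => ((σ ⟨p, hp⟩ : ↥E) : GolayPt)) h1
    exact h2
  · rw [MulAction.mem_stabilizer_iff]
    apply smul_eq_of_maps
    intro x hx
    show g.1 x ∈ E
    rw [(mem_Fx.1 g.2).2 x hx]; exact hx
  · rw [MonoidHom.mem_ker]
    apply Equiv.ext
    intro x
    apply Subtype.ext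
    exact (mem_Fx.1 g.2).2 x.1 x.2

theorem resHom_surjective {E : Finset GolayPt}
    (hs : ∀ σ : Equiv.Perm ↥E, ∃ g ∈ M24, ∀ p : ↥E, g p = σ p) :
    Function.Surjective (resHom E) := by
  intro σ
  obtain ⟨g, hg, hgσ⟩ := hs σ
  refine ⟨⟨⟨g, hg⟩, ?_⟩, ?_⟩
  · rw [MulAction.mem_stabilizer_iff]
    apply smul_eq_of_maps
    intro x hx
    show g x ∈ E
    rw [hgσ ⟨x, hx⟩]; exact (σ ⟨x, hx⟩).2
  · apply Equiv.ext
    intro x
    apply Subtype.ext
    exact hgσ x

theorem card_stabilizer_of_surj {E : Finset GolayPt}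
    (hs : ∀ σ : Equiv.Perm ↥E, ∃ g ∈ M24, ∀ p : ↥E, g p = σ p) :
    Nat.card (MulAction.stabilizer M24 E) = Nat.card (Fx E) * (E.card).factorial := by
  rw [← (resHom E).ker.card_mul_index, card_ker_resHom, Subgroup.index_ker,
    MonoidHom.range_eq_top.2 (resHom_surjective hs), Subgroup.card_top,
    Nat.card_eq_fintype_card (α := Equiv.Perm ↥E), Fintype.card_perm, Fintype.card_coe]

/-- the group of the code induces the full symmetric group on every six-set -/
theorem six_sym {E : Finset GolayPt} (hE : E.card = 6) (σ : Equiv.Perm ↥E) :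
    ∃ g ∈ M24, ∀ p : ↥E, g p = σ p := by
  classical
  set π : Equiv.Perm GolayPt := Equiv.Perm.ofSubtype σ with hπ
  have hπE : π • E = E := by
    apply smul_eq_of_maps
    intro x hx
    have : π x = σ ⟨x, hx⟩ := Equiv.Perm.ofSubtype_apply_of_mem σ hx
    rw [this]; exact (σ ⟨x, hx⟩).2
  obtain ⟨g, hg, hga⟩ := six_trans π E hE (by rw [hπE])
  refine ⟨g, hg, fun p => ?_⟩
  rw [hga p.1 p.2]
  exact Equiv.Perm.ofSubtype_apply_of_mem σ p.2

end Cfsg.Agent.Lib.Helper28
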