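import Mathlib
import Cfsg.Agent.Lib.Helper3.M12Chain
import Cfsg.Agent.Lib.Helper28.M24Fix

set_option autoImplicit false

namespace Cfsg.Agent.Lib.Helper28

open Cfsg Cfsg.Agent.Lib.Helper3 Cfsg.Agent.Lib.Helper11
open scoped Pointwise

/-- five-fold transitivity of the stabiliser of a dodecad, in function form -/
theorem exists_M12_agree {d : Finset GolayPt} (hd : d ∈ dodecads) {A : Finset GolayPt}
    (hA : A.card = 5) (hAd : A ⊆ d) (f : GolayPt → GolayPt) (hf : Set.InjOn f A)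
    (hfd : ∀ a ∈ A, f a ∈ d) : ∃ g ∈ M24, g • d = d ∧ ∀ a ∈ A, g a = f a := by
  let e := (A.equivFinOfCardEq hA).symm
  let x : Fin 5 ↪ GolayPt := ⟨fun i => (e i : GolayPt), fun i j h => e.injective (Subtype.ext h)⟩
  let y : Fin 5 ↪ GolayPt := ⟨fun i => f (e i : GolayPt), fun i j h =>
    e.injective (Subtype.ext (hf (e i).2 (e j).2 h))⟩
  obtain ⟨g, ⟨hg, hgd, hgx⟩, -⟩ := sharp5 hd x y (fun i => hAd (e i).2) (fun i => hfd _ (e i).2)
  refine ⟨g, hg, hgd, fun a ha => ?_⟩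
  have h1 : g ((e (e.symm ⟨a, ha⟩) : ↥A) : GolayPt) = f ((e (e.symm ⟨a, ha⟩) : ↥A) : GolayPt) :=
    hgx (e.symm ⟨a, ha⟩)
  rw [Equiv.apply_symm_apply] at h1
  exact h1

theorem eq_one_of_fix5 {d : Finset GolayPt} (hd : d ∈ dodecads) {g : Equiv.Perm GolayPt}
    (hg : g ∈ M24) (hgd : g • d = d) {s : Finset GolayPt} (hs : 5 ≤ s.card) (hsd : s ⊆ d)
    (hfix : ∀ p ∈ s, g p = p) : g = 1 := by
  obtain ⟨A, hAs, hA⟩ := Finset.exists_subset_card_eq hs
  let e := (A.equivFinOfCardEq hA).symm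
  let x : Fin 5 ↪ GolayPt := ⟨fun i => (e i : GolayPt), fun i j h => e.injective (Subtype.ext h)⟩
  obtain ⟨g0, -, huniq⟩ := sharp5 hd x x (fun i => hsd (hAs (e i).2)) (fun i => hsd (hAs (e i).2))
  have h1 := huniq g ⟨hg, hgd, fun i => hfix _ (hAs (e i).2)⟩
  have h2 := huniq 1 ⟨M24.one_mem, one_smul _ _, fun i => rfl⟩
  rw [h1, h2]

theorem perm_fix_last {α : Type*} (ρ : Equiv.Perm α) (p : α) (h : ∀ q, q ≠ p → ρ q = q) :
    ρ p = p := by
  by_contra hne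
  have := h (ρ p) hne
  exact hne (ρ.injective this)

end Cfsg.Agent.Lib.Helper28
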