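import Mathlib
import Cfsg.Prelude.Def_RootSubgroups
set_option autoImplicit false

namespace Cfsg.Agent.Lib.Helper28

variable {G : Type*} [Group G]

lemma mem_conjBy {A : Subgroup G} {g x : G} : x ∈ Cfsg.conjBy A g ↔ g⁻¹ * x * g ∈ A := by
  constructor
  · rintro ⟨y, hy, rfl⟩
    simpa [mul_assoc] using hy
  · intro h
    exact ⟨g⁻¹ * x * g, h, by simp [mul_assoc]⟩

lemma conj_mem_conjBy {A : Subgroup G} {g x : G} (hx : x ∈ A) : g * x * g⁻¹ ∈ Cfsg.conjBy A g := by
  rw [mem_conjBy]; simpa [mul_assoc] using hx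

lemma conjBy_conjBy (A : Subgroup G) (g h : G) :
    Cfsg.conjBy (Cfsg.conjBy A g) h = Cfsg.conjBy A (h * g) := by
  ext x
  simp only [mem_conjBy, mul_inv_rev, mul_assoc]

lemma conjBy_one (A : Subgroup G) : Cfsg.conjBy A 1 = A := by
  ext x
  simp [mem_conjBy]

lemma conjBy_eq_iff {A B : Subgroup G} {g : G} : Cfsg.conjBy A g = B ↔ A = Cfsg.conjBy B g⁻¹ := by
  constructor
  · rintro rfl
    rw [conjBy_conjBy, inv_mul_cancel, conjBy_one]
  · intro h
    rw [h, conjBy_conjBy, mul_inv_cancel, conjBy_one]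

lemma conjBy_injective (g : G) {A B : Subgroup G} (h : Cfsg.conjBy A g = Cfsg.conjBy B g) : A = B := by
  rw [conjBy_eq_iff, conjBy_conjBy, inv_mul_cancel, conjBy_one] at h
  exact h

lemma conjBy_eq_self_iff {A : Subgroup G} {g : G} :
    Cfsg.conjBy A g = A ↔ g ∈ Subgroup.normalizer (A : Set G) :=
  Subgroup.mem_normalizer_iff_map_conj_eq.symm

lemma conjBy_of_mem {A : Subgroup G} {g : G} (hg : g ∈ A) : Cfsg.conjBy A g = A :=
  conjBy_eq_self_iff.2 (Subgroup.le_normalizer hg)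

lemma conjBy_le_of_le {A K : Subgroup G} {g : G} (hA : A ≤ K) (hg : g ∈ K) : Cfsg.conjBy A g ≤ K := by
  intro x hx
  rw [mem_conjBy] at hx
  have := K.mul_mem (K.mul_mem hg (hA hx)) (K.inv_mem hg)
  simpa [mul_assoc] using this

lemma conjBy_eq_conjBy_iff {A : Subgroup G} {g h : G} :
    Cfsg.conjBy A g = Cfsg.conjBy A h ↔ h⁻¹ * g ∈ Subgroup.normalizer (A : Set G) := by
  rw [← conjBy_eq_self_iff, ← conjBy_conjBy]
  constructor
  · intro h
    rw [h, conjBy_conjBy, inv_mul_cancel, conjBy_one]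
  · intro h
    rw [conjBy_eq_iff, inv_inv] at h
    exact h

namespace RankOne

variable {A B : Subgroup G}

lemma inf_normalizer (h : Cfsg.IsRankOnePair A B) : A ⊓ Subgroup.normalizer (B : Set G) = ⊥ := by
  rw [eq_bot_iff]
  rintro a ⟨haA, haN⟩
  by_contra ha1
  have ha1' : a ≠ 1 := fun h => ha1 (by simpa using h)
  obtain ⟨b, hb, -, hc⟩ := h.cond_left a haA ha1'
  have h1 : Cfsg.conjBy B a⁻¹ = B := conjBy_eq_self_iff.2 (inv_mem haN)
  rw [h1, conjBy_eq_iff, inv_inv, conjBy_of_mem hb] at hc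
  exact h.ne hc

lemma inf_normalizer' (h : Cfsg.IsRankOnePair A B) : B ⊓ Subgroup.normalizer (A : Set G) = ⊥ :=
  inf_normalizer (Cfsg.RankOnePair_symm h)

lemma eq_one_of_normalizes (h : Cfsg.IsRankOnePair A B) {a : G} (ha : a ∈ A)
    (hn : a ∈ Subgroup.normalizer (B : Set G)) : a = 1 := by
  have : a ∈ A ⊓ Subgroup.normalizer (B : Set G) := ⟨ha, hn⟩
  rw [inf_normalizer h] at this
  simpa using this

lemma exists_ne_one_left (h : Cfsg.IsRankOnePair A B) : ∃ a ∈ A, a ≠ 1 := by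
  by_contra hcon
  push Not at hcon
  have hA : A = ⊥ := (Subgroup.eq_bot_iff_forall A).2 hcon
  have hB : B ≠ ⊥ := fun hB => h.ne (hA.trans hB.symm)
  obtain ⟨b, hb, hb1⟩ : ∃ b ∈ B, b ≠ 1 := by
    by_contra hc
    push Not at hc
    exact hB ((Subgroup.eq_bot_iff_forall B).2 hc)
  obtain ⟨a, ha, ha1, -⟩ := h.cond_right b hb hb1
  exact ha1 (hcon a ha)

lemma exists_ne_one_right (h : Cfsg.IsRankOnePair A B) : ∃ b ∈ B, b ≠ 1 :=
  exists_ne_one_left (Cfsg.RankOnePair_symm h)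

/-- the set `{A} ∪ B^A`. -/
def Om (A B : Subgroup G) : Set (Subgroup G) := {C | C = A ∨ ∃ a ∈ A, C = Cfsg.conjBy B a}

lemma Om_conj_left {C : Subgroup G} (hC : C ∈ Om A B) {a : G} (ha : a ∈ A) :
    Cfsg.conjBy C a ∈ Om A B := by
  rcases hC with rfl | ⟨a', ha', rfl⟩
  · exact Or.inl (conjBy_of_mem ha)
  · exact Or.inr ⟨a * a', A.mul_mem ha ha', conjBy_conjBy _ _ _⟩

lemma conj_A_mem_Om (h : Cfsg.IsRankOnePair A B) {b : G} (hb : b ∈ B) :
    Cfsg.conjBy A b ∈ Om A B := by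
  by_cases hb1 : b = 1
  · subst hb1; exact Or.inl (conjBy_one A)
  · obtain ⟨a, ha, -, hc⟩ := h.cond_right b⁻¹ (B.inv_mem hb) (by simpa using hb1)
    rw [inv_inv] at hc
    exact Or.inr ⟨a⁻¹, A.inv_mem ha, hc.symm⟩

lemma Om_conj_right (h : Cfsg.IsRankOnePair A B) {C : Subgroup G} (hC : C ∈ Om A B) {b : G}
    (hb : b ∈ B) : Cfsg.conjBy C b ∈ Om A B := by
  rcases hC with rfl | ⟨a, ha, rfl⟩
  · exact conj_A_mem_Om h hb
  · by_cases ha1 : a = 1
    · subst ha1
      rw [conjBy_one, conjBy_of_mem hb]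
      exact Or.inr ⟨1, A.one_mem, (conjBy_one B).symm⟩
    · obtain ⟨b', hb', -, hc⟩ := h.cond_left a⁻¹ (A.inv_mem ha) (by simpa using ha1)
      rw [inv_inv] at hc
      rw [← hc, conjBy_conjBy]
      exact conj_A_mem_Om h (B.mul_mem hb (B.inv_mem hb'))

lemma Om_conj (h : Cfsg.IsRankOnePair A B) {x : G} (hx : x ∈ A ⊔ B) :
    ∀ C ∈ Om A B, Cfsg.conjBy C x ∈ Om A B := by
  rw [Subgroup.sup_eq_closure] at hx
  have key : (∀ C ∈ Om A B, Cfsg.conjBy C x ∈ Om A B) ∧ (∀ C ∈ Om A B, Cfsg.conjBy C x⁻¹ ∈ Om A B) := by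
    induction hx using Subgroup.closure_induction with
    | mem x hx =>
      rcases hx with hx | hx
      · exact ⟨fun C hC => Om_conj_left hC hx, fun C hC => Om_conj_left hC (A.inv_mem hx)⟩
      · exact ⟨fun C hC => Om_conj_right h hC hx, fun C hC => Om_conj_right h hC (B.inv_mem hx)⟩
    | one => simp [conjBy_one]
    | mul x y _ _ hx hy =>
      refine ⟨fun C hC => ?_, fun C hC => ?_⟩
      · rw [← conjBy_conjBy]
        exact hx.1 _ (hy.1 _ hC)
      · rw [mul_inv_rev, ← conjBy_conjBy]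
        exact hy.2 _ (hx.2 _ hC)
    | inv x _ hx => exact ⟨hx.2, by simpa using hx.1⟩
  exact key.1

lemma B_mem_unipotent (h : Cfsg.IsRankOnePair A B) : B ∈ Cfsg.unipotentSubgroups A B := by
  obtain ⟨a, ha, ha1⟩ := exists_ne_one_left h
  obtain ⟨b, hb, -, hc⟩ := h.cond_left a ha ha1
  refine ⟨a * b⁻¹, (A ⊔ B).mul_mem (Subgroup.mem_sup_left ha) ((A ⊔ B).inv_mem (Subgroup.mem_sup_right hb)), ?_⟩
  rw [← conjBy_conjBy, hc, conjBy_conjBy, mul_inv_cancel, conjBy_one]

lemma A_mem_unipotent : A ∈ Cfsg.unipotentSubgroups A B :=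
  ⟨1, one_mem _, (conjBy_one A).symm⟩

lemma unipotent_conj {C : Subgroup G} (hC : C ∈ Cfsg.unipotentSubgroups A B) {x : G} (hx : x ∈ A ⊔ B) :
    Cfsg.conjBy C x ∈ Cfsg.unipotentSubgroups A B := by
  obtain ⟨y, hy, rfl⟩ := hC
  exact ⟨x * y, mul_mem hx hy, conjBy_conjBy _ _ _⟩

lemma unipotent_eq_Om (h : Cfsg.IsRankOnePair A B) : Cfsg.unipotentSubgroups A B = Om A B := by
  ext C
  constructor
  · rintro ⟨x, hx, rfl⟩
    exact Om_conj h hx A (Or.inl rfl)
  · rintro (rfl | ⟨a, ha, rfl⟩)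
    · exact A_mem_unipotent
    · exact unipotent_conj (B_mem_unipotent h) (Subgroup.mem_sup_left ha)

lemma conjBy_B_ne_A (h : Cfsg.IsRankOnePair A B) {a : G} (ha : a ∈ A) : Cfsg.conjBy B a ≠ A := by
  intro hc
  rw [conjBy_eq_iff, conjBy_of_mem (A.inv_mem ha)] at hc
  exact h.ne hc.symm

lemma conjBy_B_inj (h : Cfsg.IsRankOnePair A B) {a a' : G} (ha : a ∈ A) (ha' : a' ∈ A)
    (hc : Cfsg.conjBy B a = Cfsg.conjBy B a') : a = a' := by
  rw [conjBy_eq_conjBy_iff] at hc
  have := eq_one_of_normalizes h (A.mul_mem (A.inv_mem ha') ha) hc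
  exact (inv_mul_eq_one.1 this).symm

lemma sup_eq_top_of_moves {X : Type*} [Group X] {A B : Subgroup X} (h : Cfsg.IsRankOneGroup X A B)
    (N : Subgroup X) {n : X} (hn : n ∈ N) (hmv : Cfsg.conjBy A n ≠ A) : N ⊔ A = ⊤ := by
  have h1 : Cfsg.conjBy A n ∈ Om A B := by
    rw [← unipotent_eq_Om h.2]
    exact ⟨n, by rw [h.1]; trivial, rfl⟩
  rcases h1 with h1 | ⟨a, ha, h1⟩
  · exact absurd h1 hmv
  · have hB : B = Cfsg.conjBy A (a⁻¹ * n) := by
      rw [← conjBy_conjBy, h1, conjBy_conjBy, inv_mul_cancel, conjBy_one]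
    have hBle : B ≤ N ⊔ A := by
      rw [hB]
      exact conjBy_le_of_le le_sup_right
        (mul_mem (inv_mem (Subgroup.mem_sup_right ha)) (Subgroup.mem_sup_left hn))
    rw [eq_top_iff, ← h.1]
    exact sup_le le_sup_right hBle

lemma normal_dichotomy {X : Type*} [Group X] {A B : Subgroup X} (h : Cfsg.IsRankOneGroup X A B)
    (N : Subgroup X) (hN : N.Normal) : N ⊔ A = ⊤ ∨ N ≤ Subgroup.center X := by
  by_cases hA : ∀ n ∈ N, Cfsg.conjBy A n = A
  · by_cases hB : ∀ n ∈ N, Cfsg.conjBy B n = B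
    · right
      intro n hn
      have hcomm : ∀ {A B : Subgroup X}, Cfsg.IsRankOnePair A B → (∀ n ∈ N, Cfsg.conjBy A n = A) →
          (∀ n ∈ N, Cfsg.conjBy B n = B) → ∀ a ∈ A, a * n = n * a := by
        intro A B h hA hB a ha
        have h1 : n * a * n⁻¹ * a⁻¹ ∈ A := by
          refine A.mul_mem ?_ (A.inv_mem ha)
          have := conj_mem_conjBy (g := n) ha
          rwa [hA n hn] at this
        have h2 : n * a * n⁻¹ * a⁻¹ ∈ N := by
          have := N.mul_mem hn (hN.conj_mem n⁻¹ (N.inv_mem hn) a)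
          simpa [mul_assoc] using this
        have h3 := eq_one_of_normalizes h h1 (conjBy_eq_self_iff.1 (hB _ h2))
        have h4 : n * a = a * n := by
          have := congrArg (fun z => z * a * n) h3
          simpa [mul_assoc] using this
        exact h4.symm
      have hle : A ⊔ B ≤ Subgroup.centralizer {n} := by
        refine sup_le ?_ ?_
        · intro a ha
          rw [Subgroup.mem_centralizer_singleton_iff]
          exact hcomm h.2 hA hB a ha
        · intro b hb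
          rw [Subgroup.mem_centralizer_singleton_iff]
          exact hcomm (Cfsg.RankOnePair_symm h.2) hB hA b hb
      rw [Subgroup.mem_center_iff]
      intro g
      have hg : g ∈ Subgroup.centralizer {n} := hle (by rw [h.1]; trivial)
      rw [Subgroup.mem_centralizer_singleton_iff] at hg
      exact hg
    · left
      push Not at hB
      obtain ⟨n, hn, hmv⟩ := hB
      obtain ⟨y, -, hy⟩ := B_mem_unipotent h.2
      refine sup_eq_top_of_moves h N (n := y⁻¹ * n * y) ?_ ?_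
      · have := hN.conj_mem n hn y⁻¹
        simpa using this
      · intro hc
        apply hmv
        rw [hy, conjBy_conjBy]
        have h2 : Cfsg.conjBy (Cfsg.conjBy A (y⁻¹ * n * y)) y = Cfsg.conjBy A y := by rw [hc]
        rw [conjBy_conjBy] at h2
        rw [← h2]
        congr 1
        group
  · left
    push Not at hA
    obtain ⟨n, hn, hmv⟩ := hA
    exact sup_eq_top_of_moves h N hn hmv

lemma not_normal_left (h : Cfsg.IsRankOnePair A B) : ¬ (B ≤ Subgroup.normalizer (A : Set G)) := by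
  intro hc
  obtain ⟨b, hb, hb1⟩ := exists_ne_one_right h
  exact hb1 (eq_one_of_normalizes (Cfsg.RankOnePair_symm h) hb (hc hb))

end RankOne

end Cfsg.Agent.Lib.Helper28
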