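import Mathlib
import Cfsg.Prelude.Def_RootSubgroups
import Cfsg.Agent.Lib.Helper28.RankOne
set_option autoImplicit false

namespace Cfsg.Agent.Lib.Helper28

open scoped commutatorElement

variable {G : Type*} [Group G]

lemma conjBy_sup (A B : Subgroup G) (g : G) :
    Cfsg.conjBy (A ⊔ B) g = Cfsg.conjBy A g ⊔ Cfsg.conjBy B g :=
  Subgroup.map_sup A B _

lemma conjBy_mono {A B : Subgroup G} (h : A ≤ B) (g : G) : Cfsg.conjBy A g ≤ Cfsg.conjBy B g :=
  Subgroup.map_mono h

lemma conjBy_ne_bot {A : Subgroup G} (h : A ≠ ⊥) (g : G) : Cfsg.conjBy A g ≠ ⊥ := by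
  intro hc
  apply h
  rw [conjBy_eq_iff] at hc
  rw [hc]
  exact Subgroup.map_bot _

lemma exists_ne_one_of_ne_bot {A : Subgroup G} (h : A ≠ ⊥) : ∃ a ∈ A, a ≠ 1 := by
  by_contra hc
  push Not at hc
  exact h ((Subgroup.eq_bot_iff_forall A).2 hc)

lemma comm_of_commutator_eq_bot {A B : Subgroup G} (h : ⁅A, B⁆ = ⊥) {a b : G} (ha : a ∈ A) (hb : b ∈ B) :
    a * b = b * a := by
  have h1 : ⁅a, b⁆ ∈ ⁅A, B⁆ := Subgroup.commutator_mem_commutator ha hb
  rw [h, Subgroup.mem_bot, commutatorElement_eq_one_iff_mul_comm] at h1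
  exact h1

lemma commutator_eq_bot_of_comm {A B : Subgroup G} (h : ∀ a ∈ A, ∀ b ∈ B, a * b = b * a) : ⁅A, B⁆ = ⊥ := by
  rw [eq_bot_iff, Subgroup.commutator_le]
  intro a ha b hb
  rw [Subgroup.mem_bot, commutatorElement_eq_one_iff_mul_comm]
  exact h a ha b hb

lemma comm_of_isMulCommutative {A : Subgroup G} (h : IsMulCommutative A) {a b : G} (ha : a ∈ A) (hb : b ∈ A) :
    a * b = b * a := by
  have := h.is_comm.comm ⟨a, ha⟩ ⟨b, hb⟩
  exact congrArg Subtype.val this

namespace RankOne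

variable {A B : Subgroup G}

lemma cond_conj (h : Cfsg.RankOneCondition A B) (g : G) :
    Cfsg.RankOneCondition (Cfsg.conjBy A g) (Cfsg.conjBy B g) := by
  intro a' ha' ha1
  rw [mem_conjBy] at ha'
  obtain ⟨b, hb, hb1, hc⟩ := h _ ha' (by
    intro hh
    apply ha1
    have := congrArg (fun z => g * z * g⁻¹) hh
    simpa [mul_assoc] using this)
  refine ⟨g * b * g⁻¹, conj_mem_conjBy hb, ?_, ?_⟩
  · intro hh
    apply hb1
    have := congrArg (fun z => g⁻¹ * z * g) hh
    simpa [mul_assoc] using this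
  · rw [conjBy_conjBy, conjBy_conjBy]
    have e1 : (g * b * g⁻¹)⁻¹ * g = g * b⁻¹ := by group
    have e2 : a'⁻¹ * g = g * (g⁻¹ * a' * g)⁻¹ := by group
    rw [e1, e2, ← conjBy_conjBy, ← conjBy_conjBy B, hc]

lemma pair_conj (h : Cfsg.IsRankOnePair A B) (g : G) :
    Cfsg.IsRankOnePair (Cfsg.conjBy A g) (Cfsg.conjBy B g) := by
  refine ⟨fun hc => h.ne (conjBy_injective g hc), ?_, ?_, cond_conj h.cond_left g, cond_conj h.cond_right g⟩
  · have := h.nilpotent_left
    exact Group.nilpotent_of_surjective _ ((MulAut.conj g).toMonoidHom.subgroupMap_surjective A)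
  · have := h.nilpotent_right
    exact Group.nilpotent_of_surjective _ ((MulAut.conj g).toMonoidHom.subgroupMap_surjective B)

lemma two_trans (h : Cfsg.IsRankOnePair A B) {C₁ C₂ : Subgroup G}
    (h1 : C₁ ∈ Cfsg.unipotentSubgroups A B) (h2 : C₂ ∈ Cfsg.unipotentSubgroups A B) (hne : C₁ ≠ C₂) :
    ∃ x ∈ A ⊔ B, C₁ = Cfsg.conjBy A x ∧ C₂ = Cfsg.conjBy B x := by
  obtain ⟨y, hy, rfl⟩ := h1
  have h3 : Cfsg.conjBy C₂ y⁻¹ ∈ Cfsg.unipotentSubgroups A B := unipotent_conj h2 (inv_mem hy)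
  rw [unipotent_eq_Om h] at h3
  rcases h3 with h3 | ⟨a, ha, h3⟩
  · exfalso
    apply hne
    rw [conjBy_eq_iff, inv_inv] at h3
    exact h3.symm
  · refine ⟨y * a, mul_mem hy (Subgroup.mem_sup_left ha), ?_, ?_⟩
    · rw [← conjBy_conjBy, conjBy_of_mem ha]
    · rw [← conjBy_conjBy, ← h3, conjBy_conjBy, mul_inv_cancel, conjBy_one]

lemma pair_of_unipotent (h : Cfsg.IsRankOnePair A B) {C₁ C₂ : Subgroup G}
    (h1 : C₁ ∈ Cfsg.unipotentSubgroups A B) (h2 : C₂ ∈ Cfsg.unipotentSubgroups A B) (hne : C₁ ≠ C₂) :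
    Cfsg.IsRankOnePair C₁ C₂ := by
  obtain ⟨x, -, rfl, rfl⟩ := two_trans h h1 h2 hne
  exact pair_conj h x

lemma sup_of_unipotent (h : Cfsg.IsRankOnePair A B) {C₁ C₂ : Subgroup G}
    (h1 : C₁ ∈ Cfsg.unipotentSubgroups A B) (h2 : C₂ ∈ Cfsg.unipotentSubgroups A B) (hne : C₁ ≠ C₂) :
    C₁ ⊔ C₂ = A ⊔ B := by
  obtain ⟨x, hx, rfl, rfl⟩ := two_trans h h1 h2 hne
  rw [← conjBy_sup, conjBy_of_mem hx]

/-- if `a ∈ A` is nontrivial then some commutator `a b a⁻¹ b⁻¹` does not normalise `B`. -/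
lemma not_forall_comm_normalizes (h : Cfsg.IsRankOnePair A B) {a : G} (ha : a ∈ A) (ha1 : a ≠ 1) :
    ¬ ∀ b ∈ B, a * b * a⁻¹ * b⁻¹ ∈ Subgroup.normalizer (B : Set G) := by
  intro hall
  have hne : Cfsg.conjBy B a ≠ B := by
    intro hc
    exact ha1 (eq_one_of_normalizes h ha (conjBy_eq_self_iff.1 hc))
  have hp : Cfsg.IsRankOnePair (Cfsg.conjBy B a) B :=
    pair_of_unipotent h (unipotent_conj (B_mem_unipotent h) (Subgroup.mem_sup_left ha))
      (B_mem_unipotent h) hne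
  obtain ⟨b, hb, hb1⟩ := exists_ne_one_right h
  have h1 : a * b * a⁻¹ ∈ Subgroup.normalizer (B : Set G) := by
    have := mul_mem (hall b hb) (Subgroup.le_normalizer hb)
    simpa [mul_assoc] using this
  have h2 := eq_one_of_normalizes hp (conj_mem_conjBy hb) h1
  apply hb1
  have := congrArg (fun z => a⁻¹ * z * a) h2
  simpa [mul_assoc] using this

/-- nontrivial elements of the two unipotent subgroups never commute (abelian case). -/
lemma not_comm (h : Cfsg.IsRankOnePair A B) (hA : IsMulCommutative A) {a b : G} (ha : a ∈ A) (ha1 : a ≠ 1)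
    (hb : b ∈ B) (hb1 : b ≠ 1) : a * b ≠ b * a := by
  intro hab
  have hne : A ≠ Cfsg.conjBy A b := by
    intro hc
    exact hb1 (eq_one_of_normalizes (Cfsg.RankOnePair_symm h) hb (conjBy_eq_self_iff.1 hc.symm))
  have hsup := sup_of_unipotent h A_mem_unipotent
    (unipotent_conj A_mem_unipotent (Subgroup.mem_sup_right hb)) hne
  have hle : A ⊔ Cfsg.conjBy A b ≤ Subgroup.centralizer {a} := by
    refine sup_le ?_ ?_
    · intro x hx
      rw [Subgroup.mem_centralizer_singleton_iff]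
      exact comm_of_isMulCommutative hA hx ha
    · intro x hx
      rw [mem_conjBy] at hx
      rw [Subgroup.mem_centralizer_singleton_iff]
      have h1 := comm_of_isMulCommutative hA hx ha
      have h2 : b⁻¹ * a * b = a := by rw [mul_assoc, hab, inv_mul_cancel_left]
      have h3 : b⁻¹ * x * b * (b⁻¹ * a * b) = b⁻¹ * a * b * (b⁻¹ * x * b) := by rw [h2]; exact h1
      have h4 := congrArg (fun z => b * z * b⁻¹) h3
      simpa [mul_assoc] using h4
  rw [hsup] at hle
  apply ha1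
  apply eq_one_of_normalizes h ha
  rw [Subgroup.mem_normalizer_iff]
  intro x
  constructor
  · intro hx
    have := hle (Subgroup.mem_sup_right hx)
    rw [Subgroup.mem_centralizer_singleton_iff] at this
    rw [← this, mul_inv_cancel_right]
    exact hx
  · intro hx
    have := hle (Subgroup.mem_sup_right hx)
    rw [Subgroup.mem_centralizer_singleton_iff] at this
    have h5 : a * x * a⁻¹ = x := by
      have h6 : a * x * a⁻¹ * a = a * (a * x * a⁻¹) := this
      have h7 : a * x = a * (a * x * a⁻¹) := by simpa [mul_assoc] using h6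
      exact (mul_left_cancel h7).symm
    rwa [h5] at hx

end RankOne

end Cfsg.Agent.Lib.Helper28
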