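import Mathlib
import Cfsg.Prelude.Def_RootSubgroups
import Cfsg.Agent.Lib.Helper28.RankOne
import Cfsg.Agent.Lib.Helper28.RankOne2
set_option autoImplicit false

namespace Cfsg.Agent.Lib.Helper28.QuadAct

open Cfsg.Agent.Lib.Helper28 Cfsg.Agent.Lib.Helper28.RankOne

variable {X : Type*} [Group X]

/-- the commutator module `[V, S]`. -/
def cm (V : Type*) [AddCommGroup V] [DistribMulAction X V] (S : Subgroup X) : AddSubgroup V :=
  AddSubgroup.closure {u | ∃ s ∈ S, ∃ v : V, u = s • v - v}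

/-- `S` acts quadratically on `V`. -/
def Quad (V : Type*) [AddCommGroup V] [DistribMulAction X V] (S : Subgroup X) : Prop :=
  ∀ a ∈ S, ∀ a' ∈ S, ∀ v : V, a' • (a • v - v) = a • v - v

variable {V : Type*} [AddCommGroup V] [DistribMulAction X V] {S A B : Subgroup X}

lemma gen_mem {s : X} (hs : s ∈ S) (v : V) : s • v - v ∈ cm V S :=
  AddSubgroup.subset_closure ⟨s, hs, v, rfl⟩

lemma fixed (hq : Quad V S) {u : V} (hu : u ∈ cm V S) {s : X} (hs : s ∈ S) : s • u = u := by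
  induction hu using AddSubgroup.closure_induction with
  | mem x hx => obtain ⟨a, ha, v, rfl⟩ := hx; exact hq a ha s hs v
  | zero => simp
  | add x y _ _ hx hy => rw [smul_add, hx, hy]
  | neg x _ hx => rw [smul_neg, hx]

lemma smul_mem_conj {u : V} (hu : u ∈ cm V S) (g : X) : g • u ∈ cm V (Cfsg.conjBy S g) := by
  induction hu using AddSubgroup.closure_induction with
  | mem x hx =>
    obtain ⟨a, ha, v, rfl⟩ := hx
    have : g • (a • v - v) = (g * a * g⁻¹) • (g • v) - g • v := by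
      rw [smul_sub, smul_smul, smul_smul]; simp [mul_assoc]
    rw [this]; exact gen_mem (conj_mem_conjBy ha) _
  | zero => rw [smul_zero]; exact zero_mem _
  | add x y _ _ hx hy => rw [smul_add]; exact add_mem hx hy
  | neg x _ hx => rw [smul_neg]; exact neg_mem hx

lemma quad_conj (hq : Quad V S) (g : X) : Quad V (Cfsg.conjBy S g) := by
  intro a ha a' ha' v
  rw [mem_conjBy] at ha ha'
  have h := hq _ ha _ ha' (g⁻¹ • v)
  have h2 := congrArg (fun w => g • w) h
  simp only [smul_sub, smul_smul] at h2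
  simpa [mul_assoc, smul_sub, smul_smul] using h2

lemma eq_conj {a b : X} (hc : Cfsg.conjBy A b⁻¹ = Cfsg.conjBy B a⁻¹) : B = Cfsg.conjBy A (a * b⁻¹) := by
  rw [← conjBy_conjBy, hc, conjBy_conjBy, mul_inv_cancel, conjBy_one]

lemma quad_right (h : Cfsg.IsRankOnePair A B) (hq : Quad V A) : Quad V B := by
  obtain ⟨a, ha, ha1⟩ := exists_ne_one_left h
  obtain ⟨b, hb, -, hc⟩ := h.cond_left a ha ha1
  rw [eq_conj hc]; exact quad_conj hq _

lemma inv_smul_sub (hq : Quad V S) {s : X} (hs : s ∈ S) (v : V) : s⁻¹ • v - v = -(s • v - v) := by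
  have h := fixed hq (gen_mem hs v) (S.inv_mem hs)
  rw [smul_sub, smul_smul, inv_mul_cancel, one_smul] at h
  rw [← h]; abel

lemma mul_smul_sub (hq : Quad V S) {s t : X} (hs : s ∈ S) (ht : t ∈ S) (v : V) :
    (s * t) • v - v = (s • v - v) + (t • v - v) := by
  have h := hq t ht s hs v
  rw [smul_sub, smul_smul] at h
  have : (s * t) • v = t • v - v + s • v := by rw [← h]; abel
  rw [this]; abel

lemma pow_smul_sub (hq : Quad V S) {s : X} (hs : s ∈ S) (n : ℕ) (v : V) :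
    (s ^ n) • v - v = n • (s • v - v) := by
  induction n with
  | zero => simp
  | succ k ih => rw [pow_succ, mul_smul_sub hq (S.pow_mem hs k) hs, ih, succ_nsmul]

/-- the key lemma. -/
lemma key (hqA : Quad V A) {a b : X} (ha : a ∈ A) (hb : b ∈ B)
    (hc : Cfsg.conjBy A b⁻¹ = Cfsg.conjBy B a⁻¹) {u : V} (hu : u ∈ cm V A) :
    u - (a⁻¹ • (b⁻¹ • u - u) - (b⁻¹ • u - u)) ∈ cm V A ⊓ cm V B := by
  obtain ⟨w, hw⟩ : ∃ w, w = b⁻¹ • u - u := ⟨_, rfl⟩
  rw [← hw]
  have hwB : w ∈ cm V B := by rw [hw]; exact gen_mem (B.inv_mem hb) u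
  obtain ⟨u', hu'def⟩ : ∃ u', u' = a • (b⁻¹ • u) := ⟨_, rfl⟩
  have hu' : u' ∈ cm V B := by
    have h1 := smul_mem_conj hu b⁻¹
    rw [hc] at h1
    have h2 := smul_mem_conj h1 a
    rwa [conjBy_conjBy, mul_inv_cancel, conjBy_one, ← hu'def] at h2
  have e1 : b⁻¹ • u = a⁻¹ • u' := by rw [hu'def, smul_smul, inv_mul_cancel, one_smul]
  have hzB : u' - w ∈ cm V B := sub_mem hu' hwB
  have hx : a⁻¹ • u' - u' ∈ cm V A := gen_mem (A.inv_mem ha) u'
  have hzA : u' - w ∈ cm V A := by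
    have : u' - w = u - (a⁻¹ • u' - u') := by rw [hw, ← e1]; abel
    rw [this]; exact sub_mem hu hx
  have hfz : a⁻¹ • (u' - w) = u' - w := fixed hqA hzA (A.inv_mem ha)
  have : u - (a⁻¹ • w - w) = u' - w := by
    rw [smul_sub, ← e1] at hfz
    have h3 : a⁻¹ • w = b⁻¹ • u - (u' - w) := by rw [← hfz]; abel
    rw [h3]
    have h4 : b⁻¹ • u = w + u := by rw [hw]; abel
    rw [h4]; abel
  rw [this]
  exact ⟨hzA, hzB⟩

lemma cm_le_of_le (h : Cfsg.IsRankOnePair A B) (hqA : Quad V A) (hle : cm V A ≤ cm V B) :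
    cm V B ≤ cm V A := by
  have hqB := quad_right h hqA
  obtain ⟨a, ha, ha1⟩ := exists_ne_one_left h
  obtain ⟨b, hb, -, hc⟩ := h.cond_left a ha ha1
  intro u hu
  have h1 := smul_mem_conj hu (a * b⁻¹)⁻¹
  have hB : Cfsg.conjBy B (a * b⁻¹)⁻¹ = A := by
    conv_lhs => rw [eq_conj hc]
    rw [conjBy_conjBy, inv_mul_cancel, conjBy_one]
  rw [hB] at h1
  have h2 : (a * b⁻¹) • ((a * b⁻¹)⁻¹ • u) = (a * b⁻¹)⁻¹ • u := by
    rw [mul_smul a, fixed hqB (hle h1) (B.inv_mem hb), fixed hqA h1 ha]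
  rw [smul_smul, mul_inv_cancel, one_smul] at h2
  rw [h2]; exact h1

/-- if `[V,A] ≤ [V,B]` then `A` and `B` commute in their action on `V`. -/
lemma comm_of_le (h : Cfsg.IsRankOnePair A B) (hqA : Quad V A) (hle : cm V A ≤ cm V B)
    {a b : X} (ha : a ∈ A) (hb : b ∈ B) (v : V) : (a * b) • v = (b * a) • v := by
  have hqB := quad_right h hqA
  have hle' := cm_le_of_le h hqA hle
  have h1 : a • (b • v - v) = b • v - v := fixed hqA (hle' (gen_mem hb v)) ha
  have h2 : b • (a • v - v) = a • v - v := fixed hqB (hle (gen_mem ha v)) hb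
  rw [smul_sub, smul_smul] at h1 h2
  have e1 : (a * b) • v = b • v - v + a • v := by rw [← h1]; abel
  have e2 : (b * a) • v = a • v - v + b • v := by rw [← h2]; abel
  rw [e1, e2]; abel

end Cfsg.Agent.Lib.Helper28.QuadAct
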