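import Mathlib
import Cfsg.Prelude.Def_SporadicCombinatorics
import Cfsg.Agent.Lib.Helper3.M12Config
import Cfsg.Agent.Lib.Helper3.M24Octad
import Cfsg.Agent.Lib.Helper3.Tools
import Cfsg.Agent.Lib.Helper28.M12Fix
import Cfsg.Agent.Lib.Helper28.M24Fix

set_option autoImplicit false

namespace Cfsg.Agent.Lib.Helper28.Quartet

open Cfsg Cfsg.Agent.Lib.Helper3 Cfsg.Agent.Lib.Helper28
open scoped Pointwise

set_option maxRecDepth 100000

/-- masks of the 132 hexads on the standard dodecad. -/
def hexL : List ℕ := [343, 591, 797, 858, 4127, 4430, 4441, 4691, 4700, 4875, 4886, 4933, 8285, 8478, 8523, 8731, 8790, 8967, 9036, 9041, 12359, 12378, 12557, 12563, 12628, 12814, 12821, 12873, 13080, 13122, 65627, 65807, 65884, 66078, 66133, 66323, 66374, 66377, 69709, 69718, 69909, 69914, 69955, 70151, 70169, 70218, 70412, 70480, 73751, 73806, 74009, 74053, 74066, 74253, 74307, 74328, 74506, 74516, 77835, 77852, 77905, 78086, 78152, 78354, 78404, 78593, 262238, 262427, 262477, 262679, 262745,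 262926, 262979, 262996, 266315, 266325, 266503, 266524, 266578, 266765, 266778, 266822, 267025, 267080, 270351, 270419, 270613, 270662, 270680, 270876, 270917, 270922, 271113, 271122, 274454, 274457, 274508, 274698, 274753, 274947, 275024, 275204, 327709, 327751, 327958, 328010, 328017, 328203, 328268, 328274, 328453, 328472, 331790, 331795, 331864, 332041, 332100, 332308, 332353, 332546, 335898, 335945, 335956, 336131, 336140, 336390, 336401, 336704, 339973, 340034, 340240, 340488]

def hexQ (x : ℕ) : Bool :=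
  !(pc x == 8 && pc (x &&& 340831) == 6) || hexL.contains (x &&& 340831)

theorem hex_chk : allRange (fun c => hexQ (enc c)) 12 0 = true := by decide +kernel

theorem mask_hex {h : Finset GolayPt} (hh : h ∈ hexadsOn D0) : mask h ∈ hexL := by
  obtain ⟨h6, o, ho, rfl⟩ := hh
  have h1 := forall_code hexQ hex_chk o ho.1
  have e8 : pc (mask o) = 8 := by rw [← card_eq_pc]; exact ho.2
  have em : mask (o ∩ D0) = mask o &&& 340831 := by
    rw [mask_inter, D0, mask_unmask (by norm_num)]
  have e6 : pc (mask o &&& 340831) = 6 := by rw [← em, ← card_eq_pc]; exact h6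
  unfold hexQ at h1
  rw [e8, e6] at h1
  simp only [beq_self_eq_true, Bool.and_self, Bool.not_true, Bool.false_or,
    List.contains_eq_mem, decide_eq_true_eq] at h1
  rw [em]; exact h1

theorem hex_of_oct {m o : ℕ} (ho : isOct o = true) (hm : o &&& 340831 = m) (h6 : pc m = 6) :
    unmask m ∈ hexadsOn D0 := by
  obtain ⟨h1, h2⟩ := unmask_mem_octads ho
  have hlt : m < 2 ^ 24 := by
    rw [← hm]; exact lt_of_le_of_lt Nat.and_le_left h2
  refine ⟨by rw [card_eq_pc, mask_unmask hlt, h6], unmask o, h1, ?_⟩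
  apply mask_injective
  rw [mask_inter, mask_unmask h2, D0, mask_unmask (by norm_num), mask_unmask hlt, hm]

noncomputable def T0 : Finset GolayPt := unmask 7
noncomputable def U0 : Finset GolayPt := unmask 4120
noncomputable def V0 : Finset GolayPt := unmask 327744
noncomputable def W0 : Finset GolayPt := unmask 8960

/-- the standard quartet. -/
noncomputable def Q0 : Finset (Finset GolayPt) := {T0, U0, V0, W0}

theorem unmask_ne {a b : ℕ} (ha : a < 2 ^ 24) (hb : b < 2 ^ 24) (h : a ≠ b) :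
    unmask a ≠ unmask b := by
  intro e
  apply h
  rw [← mask_unmask ha, e, mask_unmask hb]

theorem mask_union_of_disj {a b : ℕ} (ha : a < 2 ^ 24) (hb : b < 2 ^ 24) (h : a &&& b = 0) :
    unmask a ∪ unmask b = unmask (a ^^^ b) := by
  have hd : Disjoint (unmask a) (unmask b) := by
    rw [Finset.disjoint_left]
    intro p hp hq
    rw [mem_unmask] at hp hq
    have := Nat.testBit_and a b (idx p)
    rw [h, hp, hq] at this
    simp at this
  have e : unmask a ∪ unmask b = symmDiff (unmask a) (unmask b) :=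
    (Disjoint.symmDiff_eq_sup hd).symm
  rw [e]
  apply mask_injective
  rw [mask_symmDiff, mask_unmask ha, mask_unmask hb, mask_unmask (Nat.xor_lt_two_pow ha hb)]

def q0 : List ℕ := [7, 4120, 327744, 8960]

/-- octads cutting out the six unions. -/
def wit (a b : ℕ) : ℕ :=
  if a = 7 ∧ b = 4120 then 5279 else
  if a = 7 ∧ b = 327744 then 459847 else
  if a = 7 ∧ b = 8960 then 140167 else
  if a = 4120 ∧ b = 7 then 5279 else
  if a = 4120 ∧ b = 327744 then 463064 else
  if a = 4120 ∧ b = 8960 then 145176 else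
  if a = 327744 ∧ b = 7 then 459847 else
  if a = 327744 ∧ b = 4120 then 463064 else
  if a = 327744 ∧ b = 8960 then 337856 else
  if a = 8960 ∧ b = 7 then 140167 else
  if a = 8960 ∧ b = 4120 then 145176 else
  if a = 8960 ∧ b = 327744 then 337856 else 0

theorem wit_chk : q0.all (fun a => q0.all fun b => a == b ||
    (isOct (wit a b) && (wit a b &&& 340831 == a ^^^ b) && pc (a ^^^ b) == 6 && (a &&& b == 0))) = true := by
  decide +kernel

theorem mem_Q0 {t : Finset GolayPt} : t ∈ Q0 ↔ ∃ a ∈ q0, t = unmask a := by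
  simp [Q0, q0, T0, U0, V0, W0]

theorem q0_lt : ∀ a ∈ q0, a < 2 ^ 24 := by decide

theorem Q0_mem : Q0 ∈ quartets D0 := by
  refine ⟨?_, ?_, ?_⟩
  · unfold Q0 T0 U0 V0 W0
    rw [Finset.card_insert_of_notMem, Finset.card_insert_of_notMem, Finset.card_insert_of_notMem,
      Finset.card_singleton]
    · rw [Finset.mem_singleton]; exact unmask_ne (by norm_num) (by norm_num) (by norm_num)
    · simp only [Finset.mem_insert, Finset.mem_singleton, not_or]
      exact ⟨unmask_ne (by norm_num) (by norm_num) (by norm_num),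
        unmask_ne (by norm_num) (by norm_num) (by norm_num)⟩
    · simp only [Finset.mem_insert, Finset.mem_singleton, not_or]
      exact ⟨unmask_ne (by norm_num) (by norm_num) (by norm_num),
        unmask_ne (by norm_num) (by norm_num) (by norm_num),
        unmask_ne (by norm_num) (by norm_num) (by norm_num)⟩
  · intro t ht
    obtain ⟨a, ha, rfl⟩ := mem_Q0.1 ht
    have h : q0.all (fun a => pc a == 3 && (a &&& 340831 == a)) = true := by decide +kernel
    have h1 := List.all_eq_true.1 h a ha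
    simp only [Bool.and_eq_true, beq_iff_eq] at h1
    refine ⟨by rw [card_eq_pc, mask_unmask (q0_lt a ha), h1.1], ?_⟩
    rw [← Finset.inter_eq_left]
    apply mask_injective
    rw [mask_inter, mask_unmask (q0_lt a ha), D0, mask_unmask (by norm_num), h1.2]
  · intro t ht u hu htu
    obtain ⟨a, ha, rfl⟩ := mem_Q0.1 ht
    obtain ⟨b, hb, rfl⟩ := mem_Q0.1 hu
    have hab : a ≠ b := fun e => htu (by rw [e])
    have h1 := List.all_eq_true.1 (List.all_eq_true.1 wit_chk a ha) b hb
    simp only [Bool.or_eq_true, beq_iff_eq, hab, false_or, Bool.and_eq_true] at h1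
    obtain ⟨⟨⟨h2, h3⟩, h4⟩, h5⟩ := h1
    rw [mask_union_of_disj (q0_lt a ha) (q0_lt b hb) h5]
    exact hex_of_oct h2 h3 h4

theorem uniq_chk : hexL.all (fun h => !(h &&& 7 == 7) || !(hexL.contains (4120 ^^^ (h ^^^ 7))) ||
    (h ^^^ 7 == 327744) || (h ^^^ 7 == 8960)) = true := by decide +kernel

theorem third {Q : Finset (Finset GolayPt)} (hQ : Q ∈ quartets D0) (hT : T0 ∈ Q) (hU : U0 ∈ Q)
    {v : Finset GolayPt} (hv : v ∈ Q) (hvT : v ≠ T0) (hvU : v ≠ U0) : v = V0 ∨ v = W0 := by
  obtain ⟨h4, h3, hh⟩ := hQ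
  have c3 : v.card = 3 := (h3 v hv).1
  have hTv := hh T0 hT v hv hvT.symm
  have hUv := hh U0 hU v hv hvU.symm
  have cT : T0.card = 3 := (h3 T0 hT).1
  have cU : U0.card = 3 := (h3 U0 hU).1
  have dT : Disjoint T0 v := by
    rw [← Finset.card_union_eq_card_add_card, hTv.1, cT, c3]
  have dU : Disjoint U0 v := by
    rw [← Finset.card_union_eq_card_add_card, hUv.1, cU, c3]
  have m1 := mask_hex hTv
  have m2 := mask_hex hUv
  have s1 : T0 ∪ v = symmDiff T0 v := (Disjoint.symmDiff_eq_sup dT).symm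
  have s2 : U0 ∪ v = symmDiff U0 v := (Disjoint.symmDiff_eq_sup dU).symm
  rw [s1, mask_symmDiff, T0, mask_unmask (by norm_num)] at m1
  rw [s2, mask_symmDiff, U0, mask_unmask (by norm_num)] at m2
  have hk := List.all_eq_true.1 uniq_chk _ m1
  have e1 : (7 ^^^ mask v) ^^^ 7 = mask v := by
    rw [Nat.xor_comm 7, Nat.xor_assoc, Nat.xor_self, Nat.xor_zero]
  have e2 : (7 ^^^ mask v) &&& 7 = 7 := by
    have hz : mask v &&& 7 = 0 := by
      have := mask_inter v T0
      rw [Finset.disjoint_iff_inter_eq_empty.1 dT.symm, T0, mask_unmask (by norm_num)] at this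
      rw [← this]
      apply Nat.eq_of_testBit_eq; intro i
      rw [testBit_mask]; simp
    rw [Nat.and_xor_distrib_right, hz]
    rfl
  rw [e1, e2] at hk
  simp only [beq_self_eq_true, Bool.not_true, Bool.false_or, Bool.or_eq_true, Bool.not_eq_true',
    List.contains_eq_mem, decide_eq_false_iff_not, beq_iff_eq] at hk
  rcases hk with (hk | hk) | hk
  · exact absurd m2 hk
  · left; rw [V0, ← hk, unmask_mask]
  · right; rw [W0, ← hk, unmask_mask]

theorem uniq0 {Q : Finset (Finset GolayPt)} (hQ : Q ∈ quartets D0) (hT : T0 ∈ Q) (hU : U0 ∈ Q) :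
    Q = Q0 := by
  have hsub : Q ⊆ Q0 := by
    intro v hv
    unfold Q0
    simp only [Finset.mem_insert, Finset.mem_singleton]
    by_cases h1 : v = T0
    · exact Or.inl h1
    by_cases h2 : v = U0
    · exact Or.inr (Or.inl h2)
    rcases third hQ hT hU hv h1 h2 with h | h
    · exact Or.inr (Or.inr (Or.inl h))
    · exact Or.inr (Or.inr (Or.inr h))
  exact Finset.eq_of_subset_of_card_le hsub (by rw [Q0_mem.1, hQ.1])

theorem smul_hexadsOn {g : Equiv.Perm GolayPt} (hg : g ∈ M24) {d h : Finset GolayPt}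
    (hh : h ∈ hexadsOn d) : g • h ∈ hexadsOn (g • d) := by
  obtain ⟨h6, o, ho, rfl⟩ := hh
  exact ⟨by rw [Finset.card_smul_finset, h6], g • o, smul_mem_octads hg ho,
    by rw [Finset.smul_finset_inter]⟩

theorem smul_quartets {g : Equiv.Perm GolayPt} (hg : g ∈ M24) {d : Finset GolayPt}
    {Q : Finset (Finset GolayPt)} (hQ : Q ∈ quartets d) : g • Q ∈ quartets (g • d) := by
  obtain ⟨h4, h3, hh⟩ := hQ
  refine ⟨by rw [Finset.card_smul_finset, h4], ?_, ?_⟩
  · intro t ht
    obtain ⟨t', ht', rfl⟩ := Finset.mem_smul_finset.1 ht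
    exact ⟨by rw [Finset.card_smul_finset]; exact (h3 t' ht').1,
      Finset.smul_finset_subset_smul_finset (h3 t' ht').2⟩
  · intro t ht u hu htu
    obtain ⟨t', ht', rfl⟩ := Finset.mem_smul_finset.1 ht
    obtain ⟨u', hu', rfl⟩ := Finset.mem_smul_finset.1 hu
    rw [← Finset.smul_finset_union]
    exact smul_hexadsOn hg (hh t' ht' u' hu' (fun e => htu (by rw [e])))

/-- two disjoint triples whose union is a hexad can be moved to the standard pair, with a
prescribed numbering of five of the six points. -/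
theorem std_pair {d : Finset GolayPt} (hd : d ∈ dodecads) {a b c x y z : GolayPt}
    (hnd : [a, b, c, x, y, z].Nodup) (hh : ({a, b, c, x, y, z} : Finset GolayPt) ∈ hexadsOn d) :
    ∃ g ∈ M24, g • d = D0 ∧ g a = pt 0 ∧ g b = pt 1 ∧ g c = pt 2 ∧ g x = pt 3 ∧ g y = pt 4 ∧
      g z = pt 12 := by
  obtain ⟨h6, o, ho, hod⟩ := hh
  have hsub : ∀ q ∈ ({a, b, c, x, y, z} : Finset GolayPt), q ∈ o ∧ q ∈ d := by
    intro q hq
    rw [← hod] at hq
    exact Finset.mem_inter.1 hq
  have hnd5 : [a, b, c, x, y].Nodup := by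
    have : [a, b, c, x, y, z] = [a, b, c, x, y] ++ [z] := rfl
    rw [this] at hnd
    exact (List.nodup_append.1 hnd).1
  obtain ⟨g, hg, hgd, hl⟩ := dodecad_to_D0_list hd [a, b, c, x, y] hnd5
    (by
      intro q hq
      apply (hsub q _).2
      simp only [List.mem_cons, List.not_mem_nil, or_false] at hq
      simp only [Finset.mem_insert, Finset.mem_singleton]
      tauto) (by simp)
  have ga : g a = pt 0 := hl 0 (by simp)
  have gb : g b = pt 1 := hl 1 (by simp)
  have gc : g c = pt 2 := hl 2 (by simp)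
  have gx : g x = pt 3 := hl 3 (by simp)
  have gy : g y = pt 4 := hl 4 (by simp)
  refine ⟨g, hg, hgd, ga, gb, gc, gx, gy, ?_⟩
  have hgo : g • o = O0 := by
    apply octad_unique (s := {pt 0, pt 1, pt 2, pt 3, pt 4}) (smul_mem_octads hg ho) O0_mem
    · decide +kernel
    · intro q hq
      simp only [Finset.mem_insert, Finset.mem_singleton] at hq
      rcases hq with rfl | rfl | rfl | rfl | rfl
      · rw [← ga]; exact (Finset.smul_mem_smul_finset_iff g).2 (hsub a (by simp)).1
      · rw [← gb]; exact (Finset.smul_mem_smul_finset_iff g).2 (hsub b (by simp)).1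
      · rw [← gc]; exact (Finset.smul_mem_smul_finset_iff g).2 (hsub c (by simp)).1
      · rw [← gx]; exact (Finset.smul_mem_smul_finset_iff g).2 (hsub x (by simp)).1
      · rw [← gy]; exact (Finset.smul_mem_smul_finset_iff g).2 (hsub y (by simp)).1
    · intro q hq
      rw [O0, mem_unmask]
      simp only [Finset.mem_insert, Finset.mem_singleton] at hq
      rcases hq with rfl | rfl | rfl | rfl | rfl <;> decide +kernel
  have hz1 : g z ∈ O0 := by
    rw [← hgo]; exact (Finset.smul_mem_smul_finset_iff g).2 (hsub z (by simp)).1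
  have hz2 : g z ∈ D0 := by
    rw [← hgd]; exact (Finset.smul_mem_smul_finset_iff g).2 (hsub z (by simp)).2
  rw [O0, mem_unmask] at hz1
  rw [D0, mem_unmask] at hz2
  have hne : ∀ q ∈ [a, b, c, x, y], g z ≠ g q := by
    intro q hq e
    have e' := g.injective e
    have : [a, b, c, x, y, z] = [a, b, c, x, y] ++ [z] := rfl
    rw [this] at hnd
    exact (List.nodup_append.1 hnd).2.2 q hq z (by simp) e'.symm
  have n0 : idx (g z) ≠ 0 := fun e => hne a (by simp) (by rw [ga, ← pt_idx (g z), e])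
  have n1 : idx (g z) ≠ 1 := fun e => hne b (by simp) (by rw [gb, ← pt_idx (g z), e])
  have n2 : idx (g z) ≠ 2 := fun e => hne c (by simp) (by rw [gc, ← pt_idx (g z), e])
  have n3 : idx (g z) ≠ 3 := fun e => hne x (by simp) (by rw [gx, ← pt_idx (g z), e])
  have n4 : idx (g z) ≠ 4 := fun e => hne y (by simp) (by rw [gy, ← pt_idx (g z), e])
  have hlt := idx_lt (g z)
  rw [← pt_idx (g z)]
  congr 1
  have hk : ∀ k < 24, (Nat.testBit 5279 k = true ∧ Nat.testBit 340831 k = true ∧ k ≠ 0 ∧ k ≠ 1 ∧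
      k ≠ 2 ∧ k ≠ 3 ∧ k ≠ 4) → k = 12 := by decide +kernel
  exact hk _ hlt ⟨hz1, hz2, n0, n1, n2, n3, n4⟩

theorem T0_eq : T0 = {pt 0, pt 1, pt 2} := by
  unfold T0; ext p; revert p; decide +kernel

theorem U0_eq : U0 = {pt 3, pt 4, pt 12} := by
  unfold U0; ext p; revert p; decide +kernel

theorem smul_triple (g : Equiv.Perm GolayPt) (a b c : GolayPt) :
    g • ({a, b, c} : Finset GolayPt) = {g a, g b, g c} := by
  ext p
  rw [← Finset.inv_smul_mem_iff]
  simp only [Finset.mem_insert, Finset.mem_singleton, inv_smul_eq_iff]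
  rfl

theorem std_triples {d : Finset GolayPt} (hd : d ∈ dodecads) {t u : Finset GolayPt}
    (ht : t.card = 3) (hu : u.card = 3) (htu : Disjoint t u) (hh : t ∪ u ∈ hexadsOn d) :
    ∃ g ∈ M24, g • d = D0 ∧ g • t = T0 ∧ g • u = U0 := by
  obtain ⟨a, b, c, hab, hac, hbc, rfl⟩ := Finset.card_eq_three.1 ht
  obtain ⟨x, y, z, hxy, hxz, hyz, rfl⟩ := Finset.card_eq_three.1 hu
  have hd' : ∀ p ∈ ({a, b, c} : Finset GolayPt), ∀ q ∈ ({x, y, z} : Finset GolayPt), p ≠ q := by
    intro p hp q hq e
    exact Finset.disjoint_left.1 htu hp (e ▸ hq)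
  have hU : ({a, b, c} ∪ {x, y, z} : Finset GolayPt) = {a, b, c, x, y, z} := by
    ext p; simp only [Finset.mem_union, Finset.mem_insert, Finset.mem_singleton]; tauto
  rw [hU] at hh
  obtain ⟨g, hg, hgd, ga, gb, gc, gx, gy, gz⟩ := std_pair hd (a := a) (b := b) (c := c) (x := x)
    (y := y) (z := z) (by
      simp only [List.nodup_cons, List.mem_cons, List.not_mem_nil, or_false, not_or,
        not_false_eq_true, List.nodup_nil, and_true]
      exact ⟨⟨hab, hac, hd' a (by simp) x (by simp), hd' a (by simp) y (by simp),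
        hd' a (by simp) z (by simp)⟩, ⟨hbc, hd' b (by simp) x (by simp), hd' b (by simp) y (by simp),
        hd' b (by simp) z (by simp)⟩, ⟨hd' c (by simp) x (by simp), hd' c (by simp) y (by simp),
        hd' c (by simp) z (by simp)⟩, ⟨hxy, hxz⟩, hyz⟩) hh
  refine ⟨g, hg, hgd, ?_, ?_⟩
  · rw [smul_triple, ga, gb, gc, T0_eq]
  · rw [smul_triple, gx, gy, gz, U0_eq]

theorem to_Q0_pair {d : Finset GolayPt} (hd : d ∈ dodecads) {Q : Finset (Finset GolayPt)}
    (hQ : Q ∈ quartets d) {t u : Finset GolayPt} (ht : t ∈ Q) (hu : u ∈ Q) (htu : t ≠ u) :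
    ∃ g ∈ M24, g • d = D0 ∧ g • Q = Q0 ∧ g • t = T0 ∧ g • u = U0 := by
  have c1 := (hQ.2.1 t ht).1
  have c2 := (hQ.2.1 u hu).1
  have hh := hQ.2.2 t ht u hu htu
  have hdis : Disjoint t u := by
    rw [← Finset.card_union_eq_card_add_card, hh.1, c1, c2]
  obtain ⟨g, hg, hgd, h1, h2⟩ := std_triples hd c1 c2 hdis hh
  refine ⟨g, hg, hgd, ?_, h1, h2⟩
  apply uniq0
  · rw [← hgd]; exact smul_quartets hg hQ
  · rw [← h1]; exact Finset.smul_mem_smul_finset ht
  · rw [← h2]; exact Finset.smul_mem_smul_finset hu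

theorem to_Q0 {d : Finset GolayPt} (hd : d ∈ dodecads) {Q : Finset (Finset GolayPt)}
    (hQ : Q ∈ quartets d) : ∃ g ∈ M24, g • d = D0 ∧ g • Q = Q0 := by
  obtain ⟨t, ht, u, hu, htu⟩ := Finset.one_lt_card.1 (by rw [hQ.1]; norm_num : 1 < Q.card)
  obtain ⟨g, hg, h1, h2, -, -⟩ := to_Q0_pair hd hQ ht hu htu
  exact ⟨g, hg, h1, h2⟩

end Cfsg.Agent.Lib.Helper28.Quartet
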