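import Mathlib
import Cfsg.Prelude.Def_RootSubgroups
import Cfsg.Agent.Lib.Helper28.Dihedral

set_option autoImplicit false

namespace Cfsg.Agent.Lib.Helper28.RootInv

open Cfsg Cfsg.Agent.Lib.Helper28

variable {G : Type*} [Group G] {D : Set G}

theorem sq (hD : IsRootInvolutionSet D) {d : G} (hd : d ∈ D) : d * d = 1 :=
  sq_eq_one_of_orderOf_two (hD.orderOf_eq d hd)

theorem ne_one (hD : IsRootInvolutionSet D) {d : G} (hd : d ∈ D) : d ≠ 1 := by
  rintro rfl
  have := hD.orderOf_eq 1 hd
  simp at this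

theorem inv_eq (hD : IsRootInvolutionSet D) {d : G} (hd : d ∈ D) : d⁻¹ = d :=
  inv_eq_self_of_sq (sq hD hd)

theorem orderOf_swap (a b : G) : orderOf (a * b) = orderOf (b * a) := by
  have : b * a = a⁻¹ * (a * b) * a := by group
  rw [this]
  have h := orderOf_injective (MulAut.conj a⁻¹).toMonoidHom (MulAut.conj a⁻¹).injective (a * b)
  simpa using h.symm

theorem orderOf_conj' (g a : G) : orderOf (g * a * g⁻¹) = orderOf a := by
  have h := orderOf_injective (MulAut.conj g).toMonoidHom (MulAut.conj g).injective a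
  simpa using h

theorem oddAdj_symm {a b : G} (h : OddAdj D a b) : OddAdj D b a :=
  ⟨h.2.1, h.1, h.2.2.1.symm, by rw [orderOf_swap]; exact h.2.2.2⟩

theorem oddAdj_conj (hD : IsRootInvolutionSet D) {a b : G} (h : OddAdj D a b) (g : G) :
    OddAdj D (g * a * g⁻¹) (g * b * g⁻¹) := by
  refine ⟨hD.conj_mem a h.1 g, hD.conj_mem b h.2.1 g, ?_, ?_⟩
  · intro h1
    apply h.2.2.1
    simpa using h1
  · have : g * a * g⁻¹ * (g * b * g⁻¹) = g * (a * b) * g⁻¹ := by group
    rw [this, orderOf_conj']
    exact h.2.2.2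

theorem reach_symm {a b : G} (h : Relation.ReflTransGen (OddAdj D) a b) :
    Relation.ReflTransGen (OddAdj D) b a := by
  induction h with
  | refl => exact Relation.ReflTransGen.refl
  | tail _ h2 ih => exact Relation.ReflTransGen.head (oddAdj_symm h2) ih

theorem comp_eq_of_reach {a b : G} (h : Relation.ReflTransGen (OddAdj D) a b) :
    elemComponentOf (OddAdj D) D a = elemComponentOf (OddAdj D) D b := by
  ext c
  constructor
  · rintro ⟨hc, h1⟩
    exact ⟨hc, (reach_symm h).trans h1⟩
  · rintro ⟨hc, h1⟩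
    exact ⟨hc, h.trans h1⟩

/-- the product of two members never has order `2 n` with `n > 1` odd -/
theorem order_two_mul_odd (hD : IsRootInvolutionSet D) {x y : G} (hx : x ∈ D) (hy : y ∈ D) {n : ℕ}
    (hn : Odd n) (h : orderOf (x * y) = 2 * n) : n = 1 := by
  rcases hD.pair x hx y hy with h1 | h1 | ⟨h1, -⟩
  · have h2 : (x * y) ^ 2 = 1 := by
      rw [pow_two]
      calc x * y * (x * y) = x * y * (y * x) := by rw [h1]
        _ = x * (y * y) * x := by group
        _ = 1 := by rw [sq hD hy, mul_one, sq hD hx]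
    have h3 := orderOf_dvd_of_pow_eq_one h2
    rw [h] at h3
    have h4 := Nat.le_of_dvd (by norm_num) h3
    obtain ⟨k, hk⟩ := hn
    omega
  · rw [h] at h1
    exact absurd h1 (by simp)
  · rw [h] at h1
    obtain ⟨k, hk⟩ := hn
    omega

/-- if `{1, a, e, e a}` is a four group with involutions in `D` and `x e` has odd order, `x ≠ e`,
then `x` does not commute with `a`. -/
theorem not_comm_of_odd (hD : IsRootInvolutionSet D) {x e a : G} (hx : x ∈ D) (he : e ∈ D)
    (ha : a ∈ D) (hf : e * a ∈ D) (hea : e * a = a * e) (hne : x ≠ e)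
    (hodd : Odd (orderOf (x * e))) : x * a ≠ a * x := by
  intro hxa
  have hc : Commute (x * e) a := by
    show x * e * a = a * (x * e)
    rw [mul_assoc, hea, ← mul_assoc, hxa, mul_assoc]
  have hcop : Nat.Coprime (orderOf (x * e)) (orderOf a) := by
    rw [hD.orderOf_eq a ha]
    exact (Nat.coprime_two_right).2 hodd
  have h1 := hc.orderOf_mul_eq_mul_orderOf_of_coprime hcop
  rw [hD.orderOf_eq a ha, mul_comm, mul_assoc] at h1
  have h2 := order_two_mul_odd hD hx hf hodd h1
  rw [orderOf_eq_one_iff] at h2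
  apply hne
  calc x = x * e * e := by rw [mul_assoc, sq hD he, mul_one]
    _ = e := by rw [h2, one_mul]

/-- purely group theoretic: involutions `x, e, a` with `e a = a e`, `(x a)^4 = 1 = (x e a)^4` and
`x e` of odd order force `x = e`. -/
theorem four_group_lemma {x e a : G} (hx : x * x = 1) (he : e * e = 1) (ha : a * a = 1)
    (hea : e * a = a * e) (h1 : (x * a) ^ 4 = 1) (h2 : (x * (e * a)) ^ 4 = 1)
    (hodd : Odd (orderOf (x * e))) : x = e := by
  have hx' : ∀ y, x * (x * y) = y := fun y => by rw [← mul_assoc, hx, one_mul]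
  have he' : ∀ y, e * (e * y) = y := fun y => by rw [← mul_assoc, he, one_mul]
  have ha' : ∀ y, a * (a * y) = y := fun y => by rw [← mul_assoc, ha, one_mul]
  have hea' : ∀ y, e * (a * y) = a * (e * y) := fun y => by rw [← mul_assoc, hea, mul_assoc]
  obtain ⟨m, hm⟩ := hodd
  set t := x * e with ht
  set u := x * a * x * a with hu
  set v := a * x * e * a * x * e with hv
  have htt : t * t = u * v := by
    simp only [ht, hu, hv, mul_assoc, hx', ha', he', hea', hx, ha, he, hea, mul_one]
  have huu : u * u = 1 := by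
    rw [← h1]
    simp only [hu, pow_succ, pow_zero, one_mul, mul_assoc]
  have hvv : v * v = 1 := by
    have : v * v = a * (x * (e * a)) ^ 4 * a := by
      simp only [hv, pow_succ, pow_zero, one_mul, mul_assoc, ha', ha, mul_one]
    rw [this, h2, mul_one, ha]
  have hs1 : SemiconjBy u (t * t) (t * t)⁻¹ := by
    rw [htt, mul_inv_of_invol huu hvv]
    show u * (u * v) = v * u * u
    rw [mul_assoc v, huu, mul_one, ← mul_assoc, huu, one_mul]
  have htn : t ^ (2 * m + 1) = 1 := by rw [← hm]; exact pow_orderOf_eq_one t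
  have htp : (t * t) ^ (m + 1) = t := by
    rw [← pow_two, ← pow_mul]
    have : 2 * (m + 1) = (2 * m + 1) + 1 := by ring
    rw [this, pow_succ, htn, one_mul]
  have hs2 : SemiconjBy u t t⁻¹ := by
    have := hs1.pow_right (m + 1)
    rw [inv_pow, htp] at this
    exact this
  have hs3 : SemiconjBy x t t⁻¹ := by
    rw [ht, mul_inv_of_invol hx he]
    show x * (x * e) = e * x * x
    rw [hx', mul_assoc, hx, mul_one]
  have hs3' : SemiconjBy x t⁻¹ t := by
    have := hs3.inv_right
    rwa [inv_inv] at this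
  have hs4 : SemiconjBy (x * u) t t := hs3'.mul_left hs2
  have hux : u * x = x * u := by
    have h3 : u⁻¹ = u := inv_eq_self_of_sq huu
    have h4 : u⁻¹ = a * x * a * x := by
      rw [hu]
      simp only [mul_inv_rev, inv_eq_self_of_sq hx, inv_eq_self_of_sq ha, mul_assoc]
    have h5 : u = a * x * a * x := by rw [← h3, h4]
    calc u * x = a * x * a * x * x := by rw [← h5]
      _ = a * x * a := by rw [mul_assoc, hx, mul_one]
      _ = x * u := by simp only [hu, mul_assoc, hx']
  have hxu : x * u = a * x * a := by simp only [hu, mul_assoc, hx']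
  have hs5 : SemiconjBy (x * u) x x := by
    show x * u * x = x * (x * u)
    rw [mul_assoc, hux]
  have hs6 : SemiconjBy (x * u) (x * t) (x * t) := hs5.mul_right hs4
  have hxt : x * t = e := by rw [ht, hx']
  rw [hxt, hxu] at hs6
  have h7 : a * x * a * e = e * (a * x * a) := hs6
  have h8 : x * e = e * x := by
    have := congrArg (fun y => a * y * a) h7
    simp only [mul_assoc, ha', hea', hea, ha, mul_one] at this
    exact this
  have h10 : t * t = 1 := by
    rw [ht]
    calc x * e * (x * e) = x * e * (e * x) := by rw [h8]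
      _ = 1 := by simp only [mul_assoc, he', hx]
  have h11 : t = 1 := by rw [← htp, h10, one_pow]
  calc x = x * e * e := by rw [mul_assoc, he, mul_one]
    _ = e := by rw [← ht, h11, one_mul]

/-- `x` odd to `e`, `{a, e, e a}` in `D`: then `x` is odd-adjacent to `a` or to `e a`. -/
theorem odd_to_other (hD : IsRootInvolutionSet D) {x e a : G} (hx : x ∈ D) (he : e ∈ D)
    (ha : a ∈ D) (hf : e * a ∈ D) (hea : e * a = a * e) (hne : x ≠ e)
    (hodd : Odd (orderOf (x * e))) : OddAdj D x a ∨ OddAdj D x (e * a) := by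
  have hee := sq hD he
  have haa := sq hD ha
  have h1 := not_comm_of_odd hD hx he ha hf hea hne hodd
  have hef : e * (e * a) = a := by rw [← mul_assoc, hee, one_mul]
  have h2 : x * (e * a) ≠ (e * a) * x := by
    refine not_comm_of_odd hD hx he hf (by rw [hef]; exact ha) ?_ hne hodd
    rw [hef, hea, mul_assoc, hee, mul_one]
  have hxa : x ≠ a := by rintro rfl; exact h1 rfl
  have hxf : x ≠ e * a := by rintro rfl; exact h2 rfl
  rcases hD.pair x hx a ha with h3 | h3 | ⟨h3, -⟩
  · exact absurd h3 h1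
  · exact Or.inl ⟨hx, ha, hxa, h3⟩
  rcases hD.pair x hx (e * a) hf with h4 | h4 | ⟨h4, -⟩
  · exact absurd h4 h2
  · exact Or.inr ⟨hx, hf, hxf, h4⟩
  exfalso
  apply hne
  refine four_group_lemma (sq hD hx) hee haa hea ?_ ?_ hodd
  · rw [← h3]; exact pow_orderOf_eq_one _
  · rw [← h4]; exact pow_orderOf_eq_one _

/-- every element of the group generated by two involutions whose product has exponent 4
has exponent 4 -/
theorem pow_four_of_mem_closure {a b : G} (ha : a * a = 1) (hb : b * b = 1) (h4 : (a * b) ^ 4 = 1)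
    {g : G} (hg : g ∈ Subgroup.closure ({a, b} : Set G)) : g ^ 4 = 1 := by
  have hs : SemiconjBy a (a * b) (a * b)⁻¹ := by
    rw [mul_inv_of_invol ha hb]
    show a * (a * b) = b * a * a
    rw [mul_assoc b, ha, mul_one, ← mul_assoc, ha, one_mul]
  have hsz : ∀ k : ℤ, a * (a * b) ^ k = (a * b) ^ (-k) * a := by
    intro k
    have := hs.zpow_right k
    rw [inv_zpow, ← zpow_neg] at this
    exact this
  have key : ∃ k : ℤ, g = (a * b) ^ k ∨ g = (a * b) ^ k * a := by
    induction hg using Subgroup.closure_induction with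
    | mem x hx =>
      rcases hx with rfl | hx
      · exact ⟨0, Or.inr (by simp)⟩
      · have hx : x = b := hx
        subst hx
        refine ⟨-1, Or.inr ?_⟩
        rw [zpow_neg, zpow_one, mul_inv_of_invol ha hb, mul_assoc, ha, mul_one]
    | one => exact ⟨0, Or.inl (by simp)⟩
    | mul x y _ _ hx hy =>
      obtain ⟨k, hk | hk⟩ := hx <;> obtain ⟨l, hl | hl⟩ := hy
      · exact ⟨k + l, Or.inl (by rw [hk, hl, zpow_add])⟩
      · exact ⟨k + l, Or.inr (by rw [hk, hl, zpow_add, mul_assoc])⟩
      · exact ⟨k + -l, Or.inr (by rw [hk, hl, zpow_add, mul_assoc, hsz, mul_assoc])⟩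
      · refine ⟨k + -l, Or.inl ?_⟩
        rw [hk, hl, zpow_add, mul_assoc, ← mul_assoc a, hsz, mul_assoc _ a a, ha, mul_one]
    | inv x _ hx =>
      obtain ⟨k, hk | hk⟩ := hx
      · exact ⟨-k, Or.inl (by rw [hk, zpow_neg])⟩
      · refine ⟨k, Or.inr ?_⟩
        rw [hk, mul_inv_rev, inv_eq_self_of_sq ha, ← zpow_neg, hsz, neg_neg]
  obtain ⟨k, hk | hk⟩ := key
  · rw [hk, ← zpow_natCast, ← zpow_mul, mul_comm, zpow_mul, zpow_natCast, h4, one_zpow]
  · have : g * g = 1 := by
      rw [hk, mul_assoc, ← mul_assoc a, hsz, mul_assoc _ a a, ha, mul_one, ← zpow_add]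
      simp
    have h5 : g ^ 4 = (g * g) * (g * g) := by
      simp only [pow_succ, pow_zero, one_mul, mul_assoc]
    rw [h5, this, one_mul]

theorem isPGroup_closure_pair {a b : G} (ha : a * a = 1) (hb : b * b = 1) (h4 : (a * b) ^ 4 = 1) :
    IsPGroup 2 (Subgroup.closure ({a, b} : Set G)) := by
  intro g
  refine ⟨2, ?_⟩
  have := pow_four_of_mem_closure ha hb h4 g.2
  apply Subtype.ext
  simpa using this

end Cfsg.Agent.Lib.Helper28.RootInv
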