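import Mathlib
import Cfsg.Prelude.Def_RootSubgroups
import Cfsg.Agent.Lib.Helper28.RankOne2
set_option autoImplicit false

namespace Cfsg.Agent.Lib.Helper28

open scoped commutatorElement
open RankOne

variable {G : Type*} [Group G]

namespace RootSet

variable {S : Set (Subgroup G)} {A B C D : Subgroup G}

lemma exists_partner (hA : ¬ Cfsg.IsIsolatedIn (Cfsg.FAdj S) S A) (hAS : A ∈ S) :
    ∃ C ∈ S, Cfsg.IsRankOnePair A C := by
  unfold Cfsg.IsIsolatedIn at hA
  push Not at hA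
  obtain ⟨B, hB⟩ := hA hAS
  by_cases h : Cfsg.FAdj S A B
  · exact ⟨B, h.2.1, h.2.2⟩
  · have := hB h
    exact ⟨B, this.1, Cfsg.RankOnePair_symm this.2.2⟩

lemma not_isolated (hAS : A ∈ S) (hC : C ∈ S) (h : Cfsg.IsRankOnePair A C) :
    ¬ Cfsg.IsIsolatedIn (Cfsg.FAdj S) S A := by
  intro hi
  exact (hi.2 C).1 ⟨hAS, hC, h⟩

lemma normalizes_of_comm {x : G} (h : ∀ c ∈ C, x * c = c * x) : x ∈ Subgroup.normalizer (C : Set G) := by
  have : x ∈ Subgroup.centralizer (C : Set G) := by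
    rw [Subgroup.mem_centralizer_iff]
    intro c hc
    exact (h c hc).symm
  exact Subgroup.centralizer_le_normalizer _ this

lemma comm_elem_normalizes (h : Cfsg.RootCommutatorCase S B C) {x c : G} (hx : x ∈ B) (hc : c ∈ C) :
    x * c * x⁻¹ * c⁻¹ ∈ Subgroup.normalizer (C : Set G) := by
  apply normalizes_of_comm
  intro c' hc'
  exact h.2.1 _ (Subgroup.commutator_mem_commutator hx hc) c' (Subgroup.mem_sup_right hc')

/-- an element of `A#` lying in `B ∈ S` forces `(B, C)` to be a rank one pair for a partner `C` of `A`. -/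
lemma pair_of_mem (hS : Cfsg.IsRootSubgroupSet S) (hC : C ∈ S) (hAC : Cfsg.IsRankOnePair A C)
    (hB : B ∈ S) {x : G} (hxA : x ∈ A) (hxB : x ∈ B) (hx1 : x ≠ 1) : Cfsg.IsRankOnePair B C := by
  rcases hS.pair B hB C hC with h | h | h
  · exfalso
    apply hx1
    apply eq_one_of_normalizes hAC hxA
    exact normalizes_of_comm (fun c hc => comm_of_commutator_eq_bot h hxB hc)
  · exact h
  · exfalso
    exact not_forall_comm_normalizes hAC hxA hx1 (fun c hc => comm_elem_normalizes h hxB hc)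

theorem inter_trivial (hS : Cfsg.IsRootSubgroupSet S) (hC : C ∈ S) (hAC : Cfsg.IsRankOnePair A C)
    (hB : B ∈ S) {x : G} (hxA : x ∈ A) (hxB : x ∈ B) (hx1 : x ≠ 1) : A = B := by
  have hBC := pair_of_mem hS hC hAC hB hxA hxB hx1
  obtain ⟨c, hc, -, h1⟩ := hAC.cond_left x hxA hx1
  obtain ⟨c', hc', -, h2⟩ := hBC.cond_left x hxB hx1
  have h3 : B = Cfsg.conjBy A (c' * c⁻¹) := by
    rw [← conjBy_conjBy, h1, ← h2, conjBy_conjBy, mul_inv_cancel, conjBy_one]
  by_contra hne
  have hBu : B ∈ Cfsg.unipotentSubgroups A C :=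
    ⟨c' * c⁻¹, mul_mem (Subgroup.mem_sup_right hc') (inv_mem (Subgroup.mem_sup_right hc)), h3⟩
  have hp := pair_of_unipotent hAC A_mem_unipotent hBu hne
  exact hx1 (eq_one_of_normalizes hp hxA (Subgroup.le_normalizer hxB))

theorem central_mul_not_mem (hS : Cfsg.IsRootSubgroupSet S) (hA : A ∈ S) (hB : B ∈ S)
    (hAB : Cfsg.IsRankOnePair A B) {z : G} (hz : ∀ x ∈ A ⊔ B, z * x = x * z) (hz1 : z ≠ 1)
    {a : G} (ha : a ∈ A) (ha1 : a ≠ 1) (hC : C ∈ S) : z * a ∉ C := by
  intro hd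
  have hzB : z ∈ Subgroup.normalizer (B : Set G) :=
    normalizes_of_comm (fun b hb => hz b (Subgroup.mem_sup_right hb))
  have hzA : z ∉ A := fun h => hz1 (eq_one_of_normalizes hAB h hzB)
  have hd1 : z * a ≠ 1 := by
    intro h
    apply hzA
    rw [mul_eq_one_iff_eq_inv] at h
    rw [h]
    exact A.inv_mem ha
  have hconj : ∀ b ∈ B, (z * a) * b * (z * a)⁻¹ = a * b * a⁻¹ := by
    intro b hb
    have h1 : a * b * a⁻¹ ∈ A ⊔ B :=
      mul_mem (mul_mem (Subgroup.mem_sup_left ha) (Subgroup.mem_sup_right hb))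
        (inv_mem (Subgroup.mem_sup_left ha))
    have h2 := hz _ h1
    calc (z * a) * b * (z * a)⁻¹ = z * (a * b * a⁻¹) * z⁻¹ := by group
      _ = a * b * a⁻¹ := by rw [h2, mul_inv_cancel_right]
  rcases hS.pair C hC B hB with h | h | h
  · apply ha1
    apply eq_one_of_normalizes hAB ha
    apply normalizes_of_comm
    intro b hb
    have h1 := comm_of_commutator_eq_bot h hd hb
    have h2 := hconj b hb
    rw [h1, mul_inv_cancel_right] at h2
    have h3 := congrArg (fun w => w * a) h2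
    simpa [mul_assoc] using h3.symm
  · obtain ⟨b1, hb1, -, e1⟩ := h.cond_left _ hd hd1
    obtain ⟨b0, hb0, -, e0⟩ := hAB.cond_left a ha ha1
    have e2 : Cfsg.conjBy B (z * a)⁻¹ = Cfsg.conjBy B a⁻¹ := by
      rw [mul_inv_rev, ← conjBy_conjBy, conjBy_eq_self_iff.2 (inv_mem hzB)]
    have e3 : C = Cfsg.conjBy A (b1 * b0⁻¹) := by
      rw [← conjBy_conjBy, e0, ← e2, ← e1, conjBy_conjBy, mul_inv_cancel, conjBy_one]
    have hCu : C ∈ Cfsg.unipotentSubgroups A B :=
      ⟨b1 * b0⁻¹, mul_mem (Subgroup.mem_sup_right hb1) (inv_mem (Subgroup.mem_sup_right hb0)), e3⟩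
    by_cases hne : A = C
    · apply hzA
      rw [← hne] at hd
      have := A.mul_mem hd (A.inv_mem ha)
      rwa [mul_inv_cancel_right] at this
    · have hp := pair_of_unipotent hAB A_mem_unipotent hCu hne
      apply not_comm hp (hS.commutative A hA) ha ha1 hd hd1
      rw [← mul_assoc, ← hz a (Subgroup.mem_sup_left ha), mul_assoc]
  · apply not_forall_comm_normalizes hAB ha ha1
    intro b hb
    rw [← hconj b hb]
    exact comm_elem_normalizes h hd hb

end RootSet

end Cfsg.Agent.Lib.Helper28
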