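import Mathlib
import Cfsg.Prelude.Def_RootSubgroups
import Cfsg.Agent.Lib.Helper28.RootSet
set_option autoImplicit false

namespace Cfsg.Agent.Lib.Helper28

open scoped commutatorElement
open RankOne

variable {G : Type*} [Group G]

namespace RootSet

variable {S : Set (Subgroup G)} {A B C D E : Subgroup G}

lemma cc_symm (h : Cfsg.RootCommutatorCase S A B) : Cfsg.RootCommutatorCase S B A := by
  obtain ⟨h1, h2, h3, h4⟩ := h
  have hinv : ∀ (x : G) (T : Subgroup G),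
      Subgroup.closure ((fun y : G => x * y * x⁻¹ * y⁻¹) '' (T : Set G)) =
      Subgroup.closure ((fun y : G => y * x * y⁻¹ * x⁻¹) '' (T : Set G)) := by
    intro x T
    rw [← Subgroup.closure_inv]
    congr 1
    ext z
    simp only [Set.mem_inv, Set.mem_image]
    constructor
    · rintro ⟨y, hy, e⟩
      refine ⟨y, hy, ?_⟩
      rw [← inv_inj, ← e]
      group
    · rintro ⟨y, hy, e⟩
      refine ⟨y, hy, ?_⟩
      rw [← e]
      group
  refine ⟨by rwa [Subgroup.commutator_comm], ?_, ?_, ?_⟩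
  · rw [Subgroup.commutator_comm, sup_comm]
    exact h2
  · intro b hb hb1
    rw [hinv, h4 b hb hb1, Subgroup.commutator_comm]
  · intro a ha ha1
    rw [← hinv, h3 a ha ha1, Subgroup.commutator_comm]

lemma cc_central (h : Cfsg.RootCommutatorCase S A B) {a b x : G} (ha : a ∈ A) (hb : b ∈ B)
    (hx : x ∈ A ⊔ B) : ⁅a, b⁆ * x = x * ⁅a, b⁆ :=
  h.2.1 _ (Subgroup.commutator_mem_commutator ha hb) x hx

lemma cc_mul_right (h : Cfsg.RootCommutatorCase S A B) {a b c : G} (ha : a ∈ A) (hb : b ∈ B) (hc : c ∈ B) :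
    ⁅a, b * c⁆ = ⁅a, b⁆ * ⁅a, c⁆ := by
  have h1 := cc_central h ha hc (Subgroup.mem_sup_right hb)
  have h2 : ⁅a, b * c⁆ = ⁅a, b⁆ * (b * ⁅a, c⁆ * b⁻¹) := by
    simp only [commutatorElement_def]; group
  rw [h2, ← h1, mul_inv_cancel_right]

lemma cc_mul_left (h : Cfsg.RootCommutatorCase S A B) {a a' b : G} (ha : a ∈ A) (ha' : a' ∈ A) (hb : b ∈ B) :
    ⁅a * a', b⁆ = ⁅a, b⁆ * ⁅a', b⁆ := by
  have h1 := cc_central h ha' hb (Subgroup.mem_sup_left ha)
  have h3 := cc_central h ha' hb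
    (Subgroup.commutator_le_sup A B (Subgroup.commutator_mem_commutator ha hb))
  have h2 : ⁅a * a', b⁆ = (a * ⁅a', b⁆ * a⁻¹) * ⁅a, b⁆ := by
    simp only [commutatorElement_def]; group
  rw [h2, ← h1, mul_inv_cancel_right, h3]

lemma cc_inv_right (h : Cfsg.RootCommutatorCase S A B) {a b : G} (ha : a ∈ A) (hb : b ∈ B) :
    ⁅a, b⁻¹⁆ = ⁅a, b⁆⁻¹ := by
  have := cc_mul_right h ha hb (B.inv_mem hb)
  rw [mul_inv_cancel, commutatorElement_one_right] at this
  exact (inv_eq_of_mul_eq_one_right this.symm).symm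

lemma cc_surj_right (h : Cfsg.RootCommutatorCase S A B) {a : G} (ha : a ∈ A) (ha1 : a ≠ 1) {c : G}
    (hc : c ∈ ⁅A, B⁆) : ∃ b ∈ B, ⁅a, b⁆ = c := by
  let T : Subgroup G :=
    { carrier := {c | ∃ b ∈ B, ⁅a, b⁆ = c}
      one_mem' := ⟨1, B.one_mem, commutatorElement_one_right a⟩
      mul_mem' := by
        rintro _ _ ⟨b, hb, rfl⟩ ⟨b', hb', rfl⟩
        exact ⟨b * b', B.mul_mem hb hb', cc_mul_right h ha hb hb'⟩
      inv_mem' := by
        rintro _ ⟨b, hb, rfl⟩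
        exact ⟨b⁻¹, B.inv_mem hb, cc_inv_right h ha hb⟩ }
  have hle : ⁅A, B⁆ ≤ T := by
    rw [← h.2.2.1 a ha ha1, Subgroup.closure_le]
    rintro _ ⟨b, hb, rfl⟩
    exact ⟨b, hb, rfl⟩
  exact hle hc

lemma cc_surj_left (h : Cfsg.RootCommutatorCase S A B) {b : G} (hb : b ∈ B) (hb1 : b ≠ 1) {c : G}
    (hc : c ∈ ⁅A, B⁆) : ∃ a ∈ A, ⁅a, b⁆ = c := by
  have hc' : c⁻¹ ∈ ⁅B, A⁆ := by
    rw [Subgroup.commutator_comm]; exact inv_mem hc
  obtain ⟨a, ha, e⟩ := cc_surj_right (cc_symm h) hb hb1 hc'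
  refine ⟨a, ha, ?_⟩
  rw [← commutatorElement_inv, e, inv_inv]

lemma cc_ne (hS : Cfsg.IsRootSubgroupSet S) (h : Cfsg.RootCommutatorCase S A B) : A ≠ ⁅A, B⁆ := by
  intro hA
  apply hS.ne_bot _ h.1
  apply commutator_eq_bot_of_comm
  intro a ha b hb
  rw [hA] at ha
  exact h.2.1 a ha b (Subgroup.mem_sup_right hb)

/-- for `a ∈ A#` and `c ∈ [A,B]`, `c a` is a `B`-conjugate of `a`. -/
lemma cc_mul_eq_conj (h : Cfsg.RootCommutatorCase S A B) {a : G} (ha : a ∈ A) (ha1 : a ≠ 1) {c : G}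
    (hc : c ∈ ⁅A, B⁆) : ∃ b ∈ B, c * a = b * a * b⁻¹ := by
  obtain ⟨b, hb, e⟩ := cc_surj_right h ha ha1 (inv_mem hc)
  refine ⟨b, hb, ?_⟩
  have : c = ⁅b, a⁆ := by rw [← commutatorElement_inv, e, inv_inv]
  rw [this, commutatorElement_def]
  group

lemma cc_inj (hS : Cfsg.IsRootSubgroupSet S) (hA : A ∈ S) (hD : D ∈ S) (hAD : Cfsg.IsRankOnePair A D)
    (h : Cfsg.RootCommutatorCase S A B) {a b : G} (ha : a ∈ A) (ha1 : a ≠ 1) (hb : b ∈ B)
    (hab : ⁅a, b⁆ = 1) : b = 1 := by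
  by_contra hb1
  rw [commutatorElement_eq_one_iff_mul_comm] at hab
  have h1 : a ∈ Cfsg.conjBy A b := by
    rw [mem_conjBy, mul_assoc, hab, inv_mul_cancel_left]
    exact ha
  have h2 : A = Cfsg.conjBy A b := inter_trivial hS hD hAD (hS.conj_mem A hA b) ha h1 ha1
  have h3 : ⁅A, B⁆ ≤ A := by
    rw [← h.2.2.2 b hb hb1, Subgroup.closure_le]
    rintro _ ⟨a', ha', rfl⟩
    have h4 : b * a'⁻¹ * b⁻¹ ∈ A := by
      rw [h2]; exact conj_mem_conjBy (A.inv_mem ha')
    have := A.mul_mem ha' h4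
    simpa [mul_assoc] using this
  obtain ⟨c, hc, hc1⟩ := exists_ne_one_of_ne_bot (hS.ne_bot _ h.1)
  exact cc_ne hS h (inter_trivial hS hD hAD h.1 (h3 hc) hc hc1)

/-- `[A,B] ∈ S` forces the commutator case. -/
lemma cc_of_mem (hS : Cfsg.IsRootSubgroupSet S) (hA : A ∈ S) (hB : B ∈ S) (hC : ⁅A, B⁆ ∈ S) :
    Cfsg.RootCommutatorCase S A B := by
  rcases hS.pair A hA B hB with h | h | h
  · exact absurd h (hS.ne_bot _ hC)
  · exfalso
    obtain ⟨a, ha, ha1⟩ := exists_ne_one_left h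
    obtain ⟨b0, hb0, -, e0⟩ := h.cond_left a ha ha1
    have hBle : B ≤ A ⊔ ⁅A, B⁆ := by
      intro b hb
      have h1 : a⁻¹ * b * a⁻¹⁻¹ ∈ Cfsg.conjBy B a⁻¹ := conj_mem_conjBy hb
      rw [← e0, mem_conjBy, inv_inv, inv_inv] at h1
      set a' := b0 * (a⁻¹ * b * a) * b0⁻¹ with ha'
      have h2 : b = a * (⁅b0⁻¹, a'⁆ * a') * a⁻¹ := by
        rw [ha']; simp only [commutatorElement_def]; group
      rw [h2]
      refine mul_mem (mul_mem (Subgroup.mem_sup_left ha) (mul_mem (Subgroup.mem_sup_right ?_)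
        (Subgroup.mem_sup_left h1))) (inv_mem (Subgroup.mem_sup_left ha))
      rw [Subgroup.commutator_comm]
      exact Subgroup.commutator_mem_commutator (B.inv_mem hb0) h1
    rcases hS.pair A hA _ hC with h' | h' | h'
    · apply not_normal_left h
      have hle : A ⊔ ⁅A, B⁆ ≤ Subgroup.centralizer (A : Set G) := by
        refine sup_le ?_ ?_
        · intro x hx
          rw [Subgroup.mem_centralizer_iff]
          intro y hy
          exact comm_of_isMulCommutative (hS.commutative A hA) hy hx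
        · intro x hx
          rw [Subgroup.mem_centralizer_iff]
          intro y hy
          exact comm_of_commutator_eq_bot h' hy hx
      exact (hBle.trans hle).trans (Subgroup.centralizer_le_normalizer _)
    · exact ha1 (eq_one_of_normalizes h' ha (Subgroup.normalizer_commutator_ge_left A B ha))
    · obtain ⟨m, hm, hm1⟩ := exists_ne_one_of_ne_bot (hS.ne_bot _ h'.1)
      obtain ⟨n, hn, e⟩ := cc_mul_eq_conj h' ha ha1 hm
      apply central_mul_not_mem hS hA hB h (z := m) ?_ hm1 ha ha1 (hS.conj_mem A hA n)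
      · rw [e]; exact conj_mem_conjBy ha
      · intro x hx
        exact h'.2.1 m hm x ((sup_le le_sup_left hBle) hx)
  · exact h

/-- no nontrivial element of `[A,B]` centralises a partner `D` of `A`. -/
lemma cc_not_centralizes (hS : Cfsg.IsRootSubgroupSet S) (hA : A ∈ S) (hD : D ∈ S)
    (hAD : Cfsg.IsRankOnePair A D) (h : Cfsg.RootCommutatorCase S A B) {c : G} (hc : c ∈ ⁅A, B⁆)
    (hc1 : c ≠ 1) : ¬ ∀ d ∈ D, c * d = d * c := by
  intro hcd
  obtain ⟨a, ha, ha1⟩ := exists_ne_one_left hAD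
  obtain ⟨b, hb, e⟩ := cc_mul_eq_conj h ha ha1 hc
  apply central_mul_not_mem hS hA hD hAD (z := c) ?_ hc1 ha ha1 (hS.conj_mem A hA b)
  · rw [e]; exact conj_mem_conjBy ha
  · intro x hx
    have hle : A ⊔ D ≤ Subgroup.centralizer {c} := by
      refine sup_le ?_ ?_
      · intro y hy
        rw [Subgroup.mem_centralizer_singleton_iff]
        exact (h.2.1 c hc y (Subgroup.mem_sup_left hy)).symm
      · intro y hy
        rw [Subgroup.mem_centralizer_singleton_iff]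
        exact (hcd y hy).symm
    have := hle hx
    rw [Subgroup.mem_centralizer_singleton_iff] at this
    exact this.symm

lemma cc_eq_of_le (hS : Cfsg.IsRootSubgroupSet S) (hA : A ∈ S) (hD : D ∈ S)
    (hAD : Cfsg.IsRankOnePair A D) (h : Cfsg.RootCommutatorCase S A B) (hE : E ∈ S)
    (hle : E ≤ ⁅A, B⁆) : E = ⁅A, B⁆ := by
  obtain ⟨e, he, he1⟩ := exists_ne_one_of_ne_bot (hS.ne_bot E hE)
  rcases hS.pair _ h.1 D hD with h2 | h2 | h2
  · exact absurd (fun d hd => comm_of_commutator_eq_bot h2 (hle he) hd)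
      (cc_not_centralizes hS hA hD hAD h (hle he) he1)
  · exact (inter_trivial hS hD h2 hE (hle he) he he1).symm
  · rcases hS.pair E hE D hD with h3 | h3 | h3
    · exact absurd (fun d hd => comm_of_commutator_eq_bot h3 he hd)
        (cc_not_centralizes hS hA hD hAD h (hle he) he1)
    · exact absurd (fun d hd => comm_elem_normalizes h2 (hle he) hd)
        (not_forall_comm_normalizes h3 he he1)
    · have heq : ⁅E, D⁆ = ⁅⁅A, B⁆, D⁆ := by
        rw [← h3.2.2.1 e he he1, ← h2.2.2.1 e (hle he) he1]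
      obtain ⟨d, hd, hd1⟩ := exists_ne_one_right hAD
      apply le_antisymm hle
      intro c hc
      have h4 : ⁅c, d⁆ ∈ ⁅E, D⁆ := by
        rw [heq]; exact Subgroup.commutator_mem_commutator hc hd
      obtain ⟨e', he', e4⟩ := cc_surj_left h3 hd hd1 h4
      have h5 : ⁅c * e'⁻¹, d⁆ = 1 := by
        have h6 := cc_mul_left h2 (mul_mem hc (inv_mem (hle he'))) (hle he') hd
        rw [inv_mul_cancel_right, e4] at h6
        exact (mul_eq_right.1 h6.symm)
      have h7 : ⁅d, c * e'⁻¹⁆ = 1 := by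
        rw [← commutatorElement_inv, h5, inv_one]
      have h8 := cc_inj hS hD hA (Cfsg.RankOnePair_symm hAD) (cc_symm h2) hd hd1
        (mul_mem hc (inv_mem (hle he'))) h7
      rw [mul_inv_eq_one] at h8
      rw [h8]; exact he'

lemma mem_sup_cc (h : Cfsg.RootCommutatorCase S A B) {x : G} (hx : x ∈ A ⊔ ⁅A, B⁆) :
    ∃ a ∈ A, ∃ c ∈ ⁅A, B⁆, x = c * a := by
  have hx' : x ∈ ((A ⊔ ⁅A, B⁆ : Subgroup G) : Set G) := hx
  rw [Subgroup.coe_mul_of_left_le_normalizer_right A _ (Subgroup.normalizer_commutator_ge_left A B)] at hx'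
  obtain ⟨a, ha, c, hc, rfl⟩ := hx'
  exact ⟨a, ha, c, hc, (h.2.1 c hc a (Subgroup.mem_sup_left ha)).symm⟩

lemma conj_le_sup_cc {b : G} (hb : b ∈ B) : Cfsg.conjBy A b ≤ A ⊔ ⁅A, B⁆ := by
  intro x hx
  rw [mem_conjBy] at hx
  have h1 : x = ⁅b, b⁻¹ * x * b⁆ * (b⁻¹ * x * b) := by
    simp only [commutatorElement_def]; group
  rw [h1]
  refine mul_mem (Subgroup.mem_sup_right ?_) (Subgroup.mem_sup_left hx)
  rw [Subgroup.commutator_comm]
  exact Subgroup.commutator_mem_commutator hb hx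

theorem members_sup_cc (hS : Cfsg.IsRootSubgroupSet S) (hA : A ∈ S) (hD : D ∈ S)
    (hAD : Cfsg.IsRankOnePair A D) (h : Cfsg.RootCommutatorCase S A B) :
    Cfsg.membersIn S (A ⊔ ⁅A, B⁆) = (fun b : G => Cfsg.conjBy A b) '' (B : Set G) ∪ {⁅A, B⁆} := by
  ext E
  constructor
  · rintro ⟨hE, hle⟩
    by_cases hEC : E ≤ ⁅A, B⁆
    · exact Or.inr (cc_eq_of_le hS hA hD hAD h hE hEC)
    · left
      obtain ⟨e, he, hec⟩ := SetLike.not_le_iff_exists.1 hEC
      obtain ⟨a, ha, c, hc, rfl⟩ := mem_sup_cc h (hle he)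
      have ha1 : a ≠ 1 := by
        rintro rfl
        exact hec (by simpa using hc)
      obtain ⟨b, hb, e1⟩ := cc_mul_eq_conj h ha ha1 hc
      refine ⟨b, hb, ?_⟩
      refine inter_trivial hS (hS.conj_mem D hD b) (pair_conj hAD b) hE (x := c * a) ?_ he ?_
      · rw [e1]; exact conj_mem_conjBy ha
      · rintro h1
        exact hec (h1 ▸ one_mem _)
  · rintro (⟨b, hb, rfl⟩ | rfl)
    · exact ⟨hS.conj_mem A hA b, conj_le_sup_cc hb⟩
    · exact ⟨h.1, le_sup_right⟩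

theorem partition_sup_cc (hS : Cfsg.IsRootSubgroupSet S) (hA : A ∈ S) (hD : D ∈ S)
    (hAD : Cfsg.IsRankOnePair A D) (h : Cfsg.RootCommutatorCase S A B) :
    Cfsg.IsSubgroupPartition (A ⊔ ⁅A, B⁆) (Cfsg.membersIn S (A ⊔ ⁅A, B⁆)) := by
  refine ⟨fun C hC => hC.2, ?_, ?_⟩
  · intro x hx hx1
    obtain ⟨a, ha, c, hc, rfl⟩ := mem_sup_cc h hx
    by_cases ha1 : a = 1
    · subst ha1
      exact ⟨_, ⟨h.1, le_sup_right⟩, by simpa using hc⟩
    · obtain ⟨b, hb, e1⟩ := cc_mul_eq_conj h ha ha1 hc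
      exact ⟨_, ⟨hS.conj_mem A hA b, conj_le_sup_cc hb⟩, by rw [e1]; exact conj_mem_conjBy ha⟩
  · have key : ∀ b ∈ B, ∀ E ∈ S, Cfsg.conjBy A b ≠ E → Cfsg.conjBy A b ⊓ E = ⊥ := by
      intro b _ E hE hne
      by_contra hcon
      obtain ⟨x, hx, hx1⟩ := exists_ne_one_of_ne_bot hcon
      exact hne (inter_trivial hS (hS.conj_mem D hD b) (pair_conj hAD b) hE hx.1 hx.2 hx1)
    intro C1 hC1 C2 hC2 hne
    have hC1' := hC1
    have hC2' := hC2
    rw [members_sup_cc hS hA hD hAD h] at hC1' hC2'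
    rcases hC1' with ⟨b, hb, rfl⟩ | rfl
    · exact key b hb C2 hC2.1 hne
    · rcases hC2' with ⟨b, hb, rfl⟩ | rfl
      · rw [inf_comm]
        exact key b hb _ hC1.1 hne.symm
      · exact absurd rfl hne

end RootSet

end Cfsg.Agent.Lib.Helper28
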