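import Mathlib
import Cfsg.Prelude.Def_RootSubgroups
import Cfsg.Agent.Lib.Helper28.RootSet2
set_option autoImplicit false

namespace Cfsg.Agent.Lib.Helper28

open scoped commutatorElement
open RankOne

variable {G : Type*} [Group G]

namespace RootSet

variable {S : Set (Subgroup G)} {A B C D E : Subgroup G}

lemma linePartners_symm (h : B ∈ Cfsg.linePartners S A) (hA : A ∈ S) : A ∈ Cfsg.linePartners S B := by
  obtain ⟨⟨_, hne, hc⟩, hp⟩ := h
  refine ⟨⟨hA, hne.symm, by rwa [Subgroup.commutator_comm]⟩, ?_⟩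
  rw [sup_comm]; exact hp

/-- The line lemma: `C` a partner of `A`, `B` a line partner of `A` (with a partner `D`) that is not a
partner of `C`; then every other point of the line `AB` is a partner of `C`. -/
theorem line_pair (hS : Cfsg.IsRootSubgroupSet S) (hA : A ∈ S) (hC : C ∈ S)
    (hAC : Cfsg.IsRankOnePair A C) (hB : B ∈ Cfsg.linePartners S A) (hD : D ∈ S)
    (hBD : Cfsg.IsRankOnePair B D) (hnBC : ¬ Cfsg.IsRankOnePair B C)
    (hE : E ∈ Cfsg.membersIn S (A ⊔ B)) (hEB : E ≠ B) : Cfsg.IsRankOnePair E C := by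
  obtain ⟨⟨hBS, hBA, hABc⟩, hpart⟩ := hB
  have hcommAB : ∀ a ∈ A, ∀ b ∈ B, a * b = b * a := fun a ha b hb => comm_of_commutator_eq_bot hABc ha hb
  obtain ⟨a, ha, ha1⟩ := exists_ne_one_left hAC
  obtain ⟨b, hb, hb1⟩ := exists_ne_one_left hBD
  have hinf : A ⊓ B = ⊥ := hpart.2.2 A ⟨hA, le_sup_left⟩ B ⟨hBS, le_sup_right⟩ hBA.symm
  -- products `b a'` lie in members
  have hprod : ∀ a' ∈ A, a' ≠ 1 → ∃ E0 ∈ S, b * a' ∈ E0 := by
    intro a' ha' ha'1
    have h1 : b * a' ≠ 1 := by
      intro h
      apply ha'1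
      have h2 : a' ∈ A ⊓ B := ⟨ha', by
        rw [mul_eq_one_iff_eq_inv] at h
        have : a' = b⁻¹ := by rw [h, inv_inv]
        rw [this]; exact B.inv_mem hb⟩
      rw [hinf] at h2
      simpa using h2
    obtain ⟨E0, hE0, hm⟩ := hpart.2.1 (b * a')
      (mul_mem (Subgroup.mem_sup_right hb) (Subgroup.mem_sup_left ha')) h1
    exact ⟨E0, hE0.1, hm⟩
  rcases hS.pair B hBS C hC with h1 | h1 | h1
  · exfalso
    obtain ⟨E0, hE0, hm⟩ := hprod a ha ha1
    refine central_mul_not_mem hS hA hC hAC (z := b) ?_ hb1 ha ha1 hE0 hm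
    intro x hx
    have hle : A ⊔ C ≤ Subgroup.centralizer {b} := by
      refine sup_le ?_ ?_
      · intro y hy
        rw [Subgroup.mem_centralizer_singleton_iff]
        exact hcommAB y hy b hb
      · intro y hy
        rw [Subgroup.mem_centralizer_singleton_iff]
        exact (comm_of_commutator_eq_bot h1 hb hy).symm
    have := hle hx
    rw [Subgroup.mem_centralizer_singleton_iff] at this
    exact this.symm
  · exact absurd h1 hnBC
  · -- commutator case, F = [B, C]
    have hFB : ∀ f ∈ ⁅B, C⁆, ∀ y ∈ B, f * y = y * f := fun f hf y hy => h1.2.1 f hf y (Subgroup.mem_sup_left hy)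
    have hFC : ∀ f ∈ ⁅B, C⁆, ∀ y ∈ C, f * y = y * f := fun f hf y hy => h1.2.1 f hf y (Subgroup.mem_sup_right hy)
    obtain ⟨c, hc, hc1, e0⟩ := hAC.cond_left a ha ha1
    rcases hS.pair A hA _ h1.1 with h2 | h2 | h2
    · -- A centralises B F: then C centralises B
      exfalso
      apply hS.ne_bot _ h1.1
      apply commutator_eq_bot_of_comm
      intro b' hb' c' hc'
      have hx : a⁻¹ * c' * a⁻¹⁻¹ ∈ Cfsg.conjBy C a⁻¹ := conj_mem_conjBy hc'
      rw [← e0, mem_conjBy, inv_inv, inv_inv] at hx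
      set a' := c * (a⁻¹ * c' * a) * c⁻¹ with ha'
      have hV : c * b' * c⁻¹ ∈ B ⊔ ⁅B, C⁆ := conj_le_sup_cc hc (conj_mem_conjBy hb')
      have hcen : B ⊔ ⁅B, C⁆ ≤ Subgroup.centralizer {a'} := by
        refine sup_le ?_ ?_
        · intro y hy
          rw [Subgroup.mem_centralizer_singleton_iff]
          exact (hcommAB a' hx y hy).symm
        · intro y hy
          rw [Subgroup.mem_centralizer_singleton_iff]
          exact (comm_of_commutator_eq_bot h2 hx hy).symm
      have h3 := hcen hV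
      rw [Subgroup.mem_centralizer_singleton_iff] at h3
      have h4 := hcommAB a ha b' hb'
      have h4' : a⁻¹ * b' = b' * a⁻¹ := hcommAB a⁻¹ (A.inv_mem ha) b' hb'
      -- c' = a c⁻¹ a' c a⁻¹
      have h5 : c' = a * (c⁻¹ * a' * c) * a⁻¹ := by rw [ha']; group
      have h6 : (c⁻¹ * a' * c) * b' = b' * (c⁻¹ * a' * c) := by
        have : c⁻¹ * (c * b' * c⁻¹ * a') * c = c⁻¹ * (a' * (c * b' * c⁻¹)) * c :=
          congrArg (fun w => c⁻¹ * w * c) h3
        have e1 : c⁻¹ * (c * b' * c⁻¹ * a') * c = b' * (c⁻¹ * a' * c) := by group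
        have e2 : c⁻¹ * (a' * (c * b' * c⁻¹)) * c = (c⁻¹ * a' * c) * b' := by group
        rw [e1, e2] at this
        exact this.symm
      rw [h5]
      calc b' * (a * (c⁻¹ * a' * c) * a⁻¹) = a * (b' * (c⁻¹ * a' * c)) * a⁻¹ := by
            rw [← mul_assoc, ← mul_assoc, ← h4]; group
        _ = a * ((c⁻¹ * a' * c) * b') * a⁻¹ := by rw [h6]
        _ = a * (c⁻¹ * a' * c) * a⁻¹ * b' := by
            rw [mul_assoc a, mul_assoc _ b', ← h4']; group
    · -- (A, F) rank one
      exfalso
      obtain ⟨f, hf, hf1⟩ := exists_ne_one_right h2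
      have hbf : b * f ≠ 1 := by
        intro h
        have hbF : b ∈ ⁅B, C⁆ := by
          rw [mul_eq_one_iff_eq_inv] at h
          rw [h]; exact inv_mem hf
        exact cc_ne hS h1 (inter_trivial hS hD hBD h1.1 hb hbF hb1)
      obtain ⟨E0, hE0, hm⟩ := (partition_sup_cc hS hBS hD hBD h1).2.1 (b * f)
        (mul_mem (Subgroup.mem_sup_left hb) (Subgroup.mem_sup_right hf)) hbf
      refine central_mul_not_mem hS h1.1 hA (Cfsg.RankOnePair_symm h2) (z := b) ?_ hb1 hf hf1 hE0.1 hm
      intro x hx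
      have hle : ⁅B, C⁆ ⊔ A ≤ Subgroup.centralizer {b} := by
        refine sup_le ?_ ?_
        · intro y hy
          rw [Subgroup.mem_centralizer_singleton_iff]
          exact hFB y hy b hb
        · intro y hy
          rw [Subgroup.mem_centralizer_singleton_iff]
          exact hcommAB y hy b hb
      have := hle hx
      rw [Subgroup.mem_centralizer_singleton_iff] at this
      exact this.symm
    · -- commutator case K = [A, F]; show K = B
      have hKB : ⁅A, ⁅B, C⁆⁆ = B := by
        set f := ⁅c⁻¹, b⁆ with hf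
        have hfF : f ∈ ⁅B, C⁆ := by
          rw [Subgroup.commutator_comm]
          exact Subgroup.commutator_mem_commutator (C.inv_mem hc) hb
        set k := ⁅a, f⁆ with hk
        have hkK : k ∈ ⁅A, ⁅B, C⁆⁆ := Subgroup.commutator_mem_commutator ha hfF
        have hKb : ∀ k' ∈ ⁅A, ⁅B, C⁆⁆, k' * b = b * k' := by
          intro k' hk'
          have hle : A ⊔ ⁅B, C⁆ ≤ Subgroup.centralizer {b} := by
            refine sup_le ?_ ?_
            · intro y hy
              rw [Subgroup.mem_centralizer_singleton_iff]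
              exact hcommAB y hy b hb
            · intro y hy
              rw [Subgroup.mem_centralizer_singleton_iff]
              exact hFB y hy b hb
          have := hle (Subgroup.commutator_le_sup _ _ hk')
          rwa [Subgroup.mem_centralizer_singleton_iff] at this
        -- y = a c⁻¹ b c a⁻¹ = k f b centralises C
        have hy : a * c⁻¹ * b * c * a⁻¹ = k * f * b := by
          have h4 : a * b * a⁻¹ = b := by rw [hcommAB a ha b hb, mul_inv_cancel_right]
          calc a * c⁻¹ * b * c * a⁻¹ = (a * ⁅c⁻¹, b⁆ * a⁻¹) * (a * b * a⁻¹) := by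
                simp only [commutatorElement_def]; group
            _ = (⁅a, f⁆ * f) * b := by
                rw [h4, ← hf]; simp only [commutatorElement_def]; group
        have hyC : ∀ c' ∈ C, (k * f * b) * c' = c' * (k * f * b) := by
          intro c' hc'
          rw [← hy]
          have hx : a⁻¹ * c' * a⁻¹⁻¹ ∈ Cfsg.conjBy C a⁻¹ := conj_mem_conjBy hc'
          rw [← e0, mem_conjBy, inv_inv, inv_inv] at hx
          have h3 := hcommAB _ hx b hb
          have h5 : a * c⁻¹ * (c * (a⁻¹ * c' * a) * c⁻¹ * b) * c * a⁻¹ =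
              a * c⁻¹ * (b * (c * (a⁻¹ * c' * a) * c⁻¹)) * c * a⁻¹ :=
            congrArg (fun w => a * c⁻¹ * w * c * a⁻¹) h3
          have e1 : a * c⁻¹ * (c * (a⁻¹ * c' * a) * c⁻¹ * b) * c * a⁻¹ = c' * (a * c⁻¹ * b * c * a⁻¹) := by
            group
          have e2 : a * c⁻¹ * (b * (c * (a⁻¹ * c' * a) * c⁻¹)) * c * a⁻¹ = (a * c⁻¹ * b * c * a⁻¹) * c' := by
            group
          rw [e1, e2] at h5
          exact h5.symm
        have hkf : k * f = f * k := h2.2.1 k hkK f (Subgroup.mem_sup_right hfF)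
        have hzC : ∀ c' ∈ C, (k * b) * c' = c' * (k * b) := by
          intro c' hc'
          have h3 := hyC c' hc'
          have h4 := hFC f hfF c' hc'
          have e1 : k * f * b = f * (k * b) := by rw [hkf, mul_assoc]
          rw [e1] at h3
          have h6 : f * ((k * b) * c') = f * (c' * (k * b)) := by
            rw [← mul_assoc, h3, ← mul_assoc, ← h4, mul_assoc]
          exact mul_left_cancel h6
        have hzA : ∀ a' ∈ A, (k * b) * a' = a' * (k * b) := by
          intro a' ha'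
          have h3 := h2.2.1 k hkK a' (Subgroup.mem_sup_left ha')
          rw [mul_assoc, ← hcommAB a' ha' b hb, ← mul_assoc, h3, mul_assoc]
        by_cases hz1 : k * b = 1
        · have hbK : b ∈ ⁅A, ⁅B, C⁆⁆ := by
            have : b = k⁻¹ := by
              rw [mul_eq_one_iff_eq_inv] at hz1
              rw [hz1, inv_inv]
            rw [this]; exact inv_mem hkK
          exact (inter_trivial hS hD hBD h2.1 hb hbK hb1).symm
        · exfalso
          obtain ⟨f1, hf1, e1⟩ := cc_mul_eq_conj h2 ha ha1 hkK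
          obtain ⟨E0, hE0, hm⟩ := hprod a ha ha1
          refine central_mul_not_mem hS hA hC hAC (z := k * b) ?_ hz1 ha ha1 (hS.conj_mem E0 hE0 f1) ?_
          · intro x hx
            have hle : A ⊔ C ≤ Subgroup.centralizer {k * b} := by
              refine sup_le ?_ ?_
              · intro y hy
                rw [Subgroup.mem_centralizer_singleton_iff]
                exact (hzA y hy).symm
              · intro y hy
                rw [Subgroup.mem_centralizer_singleton_iff]
                exact (hzC y hy).symm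
            have := hle hx
            rw [Subgroup.mem_centralizer_singleton_iff] at this
            exact this.symm
          · have e2 : k * b * a = f1 * (b * a) * f1⁻¹ := by
              have h3 := hFB f1 hf1 b hb
              calc k * b * a = b * (k * a) := by rw [hKb k hkK, mul_assoc]
                _ = b * (f1 * a * f1⁻¹) := by rw [e1]
                _ = f1 * (b * a) * f1⁻¹ := by
                    rw [← mul_assoc, ← mul_assoc, ← h3]; group
            rw [e2]
            exact conj_mem_conjBy hm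
      have hmem := members_sup_cc hS hA hC hAC h2
      rw [hKB] at hmem
      rw [hmem] at hE
      rcases hE with ⟨f1, hf1, rfl⟩ | hE
      · have h3 := pair_conj hAC f1
        have h4 : Cfsg.conjBy C f1 = C :=
          conjBy_eq_self_iff.2 (normalizes_of_comm (fun y hy => hFC f1 hf1 y hy))
        rwa [h4] at h3
      · exact absurd hE hEB

lemma fadj_symm {X Y : Subgroup G} (h : Cfsg.FAdj S X Y) : Cfsg.FAdj S Y X :=
  ⟨h.2.1, h.1, Cfsg.RankOnePair_symm h.2.2⟩

lemma reach_symm {X Y : Subgroup G} (h : Relation.ReflTransGen (Cfsg.FAdj S) X Y) :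
    Relation.ReflTransGen (Cfsg.FAdj S) Y X := by
  induction h with
  | refl => exact Relation.ReflTransGen.refl
  | tail _ b c => exact c.head (fadj_symm b)

lemma reach_conj (hS : Cfsg.IsRootSubgroupSet S) {X Y : Subgroup G}
    (h : Relation.ReflTransGen (Cfsg.FAdj S) X Y) (g : G) :
    Relation.ReflTransGen (Cfsg.FAdj S) (Cfsg.conjBy X g) (Cfsg.conjBy Y g) := by
  induction h with
  | refl => exact Relation.ReflTransGen.refl
  | tail _ b c => exact c.tail ⟨hS.conj_mem _ b.1 g, hS.conj_mem _ b.2.1 g, pair_conj b.2.2 g⟩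

theorem line_connected (hS : Cfsg.IsRootSubgroupSet S) (hA : A ∈ S) (hC : C ∈ S)
    (hAC : Cfsg.IsRankOnePair A C) (hB : B ∈ Cfsg.linePartners S A) (hD : D ∈ S)
    (hBD : Cfsg.IsRankOnePair B D) : Relation.ReflTransGen (Cfsg.FAdj S) A B := by
  have hBS : B ∈ S := hB.1.1
  have hpart := hB.2
  have hinf : A ⊓ B = ⊥ := hpart.2.2 A ⟨hA, le_sup_left⟩ B ⟨hBS, le_sup_right⟩ hB.1.2.1.symm
  obtain ⟨a, ha, ha1⟩ := exists_ne_one_left hAC
  obtain ⟨b, hb, hb1⟩ := exists_ne_one_left hBD
  have hab1 : a * b ≠ 1 := by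
    intro h
    apply ha1
    have h2 : a ∈ A ⊓ B := ⟨ha, by
      rw [mul_eq_one_iff_eq_inv] at h
      rw [h]; exact B.inv_mem hb⟩
    rw [hinf] at h2
    simpa using h2
  obtain ⟨E, hE, hm⟩ := hpart.2.1 (a * b)
    (mul_mem (Subgroup.mem_sup_left ha) (Subgroup.mem_sup_right hb)) hab1
  have hEA : E ≠ A := by
    rintro rfl
    apply hb1
    have h2 : b ∈ E ⊓ B := ⟨by
      have := E.mul_mem (E.inv_mem ha) hm
      rwa [inv_mul_cancel_left] at this, hb⟩
    rw [hinf] at h2
    simpa using h2
  have hEB : E ≠ B := by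
    rintro rfl
    apply ha1
    have h2 : a ∈ A ⊓ E := ⟨ha, by
      have := E.mul_mem hm (E.inv_mem hb)
      rwa [mul_inv_cancel_right] at this⟩
    rw [hinf] at h2
    simpa using h2
  by_cases h1 : Cfsg.IsRankOnePair B C
  · exact (Relation.ReflTransGen.single ⟨hA, hC, hAC⟩).tail ⟨hC, hBS, Cfsg.RankOnePair_symm h1⟩
  by_cases h2 : Cfsg.IsRankOnePair A D
  · exact (Relation.ReflTransGen.single ⟨hA, hD, h2⟩).tail ⟨hD, hBS, Cfsg.RankOnePair_symm hBD⟩
  have h3 := line_pair hS hA hC hAC hB hD hBD h1 hE hEB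
  have h4 := line_pair hS hBS hD hBD (linePartners_symm hB hA) hC hAC h2 (by rw [sup_comm]; exact hE) hEA
  exact (((Relation.ReflTransGen.single ⟨hA, hC, hAC⟩).tail
    ⟨hC, hE.1, Cfsg.RankOnePair_symm h3⟩).tail ⟨hE.1, hD, h4⟩).tail
    ⟨hD, hBS, Cfsg.RankOnePair_symm hBD⟩

lemma partner_of_component (hA2 : ∃ A' ∈ Cfsg.componentOf (Cfsg.FAdj S) S A, A' ≠ A) :
    ∃ C ∈ S, Cfsg.IsRankOnePair A C := by
  obtain ⟨A', ⟨_, hr⟩, hne⟩ := hA2
  rcases Relation.ReflTransGen.cases_head hr with h | ⟨C, hC, -⟩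
  · exact absurd h.symm hne
  · exact ⟨C, hC.2.1, hC.2.2⟩

lemma component_eq_of_reach (h : Relation.ReflTransGen (Cfsg.FAdj S) A B) :
    Cfsg.componentOf (Cfsg.FAdj S) S A = Cfsg.componentOf (Cfsg.FAdj S) S B := by
  ext X
  constructor
  · rintro ⟨hX, hr⟩
    exact ⟨hX, (reach_symm h).trans hr⟩
  · rintro ⟨hX, hr⟩
    exact ⟨hX, h.trans hr⟩

end RootSet

end Cfsg.Agent.Lib.Helper28
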