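import Mathlib
import Cfsg.Prelude.Def_RootSubgroups
import Cfsg.Agent.Lib.Helper28.RootSet3
set_option autoImplicit false

namespace Cfsg.Agent.Lib.Helper28

open scoped commutatorElement
open RankOne

variable {G : Type*} [Group G]

namespace RootSet

variable {S : Set (Subgroup G)} {A B C D E : Subgroup G}

lemma invariant_sup {T : Set (Subgroup G)} (hB : ∀ b ∈ B, ∀ E ∈ T, Cfsg.conjBy E b ∈ T)
    (hD : ∀ d ∈ D, ∀ E ∈ T, Cfsg.conjBy E d ∈ T) {x : G} (hx : x ∈ B ⊔ D) :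
    ∀ E ∈ T, Cfsg.conjBy E x ∈ T := by
  rw [Subgroup.sup_eq_closure] at hx
  have key : (∀ C ∈ T, Cfsg.conjBy C x ∈ T) ∧ (∀ C ∈ T, Cfsg.conjBy C x⁻¹ ∈ T) := by
    induction hx using Subgroup.closure_induction with
    | mem x hx =>
      rcases hx with hx | hx
      · exact ⟨hB x hx, hB _ (B.inv_mem hx)⟩
      · exact ⟨hD x hx, hD _ (D.inv_mem hx)⟩
    | one => simp [conjBy_one]
    | mul x y _ _ hx hy =>
      refine ⟨fun C hC => ?_, fun C hC => ?_⟩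
      · rw [← conjBy_conjBy]
        exact hx.1 _ (hy.1 _ hC)
      · rw [mul_inv_rev, ← conjBy_conjBy]
        exact hy.2 _ (hx.2 _ hC)
    | inv x _ hx => exact ⟨hx.2, by simpa using hx.1⟩
  exact key.1

structure Quad (S : Set (Subgroup G)) (A B C D : Subgroup G) : Prop where
  hS : Cfsg.IsRootSubgroupSet S
  hA : A ∈ S
  hB : B ∈ S
  hC : C ∈ S
  hD : D ∈ S
  h1 : Cfsg.RootCommutatorCase S A B
  e1 : ⁅A, B⁆ = C
  h2 : Cfsg.RootCommutatorCase S C D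
  e2 : ⁅C, D⁆ = A

namespace Quad

lemma symm (q : Quad S A B C D) : Quad S C D A B :=
  ⟨q.hS, q.hC, q.hD, q.hA, q.hB, q.h2, q.e2, q.h1, q.e1⟩

lemma commCA (q : Quad S A B C D) {c a : G} (hc : c ∈ C) (ha : a ∈ A) : c * a = a * c :=
  q.h1.2.1 c (q.e1 ▸ hc) a (Subgroup.mem_sup_left ha)

lemma commCB (q : Quad S A B C D) {c b : G} (hc : c ∈ C) (hb : b ∈ B) : c * b = b * c :=
  q.h1.2.1 c (q.e1 ▸ hc) b (Subgroup.mem_sup_right hb)

lemma commAD (q : Quad S A B C D) {a d : G} (ha : a ∈ A) (hd : d ∈ D) : a * d = d * a :=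
  q.symm.commCB ha hd

lemma commAA (q : Quad S A B C D) {a a' : G} (ha : a ∈ A) (ha' : a' ∈ A) : a * a' = a' * a :=
  comm_of_isMulCommutative (q.hS.commutative A q.hA) ha ha'

lemma br_mem (q : Quad S A B C D) {a b : G} (ha : a ∈ A) (hb : b ∈ B) : ⁅b, a⁆ ∈ C := by
  rw [← q.e1, Subgroup.commutator_comm]
  exact Subgroup.commutator_mem_commutator hb ha

lemma br_mul (q : Quad S A B C D) {a a' b : G} (ha : a ∈ A) (ha' : a' ∈ A) (hb : b ∈ B) :
    ⁅b, a * a'⁆ = ⁅b, a⁆ * ⁅b, a'⁆ :=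
  cc_mul_right (cc_symm q.h1) hb ha ha'

lemma br_surj (q : Quad S A B C D) {b : G} (hb : b ∈ B) (hb1 : b ≠ 1) {c : G} (hc : c ∈ C) :
    ∃ a ∈ A, ⁅b, a⁆ = c :=
  cc_surj_right (cc_symm q.h1) hb hb1 (by rw [Subgroup.commutator_comm, q.e1]; exact hc)

lemma conj_a (q : Quad S A B C D) (a b : G) : b * a * b⁻¹ = ⁅b, a⁆ * a := by
  simp only [commutatorElement_def]; group

lemma br_inv (q : Quad S A B C D) {a b : G} (ha : a ∈ A) (hb : b ∈ B) : ⁅b⁻¹, a⁆ * ⁅b, a⁆ = 1 := by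
  have := cc_mul_left (cc_symm q.h1) (B.inv_mem hb) hb ha
  rw [inv_mul_cancel, commutatorElement_one_left] at this
  exact this.symm

/-- the action of `[b,d]` on `a`. -/
lemma formula (q : Quad S A B C D) {a b d : G} (ha : a ∈ A) (hb : b ∈ B) (hd : d ∈ D) :
    ⁅b, d⁆ * a * ⁅b, d⁆⁻¹ = ⁅b, ⁅d, ⁅b⁻¹, a⁆⁆⁆ * ⁅d, ⁅b⁻¹, a⁆⁆ * a := by
  set c1 := ⁅b⁻¹, a⁆ with hc1
  have hc1C : c1 ∈ C := q.br_mem ha (B.inv_mem hb)
  set a' := ⁅d, c1⁆ with ha'
  have ha'A : a' ∈ A := q.symm.br_mem hc1C hd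
  have s1 : d⁻¹ * a * d = a := by
    rw [mul_assoc, q.commAD ha hd, inv_mul_cancel_left]
  have s2 : b⁻¹ * a * b = c1 * a := by
    have := q.conj_a a b⁻¹
    rwa [inv_inv] at this
  have s3 : d * (c1 * a) * d⁻¹ = a' * c1 * a := by
    have h1 : d * (c1 * a) * d⁻¹ = (d * c1 * d⁻¹) * (d * a * d⁻¹) := by group
    have h2 : d * a * d⁻¹ = a := by rw [← q.commAD ha hd, mul_inv_cancel_right]
    rw [h1, h2, q.symm.conj_a c1 d]
  have s4 : b * (a' * c1 * a) * b⁻¹ = ⁅b, a'⁆ * a' * a := by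
    have h1 : b * (a' * c1 * a) * b⁻¹ = (b * a' * b⁻¹) * (b * c1 * b⁻¹) * (b * a * b⁻¹) := by group
    have h2 : b * c1 * b⁻¹ = c1 := by rw [← q.commCB hc1C hb, mul_inv_cancel_right]
    rw [h1, h2, q.conj_a a' b, q.conj_a a b]
    have h3 : c1 * ⁅b, a⁆ = 1 := q.br_inv ha hb
    calc ⁅b, a'⁆ * a' * c1 * (⁅b, a⁆ * a) = ⁅b, a'⁆ * a' * (c1 * ⁅b, a⁆) * a := by group
      _ = ⁅b, a'⁆ * a' * a := by rw [h3, mul_one]
  calc ⁅b, d⁆ * a * ⁅b, d⁆⁻¹ = b * (d * (b⁻¹ * (d⁻¹ * a * d) * b) * d⁻¹) * b⁻¹ := by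
        simp only [commutatorElement_def]; group
    _ = ⁅b, a'⁆ * a' * a := by rw [s1, s2, s3, s4]

lemma pair (q : Quad S A B C D) : Cfsg.IsRankOnePair B D := by
  have hS := q.hS
  rcases hS.pair B q.hB D q.hD with h | h | h
  · exfalso
    apply hS.ne_bot A q.hA
    rw [← q.e2]
    apply commutator_eq_bot_of_comm
    intro c hc d hd
    have hle : A ⊔ B ≤ Subgroup.centralizer {d} := by
      refine sup_le ?_ ?_
      · intro y hy
        rw [Subgroup.mem_centralizer_singleton_iff]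
        exact q.commAD hy hd
      · intro y hy
        rw [Subgroup.mem_centralizer_singleton_iff]
        exact comm_of_commutator_eq_bot h hy hd
    have := hle (Subgroup.commutator_le_sup A B (q.e1 ▸ hc))
    rwa [Subgroup.mem_centralizer_singleton_iff] at this
  · exact h
  · exfalso
    obtain ⟨b, hb, hb1⟩ := exists_ne_one_of_ne_bot (hS.ne_bot B q.hB)
    obtain ⟨d, hd, hd1⟩ := exists_ne_one_of_ne_bot (hS.ne_bot D q.hD)
    set e := ⁅b, d⁆ with he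
    have heb : e * b = b * e := cc_central h hb hd (Subgroup.mem_sup_left hb)
    have hed : e * d = d * e := cc_central h hb hd (Subgroup.mem_sup_right hd)
    -- e c e⁻¹ ∈ C for c ∈ C
    have hC1 : ∀ c ∈ C, e * c * e⁻¹ ∈ C := by
      intro c hc
      obtain ⟨a, ha, rfl⟩ := q.br_surj hb hb1 hc
      set a' := ⁅d, ⁅b⁻¹, a⁆⁆ with ha'
      have ha'A : a' ∈ A := q.symm.br_mem (q.br_mem ha (B.inv_mem hb)) hd
      have f1 := q.formula ha hb hd
      rw [← he, ← ha'] at f1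
      have f2 : e * (b * a * b⁻¹) * e⁻¹ = b * (e * a * e⁻¹) * b⁻¹ := by
        have : e * (b * a * b⁻¹) * e⁻¹ = (e * b) * a * (e * b)⁻¹ := by group
        rw [this, heb]; group
      rw [f1, q.conj_a a b] at f2
      have f3 : b * (⁅b, a'⁆ * a' * a) * b⁻¹ = ⁅b, a'⁆ * (⁅b, a'⁆ * a') * (⁅b, a⁆ * a) := by
        have h1 : b * (⁅b, a'⁆ * a' * a) * b⁻¹ = (b * ⁅b, a'⁆ * b⁻¹) * (b * a' * b⁻¹) * (b * a * b⁻¹) := by
          group
        have h2 : b * ⁅b, a'⁆ * b⁻¹ = ⁅b, a'⁆ := by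
          rw [← q.commCB (q.br_mem ha'A hb) hb, mul_inv_cancel_right]
        rw [h1, h2, q.conj_a a' b, q.conj_a a b]
      rw [f3] at f2
      have f4 : e * (⁅b, a⁆ * a) * e⁻¹ = (e * ⁅b, a⁆ * e⁻¹) * (e * a * e⁻¹) := by group
      rw [f4, f1] at f2
      -- cancel
      have hx : ⁅b, a'⁆ ∈ C := q.br_mem ha'A hb
      have hy : ⁅b, a⁆ ∈ C := q.br_mem ha hb
      have f5 : ∀ X Y : G, a' * Y = Y * a' → X * Y = Y * X →
          X * (X * a') * (Y * a) = (X * Y) * (X * a' * a) := by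
        intro X Y k1 k2
        calc X * (X * a') * (Y * a) = X * X * (a' * Y) * a := by group
          _ = X * (X * Y) * a' * a := by rw [k1]; group
          _ = X * (Y * X) * a' * a := by rw [k2]
          _ = (X * Y) * (X * a' * a) := by group
      have f5 := f5 ⁅b, a'⁆ ⁅b, a⁆ (q.commCA hy ha'A).symm
        (comm_of_isMulCommutative (hS.commutative C q.hC) hx hy)
      rw [f5] at f2
      rw [mul_right_cancel f2]
      exact C.mul_mem hx hy
    -- e normalises A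
    have hA1 : ∀ a ∈ A, e * a * e⁻¹ ∈ A := by
      intro a ha
      obtain ⟨c, hc, rfl⟩ := q.symm.br_surj hd hd1 ha
      have : e * ⁅d, c⁆ * e⁻¹ = ⁅d, e * c * e⁻¹⁆ := by
        rw [conjugate_commutatorElement]
        congr 1
        rw [hed, mul_inv_cancel_right]
      rw [this]
      exact q.symm.br_mem (hC1 c hc) hd
    -- hence C ≤ A
    have hCA : C ≤ A := by
      intro c hc
      obtain ⟨a0, ha0, rfl⟩ := q.br_surj hb hb1 hc
      obtain ⟨c1, hc1, e3⟩ := q.symm.br_surj hd hd1 ha0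
      obtain ⟨a, ha, e4⟩ := q.br_surj (B.inv_mem hb) (by simpa using hb1) hc1
      have f1 := q.formula ha hb hd
      rw [e4, e3] at f1
      have f2 := hA1 a ha
      rw [he, f1] at f2
      have f3 := A.mul_mem f2 (A.inv_mem (A.mul_mem ha0 ha))
      have : ⁅b, a0⁆ * a0 * a * (a0 * a)⁻¹ = ⁅b, a0⁆ := by group
      rwa [this] at f3
    apply hS.ne_bot A q.hA
    rw [← q.e2]
    apply commutator_eq_bot_of_comm
    intro c hc d' hd'
    exact q.commAD (hCA hc) hd'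

lemma inj (q : Quad S A B C D) {a b : G} (ha : a ∈ A) (hb : b ∈ B) (hb1 : b ≠ 1) (h : ⁅b, a⁆ = 1) :
    a = 1 :=
  cc_inj q.hS q.hB q.hD q.pair (cc_symm q.h1) hb hb1 ha h

lemma inf_eq_bot (q : Quad S A B C D) : A ⊓ C = ⊥ := by
  rw [eq_bot_iff]
  rintro x ⟨hxA, hxC⟩
  obtain ⟨b, hb, hb1⟩ := exists_ne_one_of_ne_bot (q.hS.ne_bot B q.hB)
  rw [Subgroup.mem_bot]
  apply q.inj hxA hb hb1
  rw [commutatorElement_eq_one_iff_mul_comm]
  exact (q.commCB hxC hb).symm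

lemma mem_N (q : Quad S A B C D) {x : G} (hx : x ∈ A ⊔ C) : ∃ a ∈ A, ∃ c ∈ C, x = c * a := by
  have := mem_sup_cc q.h1 (x := x) (by rw [q.e1]; exact hx)
  rw [q.e1] at this
  exact this

lemma conjB_mem_N (q : Quad S A B C D) {x b : G} (hx : x ∈ A ⊔ C) (hb : b ∈ B) :
    b * x * b⁻¹ ∈ A ⊔ C := by
  obtain ⟨a, ha, c, hc, rfl⟩ := q.mem_N hx
  have h1 : b * (c * a) * b⁻¹ = (b * c * b⁻¹) * (b * a * b⁻¹) := by group
  have h2 : b * c * b⁻¹ = c := by rw [← q.commCB hc hb, mul_inv_cancel_right]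
  rw [h1, h2, q.conj_a a b]
  exact mul_mem (Subgroup.mem_sup_right hc)
    (mul_mem (Subgroup.mem_sup_right (q.br_mem ha hb)) (Subgroup.mem_sup_left ha))

lemma conjD_mem_N (q : Quad S A B C D) {x d : G} (hx : x ∈ A ⊔ C) (hd : d ∈ D) :
    d * x * d⁻¹ ∈ A ⊔ C := by
  rw [sup_comm] at hx ⊢
  exact q.symm.conjB_mem_N hx hd

lemma mem_C_of_comm (q : Quad S A B C D) {x b : G} (hx : x ∈ A ⊔ C) (hb : b ∈ B) (hb1 : b ≠ 1)
    (h : b * x = x * b) : x ∈ C := by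
  obtain ⟨a, ha, c, hc, rfl⟩ := q.mem_N hx
  have h1 : b * a = a * b := by
    have h2 := q.commCB hc hb
    have h3 : c * (b * a) = c * (a * b) := by
      rw [← mul_assoc, h2, mul_assoc, h, mul_assoc]
    exact mul_left_cancel h3
  have h4 := q.inj ha hb hb1 (commutatorElement_eq_one_iff_mul_comm.2 h1)
  rw [h4, mul_one]; exact hc

lemma key_le (q : Quad S A B C D) {b d : G} (hb : b ∈ B) (hb1 : b ≠ 1) (hd : d ∈ D)
    (h : Cfsg.conjBy B d⁻¹ = Cfsg.conjBy D b⁻¹) : Cfsg.conjBy A (d * b⁻¹) ≤ C := by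
  intro x hx
  rw [mem_conjBy] at hx
  set a := (d * b⁻¹)⁻¹ * x * (d * b⁻¹) with ha
  have hxa : x = d * (b⁻¹ * a * b⁻¹⁻¹) * d⁻¹ := by rw [ha]; group
  have hxN : x ∈ A ⊔ C := by
    rw [hxa]
    exact q.conjD_mem_N (q.conjB_mem_N (Subgroup.mem_sup_left hx) (B.inv_mem hb)) hd
  apply q.mem_C_of_comm hxN hb hb1
  -- d⁻¹ b d ∈ conjBy B d⁻¹ = conjBy D b⁻¹
  have h1 : d⁻¹ * b * d⁻¹⁻¹ ∈ Cfsg.conjBy B d⁻¹ := conj_mem_conjBy hb
  rw [h, mem_conjBy, inv_inv, inv_inv] at h1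
  have h2 := q.commAD hx h1
  have h3 : d * b⁻¹ * (a * (b * (d⁻¹ * b * d) * b⁻¹)) * (d * b⁻¹)⁻¹ =
      d * b⁻¹ * ((b * (d⁻¹ * b * d) * b⁻¹) * a) * (d * b⁻¹)⁻¹ := by rw [h2]
  have e1 : d * b⁻¹ * (a * (b * (d⁻¹ * b * d) * b⁻¹)) * (d * b⁻¹)⁻¹ = x * b := by rw [hxa]; group
  have e2 : d * b⁻¹ * ((b * (d⁻¹ * b * d) * b⁻¹) * a) * (d * b⁻¹)⁻¹ = b * x := by rw [hxa]; group
  rw [e1, e2] at h3
  exact h3.symm

lemma key (q : Quad S A B C D) {b d : G} (hb : b ∈ B) (hb1 : b ≠ 1) (hd : d ∈ D) (hd1 : d ≠ 1)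
    (h : Cfsg.conjBy B d⁻¹ = Cfsg.conjBy D b⁻¹) : Cfsg.conjBy A b⁻¹ = Cfsg.conjBy C d⁻¹ := by
  have h1 := q.key_le hb hb1 hd h
  have h2 := q.symm.key_le hd hd1 hb h.symm
  have h3 : Cfsg.conjBy A (d * b⁻¹) = C := by
    apply le_antisymm h1
    have := conjBy_mono h2 (d * b⁻¹)
    rw [conjBy_conjBy] at this
    have e : d * b⁻¹ * (b * d⁻¹) = 1 := by group
    rwa [e, conjBy_one] at this
  rw [← h3, conjBy_conjBy, inv_mul_cancel_left]

def T1 (A B C : Subgroup G) : Set (Subgroup G) := (fun b : G => Cfsg.conjBy A b) '' (B : Set G) ∪ {C}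

lemma T1_sub (q : Quad S A B C D) : T1 A B C ⊆ T1 C D A := by
  rintro E (⟨b, hb, rfl⟩ | rfl)
  · by_cases hb1 : b = 1
    · subst hb1
      exact Or.inr (conjBy_one A)
    · obtain ⟨d, hd, hd1, e⟩ := q.pair.cond_left b⁻¹ (B.inv_mem hb) (by simpa using hb1)
      have := q.key (B.inv_mem hb) (by simpa using hb1) hd hd1 e
      rw [inv_inv] at this
      exact Or.inl ⟨d⁻¹, D.inv_mem hd, this.symm⟩
  · exact Or.inl ⟨1, D.one_mem, conjBy_one _⟩

lemma T1_eq (q : Quad S A B C D) : T1 A B C = T1 C D A :=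
  Set.Subset.antisymm q.T1_sub q.symm.T1_sub

lemma T1_invB (q : Quad S A B C D) : ∀ b ∈ B, ∀ E ∈ T1 A B C, Cfsg.conjBy E b ∈ T1 A B C := by
  rintro b hb E (⟨b', hb', rfl⟩ | rfl)
  · exact Or.inl ⟨b * b', B.mul_mem hb hb', (conjBy_conjBy _ _ _).symm⟩
  · right
    exact conjBy_eq_self_iff.2 (normalizes_of_comm (fun c hc => (q.commCB hc hb).symm))

lemma orbit_eq (q : Quad S A B C D) : {E | ∃ x ∈ B ⊔ D, E = Cfsg.conjBy A x} = T1 A B C := by
  ext E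
  constructor
  · rintro ⟨x, hx, rfl⟩
    refine invariant_sup q.T1_invB ?_ hx A (Or.inl ⟨1, B.one_mem, conjBy_one A⟩)
    rw [q.T1_eq]
    exact q.symm.T1_invB
  · rintro (⟨b, hb, rfl⟩ | rfl)
    · exact ⟨b, Subgroup.mem_sup_left hb, rfl⟩
    · obtain ⟨b, hb, hb1⟩ := exists_ne_one_left q.pair
      obtain ⟨d, hd, hd1, e⟩ := q.pair.cond_left b hb hb1
      have := q.key hb hb1 hd hd1 e
      refine ⟨d * b⁻¹, mul_mem (Subgroup.mem_sup_right hd) (inv_mem (Subgroup.mem_sup_left hb)), ?_⟩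
      rw [← conjBy_conjBy, this, conjBy_conjBy, mul_inv_cancel, conjBy_one]

lemma partition (q : Quad S A B C D) : Cfsg.IsSubgroupPartition (A ⊔ C) (T1 A B C) := by
  have hAC : ∀ b ∈ B, Cfsg.conjBy A b ⊓ C = ⊥ := by
    intro b hb
    rw [eq_bot_iff]
    rintro x ⟨hx0, hxC0⟩
    have hx : x ∈ Cfsg.conjBy A b := hx0
    have hxC : x ∈ C := hxC0
    rw [mem_conjBy] at hx
    have h1 : b⁻¹ * x * b = x := by
      rw [mul_assoc, q.commCB hxC hb, inv_mul_cancel_left]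
    rw [h1] at hx
    have : x ∈ A ⊓ C := ⟨hx, hxC⟩
    rwa [q.inf_eq_bot] at this
  refine ⟨?_, ?_, ?_⟩
  · rintro E (⟨b, hb, rfl⟩ | rfl)
    · have := conj_le_sup_cc (A := A) hb
      rwa [q.e1] at this
    · exact le_sup_right
  · intro x hx hx1
    obtain ⟨a, ha, c, hc, rfl⟩ := q.mem_N hx
    by_cases ha1 : a = 1
    · subst ha1
      exact ⟨C, Or.inr rfl, by simpa using hc⟩
    · obtain ⟨b, hb, e⟩ := cc_mul_eq_conj q.h1 ha ha1 (q.e1 ▸ hc)
      exact ⟨_, Or.inl ⟨b, hb, rfl⟩, by rw [e]; exact conj_mem_conjBy ha⟩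
  · rintro E1 (⟨b, hb, rfl⟩ | rfl) E2 (⟨b', hb', rfl⟩ | rfl) hne
    · rw [eq_bot_iff]
      rintro x ⟨hx0, hx0'⟩
      have hx : x ∈ Cfsg.conjBy A b := hx0
      have hx' : x ∈ Cfsg.conjBy A b' := hx0'
      rw [mem_conjBy] at hx hx'
      have hbb : b⁻¹ * b' ≠ 1 := by
        intro h
        apply hne
        rw [inv_mul_eq_one] at h
        rw [h]
      set a' := b'⁻¹ * x * b' with ha'
      have h1 : b⁻¹ * x * b = ⁅b⁻¹ * b', a'⁆ * a' := by
        rw [← q.conj_a, ha']; group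
      have h2 : ⁅b⁻¹ * b', a'⁆ ∈ A ⊓ C := by
        refine ⟨?_, q.br_mem hx' (B.mul_mem (B.inv_mem hb) hb')⟩
        have := A.mul_mem hx (A.inv_mem hx')
        rwa [h1, mul_inv_cancel_right] at this
      rw [q.inf_eq_bot, Subgroup.mem_bot] at h2
      have h3 := q.inj hx' (B.mul_mem (B.inv_mem hb) hb') hbb h2
      rw [Subgroup.mem_bot]
      have : x = b' * a' * b'⁻¹ := by rw [ha']; group
      rw [this, h3]; group
    · exact hAC b hb
    · rw [inf_comm]; exact hAC b' hb'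
    · exact absurd rfl hne

/-- an element of `⟨B,D⟩` centralising `N = AC` commutes with `B`. -/
lemma central_B (q : Quad S A B C D) {x : G} (hx : x ∈ B ⊔ D) (hxN : ∀ n ∈ A ⊔ C, x * n = n * x) :
    ∀ b ∈ B, x * b = b * x := by
  have hxN' : ∀ n ∈ A ⊔ C, x⁻¹ * n = n * x⁻¹ := by
    intro n hn
    have := hxN n hn
    calc x⁻¹ * n = x⁻¹ * (n * x) * x⁻¹ := by group
      _ = x⁻¹ * (x * n) * x⁻¹ := by rw [this]
      _ = n * x⁻¹ := by group
  have hnorm : Cfsg.conjBy B x = B := by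
    have h1 : Cfsg.conjBy B x ∈ Om B D := by
      rw [← unipotent_eq_Om q.pair]
      exact ⟨x, hx, rfl⟩
    rcases h1 with h1 | ⟨b, hb, h1⟩
    · exact h1
    · exfalso
      obtain ⟨d, hd, hd1⟩ := exists_ne_one_right q.pair
      obtain ⟨c, hc, hc1⟩ := exists_ne_one_of_ne_bot (q.hS.ne_bot C q.hC)
      have h2 : b * d * b⁻¹ ∈ Cfsg.conjBy B x := by
        rw [h1]; exact conj_mem_conjBy hd
      rw [mem_conjBy] at h2
      set b' := x⁻¹ * (b * d * b⁻¹) * x with hb'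
      have h3 := q.commCB hc h2
      have h4 := hxN c (Subgroup.mem_sup_right hc)
      have h4' := hxN' c (Subgroup.mem_sup_right hc)
      have h5 : c * (b * d * b⁻¹) = (b * d * b⁻¹) * c := by
        have e1 : b * d * b⁻¹ = x * b' * x⁻¹ := by rw [hb']; group
        rw [e1]
        calc c * (x * b' * x⁻¹) = (c * x) * b' * x⁻¹ := by group
          _ = x * (c * b') * x⁻¹ := by rw [← h4]; group
          _ = x * b' * (c * x⁻¹) := by rw [h3]; group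
          _ = x * b' * x⁻¹ * c := by rw [← h4']; group
      have h6 := q.commCB hc hb
      have h6' := q.commCB hc (B.inv_mem hb)
      have h7 : d * c = c * d := by
        have : b⁻¹ * (c * (b * d * b⁻¹)) * b = b⁻¹ * ((b * d * b⁻¹) * c) * b := by rw [h5]
        have e1 : b⁻¹ * (c * (b * d * b⁻¹)) * b = (b⁻¹ * c * b) * d := by group
        have e2 : b⁻¹ * ((b * d * b⁻¹) * c) * b = d * (b⁻¹ * c * b) := by group
        have e3 : b⁻¹ * c * b = c := by rw [mul_assoc, h6, inv_mul_cancel_left]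
        rw [e1, e2, e3] at this
        exact this.symm
      exact hc1 (q.symm.inj hc hd hd1 (commutatorElement_eq_one_iff_mul_comm.2 h7))
  intro b hb
  by_contra hne
  set w := x * b * x⁻¹ * b⁻¹ with hw
  have hwB : w ∈ B := by
    refine B.mul_mem ?_ (B.inv_mem hb)
    have := conj_mem_conjBy (g := x) hb
    rwa [hnorm] at this
  have hw1 : w ≠ 1 := by
    intro h
    apply hne
    have := congrArg (fun z => z * b * x) h
    simpa [hw, mul_assoc] using this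
  have hwA : ∀ a ∈ A, a * w * a⁻¹ * w⁻¹ = 1 := by
    intro a ha
    have h1 : b⁻¹ * a * b⁻¹⁻¹ ∈ A ⊔ C := q.conjB_mem_N (Subgroup.mem_sup_left ha) (B.inv_mem hb)
    have h2 := hxN' _ h1
    have h3 := hxN a (Subgroup.mem_sup_left ha)
    have h4 : w * a = a * w := by
      rw [inv_inv] at h2
      calc w * a = x * b * (x⁻¹ * (b⁻¹ * a * b)) * b⁻¹ := by rw [hw]; group
        _ = x * b * ((b⁻¹ * a * b) * x⁻¹) * b⁻¹ := by rw [h2]
        _ = (x * a) * b * x⁻¹ * b⁻¹ := by group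
        _ = a * w := by rw [h3, hw]; group
    rw [← h4]; group
  apply q.hS.ne_bot C q.hC
  rw [← q.e1, ← q.h1.2.2.2 w hwB hw1, Subgroup.closure_eq_bot_iff]
  rintro _ ⟨a, ha, rfl⟩
  exact hwA a ha

end Quad

end RootSet

end Cfsg.Agent.Lib.Helper28
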