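import Mathlib
import Cfsg.Prelude.Def_RootSubgroups
import Cfsg.Agent.Lib.Helper28.RootQuad
set_option autoImplicit false

namespace Cfsg.Agent.Lib.Helper28

open scoped commutatorElement
open RankOne

variable {G : Type*} [Group G]

namespace RootSet

variable {S : Set (Subgroup G)} {A B C D E : Subgroup G}

/-- `C` a partner of `A`; `B ∈ S` (with a partner `D`) commutes with `A`, is not a partner of `C`, and the
products `b a'` are root elements.  Then `[B,C] = F ∈ S` and `[F,A] = B`. -/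
theorem line_quad (hS : Cfsg.IsRootSubgroupSet S) (hA : A ∈ S) (hC : C ∈ S)
    (hAC : Cfsg.IsRankOnePair A C) (hBS : B ∈ S)
    (hcommAB : ∀ a ∈ A, ∀ b ∈ B, a * b = b * a)
    (hprod' : ∀ b ∈ B, b ≠ 1 → ∀ a' ∈ A, a' ≠ 1 → ∃ E0 ∈ S, b * a' ∈ E0)
    (hD : D ∈ S) (hBD : Cfsg.IsRankOnePair B D) (hnBC : ¬ Cfsg.IsRankOnePair B C) :
    Quad S B C ⁅B, C⁆ A := by
  obtain ⟨a, ha, ha1⟩ := exists_ne_one_left hAC
  obtain ⟨b, hb, hb1⟩ := exists_ne_one_left hBD
  have hprod := hprod' b hb hb1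
  rcases hS.pair B hBS C hC with h1 | h1 | h1
  · exfalso
    obtain ⟨E0, hE0, hm⟩ := hprod a ha ha1
    refine central_mul_not_mem hS hA hC hAC (z := b) ?_ hb1 ha ha1 hE0 hm
    intro x hx
    have hle : A ⊔ C ≤ Subgroup.centralizer {b} := by
      refine sup_le ?_ ?_
      · intro y hy
        rw [Subgroup.mem_centralizer_singleton_iff]
        exact hcommAB y hy b hb
      · intro y hy
        rw [Subgroup.mem_centralizer_singleton_iff]
        exact (comm_of_commutator_eq_bot h1 hb hy).symm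
    have := hle hx
    rw [Subgroup.mem_centralizer_singleton_iff] at this
    exact this.symm
  · exact absurd h1 hnBC
  · -- commutator case, F = [B, C]
    have hFB : ∀ f ∈ ⁅B, C⁆, ∀ y ∈ B, f * y = y * f := fun f hf y hy => h1.2.1 f hf y (Subgroup.mem_sup_left hy)
    have hFC : ∀ f ∈ ⁅B, C⁆, ∀ y ∈ C, f * y = y * f := fun f hf y hy => h1.2.1 f hf y (Subgroup.mem_sup_right hy)
    obtain ⟨c, hc, hc1, e0⟩ := hAC.cond_left a ha ha1
    rcases hS.pair A hA _ h1.1 with h2 | h2 | h2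
    · -- A centralises B F: then C centralises B
      exfalso
      apply hS.ne_bot _ h1.1
      apply commutator_eq_bot_of_comm
      intro b' hb' c' hc'
      have hx : a⁻¹ * c' * a⁻¹⁻¹ ∈ Cfsg.conjBy C a⁻¹ := conj_mem_conjBy hc'
      rw [← e0, mem_conjBy, inv_inv, inv_inv] at hx
      set a' := c * (a⁻¹ * c' * a) * c⁻¹ with ha'
      have hV : c * b' * c⁻¹ ∈ B ⊔ ⁅B, C⁆ := conj_le_sup_cc hc (conj_mem_conjBy hb')
      have hcen : B ⊔ ⁅B, C⁆ ≤ Subgroup.centralizer {a'} := by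
        refine sup_le ?_ ?_
        · intro y hy
          rw [Subgroup.mem_centralizer_singleton_iff]
          exact (hcommAB a' hx y hy).symm
        · intro y hy
          rw [Subgroup.mem_centralizer_singleton_iff]
          exact (comm_of_commutator_eq_bot h2 hx hy).symm
      have h3 := hcen hV
      rw [Subgroup.mem_centralizer_singleton_iff] at h3
      have h4 := hcommAB a ha b' hb'
      have h4' : a⁻¹ * b' = b' * a⁻¹ := hcommAB a⁻¹ (A.inv_mem ha) b' hb'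
      -- c' = a c⁻¹ a' c a⁻¹
      have h5 : c' = a * (c⁻¹ * a' * c) * a⁻¹ := by rw [ha']; group
      have h6 : (c⁻¹ * a' * c) * b' = b' * (c⁻¹ * a' * c) := by
        have : c⁻¹ * (c * b' * c⁻¹ * a') * c = c⁻¹ * (a' * (c * b' * c⁻¹)) * c :=
          congrArg (fun w => c⁻¹ * w * c) h3
        have e1 : c⁻¹ * (c * b' * c⁻¹ * a') * c = b' * (c⁻¹ * a' * c) := by group
        have e2 : c⁻¹ * (a' * (c * b' * c⁻¹)) * c = (c⁻¹ * a' * c) * b' := by group
        rw [e1, e2] at this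
        exact this.symm
      rw [h5]
      calc b' * (a * (c⁻¹ * a' * c) * a⁻¹) = a * (b' * (c⁻¹ * a' * c)) * a⁻¹ := by
            rw [← mul_assoc, ← mul_assoc, ← h4]; group
        _ = a * ((c⁻¹ * a' * c) * b') * a⁻¹ := by rw [h6]
        _ = a * (c⁻¹ * a' * c) * a⁻¹ * b' := by
            rw [mul_assoc a, mul_assoc _ b', ← h4']; group
    · -- (A, F) rank one
      exfalso
      obtain ⟨f, hf, hf1⟩ := exists_ne_one_right h2
      have hbf : b * f ≠ 1 := by
        intro h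
        have hbF : b ∈ ⁅B, C⁆ := by
          rw [mul_eq_one_iff_eq_inv] at h
          rw [h]; exact inv_mem hf
        exact cc_ne hS h1 (inter_trivial hS hD hBD h1.1 hb hbF hb1)
      obtain ⟨E0, hE0, hm⟩ := (partition_sup_cc hS hBS hD hBD h1).2.1 (b * f)
        (mul_mem (Subgroup.mem_sup_left hb) (Subgroup.mem_sup_right hf)) hbf
      refine central_mul_not_mem hS h1.1 hA (Cfsg.RankOnePair_symm h2) (z := b) ?_ hb1 hf hf1 hE0.1 hm
      intro x hx
      have hle : ⁅B, C⁆ ⊔ A ≤ Subgroup.centralizer {b} := by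
        refine sup_le ?_ ?_
        · intro y hy
          rw [Subgroup.mem_centralizer_singleton_iff]
          exact hFB y hy b hb
        · intro y hy
          rw [Subgroup.mem_centralizer_singleton_iff]
          exact hcommAB y hy b hb
      have := hle hx
      rw [Subgroup.mem_centralizer_singleton_iff] at this
      exact this.symm
    · -- commutator case K = [A, F]; show K = B
      have hKB : ⁅A, ⁅B, C⁆⁆ = B := by
        set f := ⁅c⁻¹, b⁆ with hf
        have hfF : f ∈ ⁅B, C⁆ := by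
          rw [Subgroup.commutator_comm]
          exact Subgroup.commutator_mem_commutator (C.inv_mem hc) hb
        set k := ⁅a, f⁆ with hk
        have hkK : k ∈ ⁅A, ⁅B, C⁆⁆ := Subgroup.commutator_mem_commutator ha hfF
        have hKb : ∀ k' ∈ ⁅A, ⁅B, C⁆⁆, k' * b = b * k' := by
          intro k' hk'
          have hle : A ⊔ ⁅B, C⁆ ≤ Subgroup.centralizer {b} := by
            refine sup_le ?_ ?_
            · intro y hy
              rw [Subgroup.mem_centralizer_singleton_iff]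
              exact hcommAB y hy b hb
            · intro y hy
              rw [Subgroup.mem_centralizer_singleton_iff]
              exact hFB y hy b hb
          have := hle (Subgroup.commutator_le_sup _ _ hk')
          rwa [Subgroup.mem_centralizer_singleton_iff] at this
        -- y = a c⁻¹ b c a⁻¹ = k f b centralises C
        have hy : a * c⁻¹ * b * c * a⁻¹ = k * f * b := by
          have h4 : a * b * a⁻¹ = b := by rw [hcommAB a ha b hb, mul_inv_cancel_right]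
          calc a * c⁻¹ * b * c * a⁻¹ = (a * ⁅c⁻¹, b⁆ * a⁻¹) * (a * b * a⁻¹) := by
                simp only [commutatorElement_def]; group
            _ = (⁅a, f⁆ * f) * b := by
                rw [h4, ← hf]; simp only [commutatorElement_def]; group
        have hyC : ∀ c' ∈ C, (k * f * b) * c' = c' * (k * f * b) := by
          intro c' hc'
          rw [← hy]
          have hx : a⁻¹ * c' * a⁻¹⁻¹ ∈ Cfsg.conjBy C a⁻¹ := conj_mem_conjBy hc'
          rw [← e0, mem_conjBy, inv_inv, inv_inv] at hx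
          have h3 := hcommAB _ hx b hb
          have h5 : a * c⁻¹ * (c * (a⁻¹ * c' * a) * c⁻¹ * b) * c * a⁻¹ =
              a * c⁻¹ * (b * (c * (a⁻¹ * c' * a) * c⁻¹)) * c * a⁻¹ :=
            congrArg (fun w => a * c⁻¹ * w * c * a⁻¹) h3
          have e1 : a * c⁻¹ * (c * (a⁻¹ * c' * a) * c⁻¹ * b) * c * a⁻¹ = c' * (a * c⁻¹ * b * c * a⁻¹) := by
            group
          have e2 : a * c⁻¹ * (b * (c * (a⁻¹ * c' * a) * c⁻¹)) * c * a⁻¹ = (a * c⁻¹ * b * c * a⁻¹) * c' := by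
            group
          rw [e1, e2] at h5
          exact h5.symm
        have hkf : k * f = f * k := h2.2.1 k hkK f (Subgroup.mem_sup_right hfF)
        have hzC : ∀ c' ∈ C, (k * b) * c' = c' * (k * b) := by
          intro c' hc'
          have h3 := hyC c' hc'
          have h4 := hFC f hfF c' hc'
          have e1 : k * f * b = f * (k * b) := by rw [hkf, mul_assoc]
          rw [e1] at h3
          have h6 : f * ((k * b) * c') = f * (c' * (k * b)) := by
            rw [← mul_assoc, h3, ← mul_assoc, ← h4, mul_assoc]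
          exact mul_left_cancel h6
        have hzA : ∀ a' ∈ A, (k * b) * a' = a' * (k * b) := by
          intro a' ha'
          have h3 := h2.2.1 k hkK a' (Subgroup.mem_sup_left ha')
          rw [mul_assoc, ← hcommAB a' ha' b hb, ← mul_assoc, h3, mul_assoc]
        by_cases hz1 : k * b = 1
        · have hbK : b ∈ ⁅A, ⁅B, C⁆⁆ := by
            have : b = k⁻¹ := by
              rw [mul_eq_one_iff_eq_inv] at hz1
              rw [hz1, inv_inv]
            rw [this]; exact inv_mem hkK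
          exact (inter_trivial hS hD hBD h2.1 hb hbK hb1).symm
        · exfalso
          obtain ⟨f1, hf1, e1⟩ := cc_mul_eq_conj h2 ha ha1 hkK
          obtain ⟨E0, hE0, hm⟩ := hprod a ha ha1
          refine central_mul_not_mem hS hA hC hAC (z := k * b) ?_ hz1 ha ha1 (hS.conj_mem E0 hE0 f1) ?_
          · intro x hx
            have hle : A ⊔ C ≤ Subgroup.centralizer {k * b} := by
              refine sup_le ?_ ?_
              · intro y hy
                rw [Subgroup.mem_centralizer_singleton_iff]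
                exact (hzA y hy).symm
              · intro y hy
                rw [Subgroup.mem_centralizer_singleton_iff]
                exact (hzC y hy).symm
            have := hle hx
            rw [Subgroup.mem_centralizer_singleton_iff] at this
            exact this.symm
          · have e2 : k * b * a = f1 * (b * a) * f1⁻¹ := by
              have h3 := hFB f1 hf1 b hb
              calc k * b * a = b * (k * a) := by rw [hKb k hkK, mul_assoc]
                _ = b * (f1 * a * f1⁻¹) := by rw [e1]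
                _ = f1 * (b * a) * f1⁻¹ := by
                    rw [← mul_assoc, ← mul_assoc, ← h3]; group
            rw [e2]
            exact conj_mem_conjBy hm
      exact ⟨hS, hBS, hC, h1.1, hA, h1, rfl, cc_symm h2, by rw [Subgroup.commutator_comm]; exact hKB⟩

lemma cc_not_pair (h : Cfsg.RootCommutatorCase S A B) : ¬ Cfsg.IsRankOnePair A B := by
  intro hp
  obtain ⟨a, ha, ha1⟩ := exists_ne_one_left hp
  exact not_forall_comm_normalizes hp ha ha1 (fun b hb => comm_elem_normalizes h ha hb)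

namespace Quad

variable {P Q : Subgroup G}

lemma br_inv' (q : Quad S P B Q A) {p b : G} (hp : p ∈ P) (hb : b ∈ B) : ⁅b⁻¹, p⁆ = ⁅b, p⁆⁻¹ :=
  eq_inv_of_mul_eq_one_left (q.br_inv hp hb)

lemma br_inv_right (q : Quad S P B Q A) {p b : G} (hp : p ∈ P) (hb : b ∈ B) : ⁅b, p⁻¹⁆ = ⁅b, p⁆⁻¹ :=
  cc_inv_right (cc_symm q.h1) hb hp

/-- uniqueness of the decomposition in `Q P`. -/
lemma decomp_unique (q : Quad S P B Q A) {y y' p p' : G} (hy : y ∈ Q) (hy' : y' ∈ Q) (hp : p ∈ P)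
    (hp' : p' ∈ P) (h : y * p = y' * p') : y = y' ∧ p = p' := by
  have h1 : y'⁻¹ * y = p' * p⁻¹ := by
    have := congrArg (fun z => y'⁻¹ * z * p⁻¹) h
    simpa [mul_assoc] using this
  have h2 : p' * p⁻¹ ∈ P ⊓ Q := ⟨P.mul_mem hp' (P.inv_mem hp), h1 ▸ Q.mul_mem (Q.inv_mem hy') hy⟩
  rw [q.inf_eq_bot, Subgroup.mem_bot] at h2
  rw [h2] at h1
  exact ⟨(inv_mul_eq_one.1 h1).symm, (mul_inv_eq_one.1 h2).symm⟩

lemma rel1 (q : Quad S P B Q A) {a b : G} (ha : a ∈ A) (ha1 : a ≠ 1) (hb : b ∈ B) (hb1 : b ≠ 1)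
    (h : Cfsg.conjBy B a⁻¹ = Cfsg.conjBy A b⁻¹) {p : G} (hp : p ∈ P) : ⁅a, ⁅b, p⁆⁆ = p := by
  have hk := q.key hb hb1 ha ha1 h
  have h1 : b⁻¹ * p * b⁻¹⁻¹ ∈ Cfsg.conjBy P b⁻¹ := conj_mem_conjBy hp
  rw [hk, mem_conjBy, inv_inv, inv_inv] at h1
  set y := a * (b⁻¹ * p * b) * a⁻¹ with hy
  have e1 : b⁻¹ * p * b = ⁅b⁻¹, p⁆ * p := by
    have := q.conj_a p b⁻¹
    rwa [inv_inv] at this
  have e2 : b⁻¹ * p * b = ⁅a⁻¹, y⁆ * y := by
    have := q.symm.conj_a y a⁻¹
    rw [inv_inv] at this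
    rw [← this, hy]; group
  have hPy : ⁅a⁻¹, y⁆ ∈ P := q.symm.br_mem h1 (A.inv_mem ha)
  have e3 : ⁅b⁻¹, p⁆ * p = y * ⁅a⁻¹, y⁆ := by
    rw [← e1, e2, q.commCA h1 hPy]
  obtain ⟨e4, e5⟩ := q.decomp_unique (q.br_mem hp (B.inv_mem hb)) h1 hp hPy e3
  have e6 : ⁅a⁻¹, y⁆ = ⁅a, ⁅b, p⁆⁆ := by
    rw [← e4, q.br_inv' hp hb, q.symm.br_inv' (Q.inv_mem (q.br_mem hp hb)) ha,
      q.symm.br_inv_right (q.br_mem hp hb) ha, inv_inv]
  rw [← e6, ← e5]

lemma rel2 (q : Quad S P B Q A) {a b : G} (ha : a ∈ A) (ha1 : a ≠ 1) (hb : b ∈ B) (hb1 : b ≠ 1)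
    (h : Cfsg.conjBy B a⁻¹ = Cfsg.conjBy A b⁻¹) {y : G} (hy : y ∈ Q) : ⁅b, ⁅a, y⁆⁆ = y :=
  q.symm.rel1 hb hb1 ha ha1 h.symm hy

theorem special (q : Quad S P B Q A) : Cfsg.IsSpecialRankOnePair A B := by
  refine ⟨Cfsg.RankOnePair_symm q.pair, ?_⟩
  intro a ha ha1 b hb hb1 h
  have r1 : ∀ p ∈ P, ⁅a, ⁅b, p⁆⁆ = p := fun p hp => q.rel1 ha ha1 hb hb1 h.symm hp
  have r2 : ∀ y ∈ Q, ⁅b, ⁅a, y⁆⁆ = y := fun y hy => q.rel2 ha ha1 hb hb1 h.symm hy
  set g1 := b⁻¹ * a * b with hg1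
  set g2 := a⁻¹ * b⁻¹ * a with hg2
  -- basic conjugation rules
  have cbP : ∀ p ∈ P, b * p * b⁻¹ = ⁅b, p⁆ * p := fun p _ => q.conj_a p b
  have cbQ : ∀ y ∈ Q, b * y * b⁻¹ = y := fun y hy => by rw [← q.commCB hy hb, mul_inv_cancel_right]
  have caQ : ∀ y ∈ Q, a * y * a⁻¹ = ⁅a, y⁆ * y := fun y _ => q.symm.conj_a y a
  have caP : ∀ p ∈ P, a * p * a⁻¹ = p := fun p hp => by rw [← q.commAD hp ha, mul_inv_cancel_right]
  have cbP' : ∀ p ∈ P, b⁻¹ * p * b = ⁅b, p⁆⁻¹ * p := fun p hp => by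
    have := q.conj_a p b⁻¹
    rwa [inv_inv, q.br_inv' hp hb] at this
  have cbQ' : ∀ y ∈ Q, b⁻¹ * y * b = y := fun y hy => by
    rw [mul_assoc, q.commCB hy hb, inv_mul_cancel_left]
  have caQ' : ∀ y ∈ Q, a⁻¹ * y * a = ⁅a, y⁆⁻¹ * y := fun y hy => by
    have := q.symm.conj_a y a⁻¹
    rwa [inv_inv, q.symm.br_inv' hy ha] at this
  have caP' : ∀ p ∈ P, a⁻¹ * p * a = p := fun p hp => by
    rw [mul_assoc, q.commAD hp ha, inv_mul_cancel_left]
  have hP : ∀ p ∈ P, g1 * p * g1⁻¹ = g2 * p * g2⁻¹ := by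
    intro p hp
    have hf : ⁅b, p⁆ ∈ Q := q.br_mem hp hb
    have s1 : g1 * p * g1⁻¹ = b⁻¹ * (a * (b * p * b⁻¹) * a⁻¹) * b := by rw [hg1]; group
    have s2 : g2 * p * g2⁻¹ = a⁻¹ * (b⁻¹ * (a * p * a⁻¹) * b) * a := by rw [hg2]; group
    have t1 : a * (⁅b, p⁆ * p) * a⁻¹ = p * ⁅b, p⁆ * p := by
      have : a * (⁅b, p⁆ * p) * a⁻¹ = (a * ⁅b, p⁆ * a⁻¹) * (a * p * a⁻¹) := by group
      rw [this, caQ _ hf, caP p hp, r1 p hp]
    have t2 : b⁻¹ * (p * ⁅b, p⁆ * p) * b = (⁅b, p⁆⁻¹ * p) * ⁅b, p⁆ * (⁅b, p⁆⁻¹ * p) := by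
      have : b⁻¹ * (p * ⁅b, p⁆ * p) * b = (b⁻¹ * p * b) * (b⁻¹ * ⁅b, p⁆ * b) * (b⁻¹ * p * b) := by group
      rw [this, cbP' p hp, cbQ' _ hf]
    have t3 : a⁻¹ * (⁅b, p⁆⁻¹ * p) * a = (p * ⁅b, p⁆⁻¹) * p := by
      have : a⁻¹ * (⁅b, p⁆⁻¹ * p) * a = (a⁻¹ * ⁅b, p⁆⁻¹ * a) * (a⁻¹ * p * a) := by group
      rw [this, caQ' _ (Q.inv_mem hf), caP' p hp, q.symm.br_inv_right hf ha, r1 p hp, inv_inv]
    rw [s1, s2, cbP p hp, t1, t2, caP p hp, cbP' p hp, t3]
    have hc : ⁅b, p⁆⁻¹ * p = p * ⁅b, p⁆⁻¹ := q.commCA (Q.inv_mem hf) hp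
    generalize ⁅b, p⁆ = f at hc ⊢
    calc f⁻¹ * p * f * (f⁻¹ * p) = (f⁻¹ * p) * p := by group
      _ = p * f⁻¹ * p := by rw [hc]
  have hQ : ∀ y ∈ Q, g1 * y * g1⁻¹ = g2 * y * g2⁻¹ := by
    intro y hy
    have hf : ⁅a, y⁆ ∈ P := q.symm.br_mem hy ha
    have s1 : g1 * y * g1⁻¹ = b⁻¹ * (a * (b * y * b⁻¹) * a⁻¹) * b := by rw [hg1]; group
    have s2 : g2 * y * g2⁻¹ = a⁻¹ * (b⁻¹ * (a * y * a⁻¹) * b) * a := by rw [hg2]; group
    have t1 : b⁻¹ * (⁅a, y⁆ * y) * b = ⁅a, y⁆ := by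
      have : b⁻¹ * (⁅a, y⁆ * y) * b = (b⁻¹ * ⁅a, y⁆ * b) * (b⁻¹ * y * b) := by group
      rw [this, cbP' _ hf, cbQ' y hy, r2 y hy, q.commCA (Q.inv_mem hy) hf, inv_mul_cancel_right]
    rw [s1, s2, cbQ y hy, caQ y hy, t1, caP' _ hf]
  set g := g2⁻¹ * g1 with hg
  have hgN : ∀ n ∈ P ⊔ Q, g * n = n * g := by
    have hle : P ⊔ Q ≤ Subgroup.centralizer {g} := by
      refine sup_le ?_ ?_
      · intro p hp
        rw [Subgroup.mem_centralizer_singleton_iff]
        have := hP p hp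
        have h2 : g2⁻¹ * (g1 * p * g1⁻¹) * g1 = g2⁻¹ * (g2 * p * g2⁻¹) * g1 :=
          congrArg (fun z => g2⁻¹ * z * g1) this
        have e1 : g2⁻¹ * (g1 * p * g1⁻¹) * g1 = g * p := by rw [hg]; group
        have e2 : g2⁻¹ * (g2 * p * g2⁻¹) * g1 = p * g := by rw [hg]; group
        rw [e1, e2] at h2
        exact h2.symm
      · intro p hp
        rw [Subgroup.mem_centralizer_singleton_iff]
        have := hQ p hp
        have h2 : g2⁻¹ * (g1 * p * g1⁻¹) * g1 = g2⁻¹ * (g2 * p * g2⁻¹) * g1 :=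
          congrArg (fun z => g2⁻¹ * z * g1) this
        have e1 : g2⁻¹ * (g1 * p * g1⁻¹) * g1 = g * p := by rw [hg]; group
        have e2 : g2⁻¹ * (g2 * p * g2⁻¹) * g1 = p * g := by rw [hg]; group
        rw [e1, e2] at h2
        exact h2.symm
    intro n hn
    have := hle hn
    rw [Subgroup.mem_centralizer_singleton_iff] at this
    exact this.symm
  have hgX : g ∈ B ⊔ A := by
    have hb' : b ∈ B ⊔ A := Subgroup.mem_sup_left hb
    have ha' : a ∈ B ⊔ A := Subgroup.mem_sup_right ha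
    rw [hg, hg1, hg2]
    exact mul_mem (inv_mem (mul_mem (mul_mem (inv_mem ha') (inv_mem hb')) ha'))
      (mul_mem (mul_mem (inv_mem hb') ha') hb')
  have hgB := q.central_B hgX hgN
  have hgmem : g ∈ Cfsg.conjBy A b⁻¹ := by
    have m1 : g1 ∈ Cfsg.conjBy A b⁻¹ := by
      have := conj_mem_conjBy (g := b⁻¹) ha
      rwa [inv_inv] at this
    have m2 : g2 ∈ Cfsg.conjBy A b⁻¹ := by
      rw [h]
      have := conj_mem_conjBy (g := a⁻¹) (B.inv_mem hb)
      rwa [inv_inv] at this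
    exact mul_mem (inv_mem m2) m1
  rw [mem_conjBy, inv_inv] at hgmem
  have hgA : g ∈ A := by
    have : b * g * b⁻¹ = g := by rw [← hgB b hb, mul_inv_cancel_right]
    rwa [this] at hgmem
  have hg1' := eq_one_of_normalizes (Cfsg.RankOnePair_symm q.pair) hgA (normalizes_of_comm hgB)
  rw [hg, inv_mul_eq_one] at hg1'
  exact hg1'.symm

end Quad

lemma conjBy_commutator (X Y : Subgroup G) (g : G) :
    Cfsg.conjBy ⁅X, Y⁆ g = ⁅Cfsg.conjBy X g, Cfsg.conjBy Y g⁆ :=
  Subgroup.map_commutator X Y _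

lemma sup_abelian (hA : IsMulCommutative A) (hC : IsMulCommutative C)
    (hAC : ∀ a ∈ A, ∀ c ∈ C, a * c = c * a) : ∀ x ∈ A ⊔ C, ∀ y ∈ A ⊔ C, x * y = y * x := by
  have h1 : ∀ a ∈ A, A ⊔ C ≤ Subgroup.centralizer {a} := by
    intro a ha
    refine sup_le ?_ ?_
    · intro x hx
      rw [Subgroup.mem_centralizer_singleton_iff]
      exact comm_of_isMulCommutative hA hx ha
    · intro x hx
      rw [Subgroup.mem_centralizer_singleton_iff]
      exact (hAC a ha x hx).symm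
  have h2 : ∀ c ∈ C, A ⊔ C ≤ Subgroup.centralizer {c} := by
    intro c hc
    refine sup_le ?_ ?_
    · intro x hx
      rw [Subgroup.mem_centralizer_singleton_iff]
      exact hAC x hx c hc
    · intro x hx
      rw [Subgroup.mem_centralizer_singleton_iff]
      exact comm_of_isMulCommutative hC hx hc
  intro x hx y hy
  have h3 : A ⊔ C ≤ Subgroup.centralizer {y} := by
    refine sup_le ?_ ?_
    · intro a ha
      have := h1 a ha hy
      rw [Subgroup.mem_centralizer_singleton_iff] at this ⊢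
      exact this.symm
    · intro c hc
      have := h2 c hc hy
      rw [Subgroup.mem_centralizer_singleton_iff] at this ⊢
      exact this.symm
  have := h3 hx
  rwa [Subgroup.mem_centralizer_singleton_iff] at this

/-- On a line `AC` through `A` there is a point `E ≠ A` in the commutator case with a given partner `B`
of `A`. -/
theorem exists_special_on_line (hS : Cfsg.IsRootSubgroupSet S)
    (hpartner : ∀ X ∈ S, ∃ Y ∈ S, Cfsg.IsRankOnePair X Y) (hA : A ∈ S) (hB : B ∈ S)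
    (hAB : Cfsg.IsRankOnePair A B) (hC : C ∈ Cfsg.linePartners S A) :
    ∃ E ∈ S, E ≠ A ∧ A ⊔ E = A ⊔ C ∧ Quad S E B ⁅E, B⁆ A := by
  obtain ⟨⟨hCS, hCA, hACc⟩, hpart⟩ := hC
  have hcommAC : ∀ a ∈ A, ∀ c ∈ C, a * c = c * a := fun a ha c hc => comm_of_commutator_eq_bot hACc ha hc
  have hab := sup_abelian (hS.commutative A hA) (hS.commutative C hCS) hcommAC
  -- general: a member of the line different from A, not a partner of B
  have gen : ∀ E ∈ Cfsg.membersIn S (A ⊔ C), E ≠ A → ¬ Cfsg.IsRankOnePair E B → Quad S E B ⁅E, B⁆ A := by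
    intro E hE hEA hn
    obtain ⟨D, hD, hED⟩ := hpartner E hE.1
    refine line_quad hS hA hB hAB hE.1 ?_ ?_ hD hED hn
    · intro a ha e he
      exact hab a (Subgroup.mem_sup_left ha) e (hE.2 he)
    · intro e he he1 a' ha' ha'1
      have hne : e * a' ≠ 1 := by
        intro h
        apply he1
        have h2 : e ∈ E ⊓ A := ⟨he, by
          rw [mul_eq_one_iff_eq_inv] at h
          rw [h]; exact A.inv_mem ha'⟩
        rw [hpart.2.2 E hE A ⟨hA, le_sup_left⟩ hEA] at h2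
        simpa using h2
      obtain ⟨E0, hE0, hm⟩ := hpart.2.1 (e * a') (mul_mem (hE.2 he) (Subgroup.mem_sup_left ha')) hne
      exact ⟨E0, hE0.1, hm⟩
  by_cases hCB : Cfsg.IsRankOnePair C B
  · obtain ⟨a, ha, ha1⟩ := exists_ne_one_left hAB
    obtain ⟨b, hb, hb1, e0⟩ := hAB.cond_left a ha ha1
    obtain ⟨c, hc, hc1, e1⟩ := hCB.cond_right b hb hb1
    have hinf : A ⊓ C = ⊥ := hpart.2.2 A ⟨hA, le_sup_left⟩ C ⟨hCS, le_sup_right⟩ hCA.symm
    have he1 : a⁻¹ * c ≠ 1 := by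
      intro h
      apply hc1
      have h2 : c ∈ A ⊓ C := ⟨by
        rw [inv_mul_eq_one] at h
        rw [← h]; exact ha, hc⟩
      rw [hinf] at h2
      simpa using h2
    have heN : a⁻¹ * c ∈ A ⊔ C := mul_mem (inv_mem (Subgroup.mem_sup_left ha)) (Subgroup.mem_sup_right hc)
    obtain ⟨E, hE, hm⟩ := hpart.2.1 _ heN he1
    have hEA : E ≠ A := by
      rintro rfl
      apply hc1
      have h2 : c ∈ E ⊓ C := ⟨by
        have := E.mul_mem ha hm
        rwa [mul_inv_cancel_left] at this, hc⟩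
      rw [hinf] at h2
      simpa using h2
    have hconj : Cfsg.conjBy C (b * (a⁻¹ * c) * b⁻¹) = A := by
      have h1 : Cfsg.conjBy C (b * (a⁻¹ * c) * b⁻¹) =
          Cfsg.conjBy (Cfsg.conjBy (Cfsg.conjBy C b⁻¹) (a⁻¹ * c)) b := by
        rw [conjBy_conjBy, conjBy_conjBy]
      have h2 : Cfsg.conjBy (Cfsg.conjBy B c⁻¹) (a⁻¹ * c) = Cfsg.conjBy B a⁻¹ := by
        rw [conjBy_conjBy, mul_assoc, mul_inv_cancel, mul_one]
      rw [h1, ← e1, h2, ← e0, conjBy_conjBy, mul_inv_cancel, conjBy_one]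
    have hE1 : Cfsg.conjBy E b ∈ S := hS.conj_mem E hE.1 b
    have hm1 : b * (a⁻¹ * c) * b⁻¹ ∈ Cfsg.conjBy E b := conj_mem_conjBy hm
    have hcc : ⁅Cfsg.conjBy E b, C⁆ ∈ S := by
      rcases hS.pair _ hE1 C hCS with h | h | h
      · exfalso
        apply hCA
        rw [← hconj]
        exact (conjBy_eq_self_iff.2 (normalizes_of_comm
          (fun x hx => comm_of_commutator_eq_bot h hm1 hx))).symm
      · exfalso
        have hu : Cfsg.conjBy C (b * (a⁻¹ * c) * b⁻¹) ∈ Cfsg.unipotentSubgroups (Cfsg.conjBy E b) C :=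
          unipotent_conj (B_mem_unipotent h) (Subgroup.mem_sup_left hm1)
        rw [hconj] at hu
        have hp := pair_of_unipotent h hu (B_mem_unipotent h) hCA.symm
        apply not_normal_left hp
        intro x hx
        exact normalizes_of_comm (fun y hy => (hcommAC y hy x hx).symm)
      · exact h.1
    have hEB : ⁅E, B⁆ ∈ S := by
      have h1 := hS.conj_mem _ hcc b⁻¹
      rw [conjBy_commutator, conjBy_conjBy, inv_mul_cancel, conjBy_one, ← e1] at h1
      have h2 := hS.conj_mem _ h1 c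
      rw [conjBy_commutator, conjBy_conjBy, mul_inv_cancel, conjBy_one] at h2
      have h3 : Cfsg.conjBy E c = E :=
        conjBy_eq_self_iff.2 (normalizes_of_comm
          (fun x hx => hab c (Subgroup.mem_sup_right hc) x (hE.2 hx)))
      rwa [h3] at h2
    have q := gen E hE hEA (cc_not_pair (cc_of_mem hS hE.1 hB hEB))
    refine ⟨E, hE.1, hEA, ?_, q⟩
    apply le_antisymm (sup_le le_sup_left hE.2)
    refine sup_le le_sup_left ?_
    have hcc2 : Cfsg.RootCommutatorCase S A ⁅E, B⁆ := cc_symm q.h2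
    have hK : ⁅A, ⁅E, B⁆⁆ = E := by rw [Subgroup.commutator_comm]; exact q.e2
    have hp2 := partition_sup_cc hS hA hB hAB hcc2
    rw [hK] at hp2
    have hcAE : c ∈ A ⊔ E := by
      have h1 : a ∈ A ⊔ E := Subgroup.mem_sup_left ha
      have h2 : a⁻¹ * c ∈ A ⊔ E := Subgroup.mem_sup_right hm
      have := mul_mem h1 h2
      rwa [mul_inv_cancel_left] at this
    obtain ⟨E2, hE2, hcE2⟩ := hp2.2.1 c hcAE hc1
    obtain ⟨D, hD, hCD⟩ := hpartner C hCS
    rw [inter_trivial hS hD hCD hE2.1 hc hcE2 hc1]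
    exact hE2.2
  · exact ⟨C, hCS, hCA, rfl, gen C ⟨hCS, le_sup_right⟩ hCA hCB⟩

lemma class_partner (hS : Cfsg.IsRootSubgroupClass S) (hA : A ∈ S) (hB : B ∈ S)
    (hAB : Cfsg.IsRankOnePair A B) : ∀ X ∈ S, ∃ Y ∈ S, Cfsg.IsRankOnePair X Y := by
  intro X hX
  obtain ⟨g, rfl⟩ := hS.2.2 A hA X hX
  exact ⟨_, hS.1.conj_mem B hB g, pair_conj hAB g⟩

/-- `A ∈ Λ_{[A,B]}` and `[A,B] ∈ Λ_A` in the commutator case. -/
lemma cc_line (hS : Cfsg.IsRootSubgroupSet S) (hA : A ∈ S) (hD : D ∈ S)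
    (hAD : Cfsg.IsRankOnePair A D) (h : Cfsg.RootCommutatorCase S A B) :
    ⁅A, B⁆ ∈ Cfsg.linePartners S A := by
  refine ⟨⟨h.1, (cc_ne hS h).symm, ?_⟩, partition_sup_cc hS hA hD hAD h⟩
  apply commutator_eq_bot_of_comm
  intro a ha c hc
  exact (h.2.1 c hc a (Subgroup.mem_sup_left ha)).symm

lemma exists_line_partner (hS : Cfsg.IsRootSubgroupClass S) (hnd : Cfsg.IsNondegenerateRootSet S)
    (hA : A ∈ S) : ∃ C, C ∈ Cfsg.linePartners S A := by
  obtain ⟨-, ⟨A2, hA2, B2, hB2, hp⟩, ⟨A1, hA1, B1, hB1, hcc⟩⟩ := hnd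
  obtain ⟨g, rfl⟩ := hS.2.2 A1 hA1 A hA
  obtain ⟨D, hD, hAD⟩ := class_partner hS hA2 hB2 hp _ hA
  have hmem : ⁅Cfsg.conjBy A1 g, Cfsg.conjBy B1 g⁆ ∈ S := by
    rw [← conjBy_commutator]
    exact hS.1.conj_mem _ hcc.1 g
  exact ⟨_, cc_line hS.1 hA hD hAD (cc_of_mem hS.1 hA (hS.1.conj_mem B1 hB1 g) hmem)⟩

/-- for a rank one pair `(A,B)` in a set with lines through `A`: a line partner `E` of `A` with a `Quad`. -/
theorem exists_quad (hS : Cfsg.IsRootSubgroupSet S)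
    (hpartner : ∀ X ∈ S, ∃ Y ∈ S, Cfsg.IsRankOnePair X Y) (hA : A ∈ S) (hB : B ∈ S)
    (hAB : Cfsg.IsRankOnePair A B) (hC : C ∈ Cfsg.linePartners S A) :
    ∃ E ∈ Cfsg.linePartners S A, A ⊔ E = A ⊔ C ∧ Quad S E B ⁅E, B⁆ A := by
  obtain ⟨E, hE, hEA, hsup, q⟩ := exists_special_on_line hS hpartner hA hB hAB hC
  refine ⟨E, ⟨⟨hE, hEA, ?_⟩, ?_⟩, hsup, q⟩
  · apply commutator_eq_bot_of_comm
    intro a ha e he
    exact (q.commAD he ha).symm
  · rw [hsup]; exact hC.2

end RootSet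

end Cfsg.Agent.Lib.Helper28
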