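import Mathlib
import Cfsg.Prelude.Def_RootSubgroups
import Cfsg.Agent.Lib.Helper28.RootSet4
set_option autoImplicit false

namespace Cfsg.Agent.Lib.Helper28

open scoped commutatorElement
open RankOne

variable {G : Type*} [Group G]

namespace RootSet

variable {S : Set (Subgroup G)} {A B C D E Z : Subgroup G}

lemma membersIn_conj (hS : Cfsg.IsRootSubgroupSet S) {N X : Subgroup G} (h : X ∈ Cfsg.membersIn S N) (g : G) :
    Cfsg.conjBy X g ∈ Cfsg.membersIn S (Cfsg.conjBy N g) :=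
  ⟨hS.conj_mem X h.1 g, conjBy_mono h.2 g⟩

lemma partition_conj (hS : Cfsg.IsRootSubgroupSet S) {N : Subgroup G}
    (h : Cfsg.IsSubgroupPartition N (Cfsg.membersIn S N)) (g : G) :
    Cfsg.IsSubgroupPartition (Cfsg.conjBy N g) (Cfsg.membersIn S (Cfsg.conjBy N g)) := by
  have hback : ∀ X ∈ Cfsg.membersIn S (Cfsg.conjBy N g), Cfsg.conjBy X g⁻¹ ∈ Cfsg.membersIn S N := by
    intro X hX
    have := membersIn_conj hS hX g⁻¹
    rwa [conjBy_conjBy, inv_mul_cancel, conjBy_one] at this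
  refine ⟨fun X hX => hX.2, ?_, ?_⟩
  · intro x hx hx1
    rw [mem_conjBy] at hx
    have hx1' : g⁻¹ * x * g ≠ 1 := by
      intro h1
      apply hx1
      have := congrArg (fun z => g * z * g⁻¹) h1
      simpa [mul_assoc] using this
    obtain ⟨X, hX, hm⟩ := h.2.1 _ hx hx1'
    exact ⟨_, membersIn_conj hS hX g, mem_conjBy.2 hm⟩
  · intro X hX Y hY hne
    have hne' : Cfsg.conjBy X g⁻¹ ≠ Cfsg.conjBy Y g⁻¹ := fun h1 => hne (conjBy_injective _ h1)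
    have h1 := h.2.2 _ (hback X hX) _ (hback Y hY) hne'
    rw [eq_bot_iff]
    rintro x ⟨hx, hy⟩
    have h2 : g⁻¹ * x * g⁻¹⁻¹ ∈ Cfsg.conjBy X g⁻¹ ⊓ Cfsg.conjBy Y g⁻¹ :=
      ⟨conj_mem_conjBy hx, conj_mem_conjBy hy⟩
    rw [h1, Subgroup.mem_bot] at h2
    rw [Subgroup.mem_bot]
    have := congrArg (fun z => g * z * g⁻¹) h2
    simpa [mul_assoc] using this

lemma linePartners_conj (hS : Cfsg.IsRootSubgroupSet S) (h : B ∈ Cfsg.linePartners S A) (g : G) :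
    Cfsg.conjBy B g ∈ Cfsg.linePartners S (Cfsg.conjBy A g) := by
  obtain ⟨⟨hB, hne, hc⟩, hp⟩ := h
  refine ⟨⟨hS.conj_mem B hB g, fun h1 => hne (conjBy_injective g h1), ?_⟩, ?_⟩
  · rw [← conjBy_commutator, hc]
    exact Subgroup.map_bot _
  · rw [← conjBy_sup]
    exact partition_conj hS hp g

lemma Quad.conj {P Q : Subgroup G} (q : Quad S P B Q A) (g : G) :
    Quad S (Cfsg.conjBy P g) (Cfsg.conjBy B g) (Cfsg.conjBy Q g) (Cfsg.conjBy A g) := by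
  have hS := q.hS
  have e1 : ⁅Cfsg.conjBy P g, Cfsg.conjBy B g⁆ = Cfsg.conjBy Q g := by
    rw [← conjBy_commutator, q.e1]
  have e2 : ⁅Cfsg.conjBy Q g, Cfsg.conjBy A g⁆ = Cfsg.conjBy P g := by
    rw [← conjBy_commutator, q.e2]
  exact ⟨hS, hS.conj_mem P q.hA g, hS.conj_mem B q.hB g, hS.conj_mem Q q.hC g, hS.conj_mem A q.hD g,
    cc_of_mem hS (hS.conj_mem P q.hA g) (hS.conj_mem B q.hB g) (e1 ▸ hS.conj_mem Q q.hC g), e1,
    cc_of_mem hS (hS.conj_mem Q q.hC g) (hS.conj_mem A q.hD g) (e2 ▸ hS.conj_mem P q.hA g), e2⟩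

lemma conj_line' (hS : Cfsg.IsRootSubgroupSet S) {X : Subgroup G} (hX : X ∈ S) (hD : D ∈ S)
    (hXD : Cfsg.IsRankOnePair X D) (h : Cfsg.RootCommutatorCase S X E) {e : G} (he : e ∈ E)
    (hne : Cfsg.conjBy X e ≠ X) : Cfsg.conjBy X e ∈ Cfsg.linePartners S X := by
  have he1 : e ≠ 1 := by
    rintro rfl
    exact hne (conjBy_one X)
  have hsup : X ⊔ Cfsg.conjBy X e = X ⊔ ⁅X, E⁆ := by
    apply le_antisymm (sup_le le_sup_left (conj_le_sup_cc he))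
    refine sup_le le_sup_left ?_
    rw [← h.2.2.2 e he he1, Subgroup.closure_le]
    rintro _ ⟨x, hx, rfl⟩
    have h1 : x * e * x⁻¹ * e⁻¹ = x * (e * x⁻¹ * e⁻¹) := by group
    show x * e * x⁻¹ * e⁻¹ ∈ X ⊔ Cfsg.conjBy X e
    rw [h1]
    exact mul_mem (Subgroup.mem_sup_left hx) (Subgroup.mem_sup_right (conj_mem_conjBy (X.inv_mem hx)))
  have hab := sup_abelian (hS.commutative X hX) (hS.commutative _ h.1)
    (fun a ha c hc => (h.2.1 c hc a (Subgroup.mem_sup_left ha)).symm)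
  refine ⟨⟨hS.conj_mem X hX e, hne, ?_⟩, ?_⟩
  · apply commutator_eq_bot_of_comm
    intro a ha y hy
    exact hab a (Subgroup.mem_sup_left ha) y (conj_le_sup_cc he hy)
  · rw [hsup]
    exact partition_sup_cc hS hX hD hXD h

/-- In a `Quad S E C F A`, `F` fixes `E` and is transitive on the other points of the line `A E`. -/
lemma Quad.trans {F : Subgroup G} (q : Quad S E C F A) :
    (∀ f ∈ F, Cfsg.conjBy E f = E) ∧
    (∀ X ∈ Cfsg.membersIn S (A ⊔ E), X ≠ E → ∃ f ∈ F, X = Cfsg.conjBy A f) := by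
  have hS := q.hS
  have hAC : Cfsg.IsRankOnePair A C := Cfsg.RankOnePair_symm q.pair
  have hcc : Cfsg.RootCommutatorCase S A F := cc_symm q.h2
  have hK : ⁅A, F⁆ = E := by rw [Subgroup.commutator_comm]; exact q.e2
  have hmem := members_sup_cc hS q.hD q.hB hAC hcc
  rw [hK] at hmem
  refine ⟨?_, ?_⟩
  · intro f hf
    exact conjBy_eq_self_iff.2 (normalizes_of_comm (fun x hx => q.commCA hf hx))
  · intro X hX hXE
    rw [hmem] at hX
    rcases hX with ⟨f1, hf1, rfl⟩ | hX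
    · exact ⟨f1, hf1, rfl⟩
    · exact absurd hX hXE

lemma exists_third {N E0 E1 : Subgroup G} (hS : Cfsg.IsRootSubgroupSet S)
    (hpart : Cfsg.IsSubgroupPartition N (Cfsg.membersIn S N)) (hE0m : E0 ∈ Cfsg.membersIn S N)
    (hE1m : E1 ∈ Cfsg.membersIn S N) (hne : E0 ≠ E1) :
    ∃ Y ∈ Cfsg.membersIn S N, Y ≠ E0 ∧ Y ≠ E1 := by
  have hinf : E0 ⊓ E1 = ⊥ := hpart.2.2 E0 hE0m E1 hE1m hne
  obtain ⟨a, ha, ha1⟩ := exists_ne_one_of_ne_bot (hS.ne_bot E0 hE0m.1)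
  obtain ⟨b, hb, hb1⟩ := exists_ne_one_of_ne_bot (hS.ne_bot E1 hE1m.1)
  have hab1 : a * b ≠ 1 := by
    intro h
    apply ha1
    have h2 : a ∈ E0 ⊓ E1 := ⟨ha, by
      rw [mul_eq_one_iff_eq_inv] at h
      rw [h]; exact E1.inv_mem hb⟩
    rw [hinf] at h2
    simpa using h2
  obtain ⟨Y, hY, hm⟩ := hpart.2.1 (a * b) (mul_mem (hE0m.2 ha) (hE1m.2 hb)) hab1
  refine ⟨Y, hY, ?_, ?_⟩
  · rintro rfl
    apply hb1
    have h2 : b ∈ Y ⊓ E1 := ⟨by
      have := Y.mul_mem (Y.inv_mem ha) hm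
      rwa [inv_mul_cancel_left] at this, hb⟩
    rw [hinf] at h2
    simpa using h2
  · rintro rfl
    apply ha1
    have h2 : a ∈ E0 ⊓ Y := ⟨ha, by
      have := Y.mul_mem hm (Y.inv_mem hb)
      rwa [mul_inv_cancel_right] at this⟩
    rw [hinf] at h2
    simpa using h2

/-- for a line partner `Z` of `A` there is `C'` with `[A,C'] = F`, `[F,Z] = A`. -/
theorem exists_quad_at (hS : Cfsg.IsRootSubgroupSet S)
    (hpartner : ∀ X ∈ S, ∃ Y ∈ S, Cfsg.IsRankOnePair X Y) (hA : A ∈ S)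
    (hZ : Z ∈ Cfsg.linePartners S A) : ∃ C' ∈ S, Quad S A C' ⁅A, C'⁆ Z := by
  obtain ⟨B, hB, hAB⟩ := hpartner A hA
  obtain ⟨E, hE, hs0, q0⟩ := exists_quad hS hpartner hA hB hAB hZ
  obtain ⟨C1, hC1, hEC1⟩ := hpartner E q0.hA
  obtain ⟨E1, hE1, hs1, q1⟩ := exists_quad hS hpartner q0.hA hC1 hEC1 (linePartners_symm hE hA)
  -- first: a quad at A over E
  have step1 : ∃ C' ∈ S, Quad S A C' ⁅A, C'⁆ E := by
    by_cases h1 : E1 = A
    · subst h1
      exact ⟨C1, hC1, q1⟩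
    · have hE1m : E1 ∈ Cfsg.membersIn S (A ⊔ E) := by
        refine ⟨q1.hA, ?_⟩
        rw [sup_comm, ← hs1]
        exact le_sup_right
      obtain ⟨f, hf, e⟩ := q0.trans.2 E1 hE1m hE1.1.2.1
      have q2 := q1.conj f⁻¹
      have e1 : Cfsg.conjBy E1 f⁻¹ = A := by rw [e, conjBy_conjBy, inv_mul_cancel, conjBy_one]
      have e2 : Cfsg.conjBy E f⁻¹ = E := q0.trans.1 _ (inv_mem hf)
      rw [e1, e2, conjBy_commutator, e1] at q2
      exact ⟨_, q2.hB, q2⟩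
  obtain ⟨C', hC', q3⟩ := step1
  by_cases h2 : Z = E
  · subst h2
    exact ⟨C', hC', q3⟩
  · have hZm : Z ∈ Cfsg.membersIn S (E ⊔ A) := by
      refine ⟨hZ.1.1, ?_⟩
      rw [sup_comm, hs0]
      exact le_sup_right
    obtain ⟨f, hf, e⟩ := q3.trans.2 Z hZm hZ.1.2.1
    have q4 := q3.conj f
    have e1 : Cfsg.conjBy A f = A := q3.trans.1 f hf
    rw [e1, ← e, conjBy_commutator, e1] at q4
    exact ⟨_, q4.hB, q4⟩

end RootSet

end Cfsg.Agent.Lib.Helper28
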