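import Mathlib
import Cfsg.Prelude.Def_KGroupFacts

set_option autoImplicit false

/-! Generic tools for showing that a finite group has trivial Schur multiplier. -/

namespace Cfsg.Agent.Lib.Helper28.Schur

open Subgroup
open scoped commutatorElement

universe u

section transfer
variable {Γ : Type*} [Group Γ]

/-- transfer: a central element of the commutator subgroup, raised to the index of `X`, lies in `X'`. -/
theorem pow_index_mem_commutator [Finite Γ] (X : Subgroup Γ) {z : Γ}
    (hz : z ∈ Subgroup.center Γ) (hz' : z ∈ commutator Γ) : z ^ X.index ∈ ⁅X, X⁆ := by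
  classical
  have key : ∀ (k : ℕ) (g₀ : Γ), g₀⁻¹ * z ^ k * g₀ ∈ X → g₀⁻¹ * z ^ k * g₀ = z ^ k := by
    intro k g₀ _
    have hc : z ^ k ∈ Subgroup.center Γ := Subgroup.pow_mem _ hz k
    rw [Subgroup.mem_center_iff] at hc
    rw [mul_assoc, ← hc g₀, inv_mul_cancel_left]
  have h1 := MonoidHom.transfer_eq_pow (H := X)
    (ϕ := (Abelianization.of : X →* Abelianization X)) z key
  have h2 : MonoidHom.transfer (Abelianization.of : X →* Abelianization X) z = 1 :=
    Abelianization.commutator_subset_ker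
      (MonoidHom.transfer (Abelianization.of : X →* Abelianization X)) hz'
  rw [h2] at h1
  have h3 : (⟨z ^ X.index, MonoidHom.transfer_eq_pow_aux z key⟩ : X) ∈
      (Abelianization.of : X →* Abelianization X).ker := h1.symm
  rw [Abelianization.ker_of] at h3
  rw [← Subgroup.map_subtype_commutator]
  exact ⟨_, h3, rfl⟩

theorem commutatorElement_central {a b k l : Γ} (hk : k ∈ Subgroup.center Γ)
    (hl : l ∈ Subgroup.center Γ) : ⁅a * k, b * l⁆ = ⁅a, b⁆ := by
  rw [Subgroup.mem_center_iff] at hk hl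
  rw [commutatorElement_def, commutatorElement_def]
  have e1 : k * b * k⁻¹ = b := by rw [← hk b, mul_inv_cancel_right]
  have e2 : l * a⁻¹ * l⁻¹ = a⁻¹ := by rw [← hl a⁻¹, mul_inv_cancel_right]
  calc a * k * (b * l) * (a * k)⁻¹ * (b * l)⁻¹
      = a * (k * b * k⁻¹) * (k * (l * k⁻¹ * l⁻¹)) * (l * a⁻¹ * l⁻¹) * b⁻¹ := by group
    _ = a * b * a⁻¹ * b⁻¹ := by
      rw [e1, e2, ← hl k⁻¹, mul_inv_cancel_right, mul_inv_cancel, mul_one]

end transfer

section stem
variable {Γ : Type*} {G : Type*} [Group Γ] [Group G]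

/-- main tool: `z` in the kernel of a stem extension, `Q ≤ Γ`. -/
theorem pow_index_mem [Finite Γ] {σ : Γ →* G} (hσ : IsStemExtension σ) (Q : Subgroup Γ) {z : Γ}
    (hz : z ∈ σ.ker) : z ^ (Q.map σ).index ∈ ⁅Q, Q⁆ := by
  obtain ⟨hs, hc, hd⟩ := hσ
  have h1 := pow_index_mem_commutator ((Q.map σ).comap σ) (hc hz) (hd hz)
  rw [Subgroup.index_comap_of_surjective _ hs] at h1
  have h2 : ⁅(Q.map σ).comap σ, (Q.map σ).comap σ⁆ ≤ ⁅Q, Q⁆ := by
    rw [Subgroup.commutator_le]
    intro a ha b hb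
    obtain ⟨a', ha', ea⟩ := ha
    obtain ⟨b', hb', eb⟩ := hb
    have ka : a'⁻¹ * a ∈ Subgroup.center Γ := hc (by
      rw [MonoidHom.mem_ker, map_mul, map_inv, ea, inv_mul_cancel])
    have kb : b'⁻¹ * b ∈ Subgroup.center Γ := hc (by
      rw [MonoidHom.mem_ker, map_mul, map_inv, eb, inv_mul_cancel])
    have := commutatorElement_central (a := a') (b := b') ka kb
    rw [mul_inv_cancel_left, mul_inv_cancel_left] at this
    rw [this]
    exact Subgroup.commutator_mem_commutator ha' hb'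
  exact h2 h1

/-- closing lemma -/
theorem false_of_index [Finite Γ] {σ : Γ →* G} (hσ : IsStemExtension σ) {p : ℕ} (hp : p.Prime)
    (hK : Nat.card σ.ker = p) (Q : Subgroup Γ) (hidx : ¬ p ∣ (Q.map σ).index)
    (hQ : ∀ x ∈ ⁅Q, Q⁆, x ∈ σ.ker → x = 1) : False := by
  have hnt : Nontrivial σ.ker := by
    rw [← Finite.one_lt_card_iff_nontrivial, hK]
    exact hp.one_lt
  obtain ⟨⟨z, hz⟩, hz1⟩ := exists_ne (1 : σ.ker)
  have hz1' : z ≠ 1 := fun h => hz1 (Subtype.ext h)
  have h1 := hQ _ (pow_index_mem hσ Q hz) (Subgroup.pow_mem _ hz _)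
  have h2 : orderOf z ∣ (Q.map σ).index := orderOf_dvd_of_pow_eq_one h1
  have h3 : orderOf z ∣ p := by
    have : orderOf (⟨z, hz⟩ : σ.ker) ∣ Nat.card σ.ker := orderOf_dvd_natCard _
    rw [hK, Subgroup.orderOf_mk] at this
    exact this
  rcases (Nat.dvd_prime hp).1 h3 with h | h
  · exact hz1' (orderOf_eq_one_iff.1 h)
  · exact hidx (h ▸ h2)

/-- closing lemma with cardinalities -/
theorem false_of_card [Finite Γ] [Finite G] {σ : Γ →* G} (hσ : IsStemExtension σ) {p : ℕ}
    (hp : p.Prime) (hK : Nat.card σ.ker = p) (Q : Subgroup Γ) (n m : ℕ)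
    (hn : Nat.card (Q.map σ) = n) (hG : Nat.card G = n * m) (hm : ¬ p ∣ m)
    (hQ : ∀ x ∈ ⁅Q, Q⁆, x ∈ σ.ker → x = 1) : False := by
  apply false_of_index hσ hp hK Q _ hQ
  have h := (Q.map σ).card_mul_index
  rw [hn, hG] at h
  have hn0 : 0 < n := by
    rw [← hn]; exact Nat.card_pos
  rw [Nat.eq_of_mul_eq_mul_left hn0 h]
  exact hm

/-- closing lemma for complements -/
theorem false_of_complement [Finite Γ] [Finite G] {σ : Γ →* G} (hσ : IsStemExtension σ) {p : ℕ}
    (hp : p.Prime) (hK : Nat.card σ.ker = p) (Q : Subgroup Γ) (n m : ℕ)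
    (hQn : Nat.card Q ≤ n) (hn : n ≤ Nat.card (Q.map σ)) (hG : Nat.card G = n * m)
    (hm : ¬ p ∣ m) : False := by
  have hsurj : Function.Surjective (fun q : Q => (⟨σ q.1, Subgroup.mem_map_of_mem σ q.2⟩ : Q.map σ)) := by
    rintro ⟨_, q, hq, rfl⟩
    exact ⟨⟨q, hq⟩, rfl⟩
  have hbij := hsurj.bijective_of_nat_card_le (hQn.trans hn)
  have hcard : Nat.card (Q.map σ) = n := by
    apply le_antisymm _ hn
    rw [← Nat.card_congr (Equiv.ofBijective _ hbij)]
    exact hQn
  apply false_of_card hσ hp hK Q n m hcard hG hm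
  intro x hx hxk
  have hxQ : x ∈ Q := by
    have := Subgroup.commutator_le_sup (H₁ := Q) (H₂ := Q) hx
    rwa [sup_idem] at this
  have := hbij.1 (a₁ := ⟨x, hxQ⟩) (a₂ := 1) (by
    apply Subtype.ext
    show σ x = σ 1
    rw [map_one]; exact hxk)
  exact congrArg Subtype.val this

end stem

section more
variable {Γ : Type*} {G : Type*} [Group Γ] [Group G]

theorem commutator_trivial_of_comm {Q : Subgroup Γ} (h : ∀ a ∈ Q, ∀ b ∈ Q, a * b = b * a) :
    ∀ x ∈ ⁅Q, Q⁆, x = 1 := by
  have : ⁅Q, Q⁆ ≤ ⊥ := by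
    rw [Subgroup.commutator_le]
    intro a ha b hb
    rw [Subgroup.mem_bot, commutatorElement_eq_one_iff_mul_comm]
    exact h a ha b hb
  intro x hx
  exact Subgroup.mem_bot.1 (this hx)

/-- if `p²` does not divide `|G|` there is no stem extension with kernel of order `p`. -/
theorem false_of_sq_not_dvd [Finite Γ] [Finite G] {σ : Γ →* G} (hσ : IsStemExtension σ) {p : ℕ}
    (hp : p.Prime) (hK : Nat.card σ.ker = p) (hsq : ¬ p ^ 2 ∣ Nat.card G) : False := by
  have : Fact p.Prime := ⟨hp⟩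
  have hcomm : ∀ g : Γ, ∀ x ∈ ⁅Subgroup.zpowers g, Subgroup.zpowers g⁆, x ∈ σ.ker → x = 1 := by
    intro g x hx _
    apply commutator_trivial_of_comm _ x hx
    intro a ha b hb
    obtain ⟨i, rfl⟩ := Subgroup.mem_zpowers_iff.1 ha
    obtain ⟨j, rfl⟩ := Subgroup.mem_zpowers_iff.1 hb
    exact ((Commute.refl g).zpow_zpow i j)
  by_cases hd : p ∣ Nat.card G
  · obtain ⟨g, hg⟩ := exists_prime_orderOf_dvd_card' p hd
    obtain ⟨g', rfl⟩ := hσ.1 g
    obtain ⟨m, hm⟩ := hd
    apply false_of_card hσ hp hK (Subgroup.zpowers g') p m _ hm _ (hcomm g')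
    · rw [MonoidHom.map_zpowers, Nat.card_zpowers, hg]
    · rintro ⟨k, rfl⟩
      apply hsq
      rw [hm]
      exact ⟨k, by ring⟩
  · apply false_of_card hσ hp hK (Subgroup.zpowers 1) 1 (Nat.card G) _ (one_mul _).symm hd (hcomm 1)
    rw [MonoidHom.map_zpowers, Nat.card_zpowers, map_one, orderOf_one]

end more

section reduction

theorem stem_quotient {Γ : Type*} {G : Type*} [Group Γ] [Group G] {σ : Γ →* G}
    (hσ : IsStemExtension σ) (L : Subgroup Γ) [L.Normal] (hL : ∀ x ∈ L, σ x = 1) :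
    IsStemExtension (QuotientGroup.lift L σ hL) := by
  obtain ⟨hs, hc, hd⟩ := hσ
  refine ⟨?_, ?_, ?_⟩
  · intro g
    obtain ⟨x, rfl⟩ := hs g
    exact ⟨QuotientGroup.mk x, rfl⟩
  · intro x hx
    obtain ⟨x, rfl⟩ := QuotientGroup.mk_surjective x
    have hx' : x ∈ σ.ker := hx
    have := hc hx'
    rw [Subgroup.mem_center_iff] at this ⊢
    intro y
    obtain ⟨y, rfl⟩ := QuotientGroup.mk_surjective y
    rw [← QuotientGroup.mk_mul, ← QuotientGroup.mk_mul, this y]
  · intro x hx
    obtain ⟨x, rfl⟩ := QuotientGroup.mk_surjective x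
    have hx' : x ∈ σ.ker := hx
    have h1 : x ∈ commutator Γ := hd hx'
    have h2 : (QuotientGroup.mk' L) x ∈ (commutator Γ).map (QuotientGroup.mk' L) :=
      Subgroup.mem_map_of_mem _ h1
    rw [commutator_def, Subgroup.map_commutator] at h2
    rw [commutator_def]
    exact Subgroup.commutator_mono le_top le_top h2

theorem ker_eq_bot_of {G : Type u} [Group G] [Finite G]
    (h : ∀ (p : ℕ) (Γ : Type u) [Group Γ] [Finite Γ] (σ : Γ →* G), p.Prime → IsStemExtension σ →
      Nat.card σ.ker = p → False) :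
    ∀ (n : ℕ) (Γ : Type u) [Group Γ] [Finite Γ] (σ : Γ →* G), IsStemExtension σ →
      Nat.card Γ = n → σ.ker = ⊥ := by
  intro n
  induction n using Nat.strong_induction_on with
  | _ n ih =>
    intro Γ _ _ σ hσ hn
    by_contra hne
    have hnt : Nontrivial σ.ker := (Subgroup.nontrivial_iff_ne_bot _).2 hne
    have h1 : Nat.card σ.ker ≠ 1 := by
      intro h1
      have := Finite.one_lt_card_iff_nontrivial.2 hnt
      omega
    obtain ⟨p, hp, hpd⟩ := Nat.exists_prime_and_dvd h1
    have : Fact p.Prime := ⟨hp⟩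
    obtain ⟨⟨x, hxK⟩, hx⟩ := exists_prime_orderOf_dvd_card' p hpd
    rw [Subgroup.orderOf_mk] at hx
    have hLK : Subgroup.zpowers x ≤ σ.ker := by
      rw [Subgroup.zpowers_le]; exact hxK
    have : (Subgroup.zpowers x).Normal := by
      constructor
      intro y hy g
      have := hσ.2.1 (hLK hy)
      rw [Subgroup.mem_center_iff] at this
      rw [this g, mul_inv_cancel_right]
      exact hy
    have hcardL : Nat.card (Subgroup.zpowers x) = p := by rw [Nat.card_zpowers, hx]
    have hlt : Nat.card (Γ ⧸ Subgroup.zpowers x) < n := by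
      have := Subgroup.card_eq_card_quotient_mul_card_subgroup (Subgroup.zpowers x)
      rw [hcardL, hn] at this
      have hpos : 0 < Nat.card (Γ ⧸ Subgroup.zpowers x) := Nat.card_pos
      have := hp.two_le
      nlinarith
    have hq := ih _ hlt (Γ ⧸ Subgroup.zpowers x)
      (QuotientGroup.lift (Subgroup.zpowers x) σ (fun y hy => hLK hy))
      (stem_quotient hσ _ _) rfl
    have hKL : σ.ker ≤ Subgroup.zpowers x := by
      intro k hk
      have : (QuotientGroup.mk k : Γ ⧸ Subgroup.zpowers x) ∈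
          (QuotientGroup.lift (Subgroup.zpowers x) σ (fun y hy => hLK hy)).ker := hk
      rw [hq, Subgroup.mem_bot, QuotientGroup.eq_one_iff] at this
      exact this
    have : σ.ker = Subgroup.zpowers x := le_antisymm hKL hLK
    exact h p Γ σ hp hσ (by rw [this, hcardL])

/-- reduction: it is enough to exclude stem extensions with kernel of prime order. -/
theorem trivial_multiplier {G : Type u} [Group G] [Finite G]
    (h : ∀ (p : ℕ) (Γ : Type u) [Group Γ] [Finite Γ] (σ : Γ →* G), p.Prime → IsStemExtension σ →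
      Nat.card σ.ker = p → False) : HasCyclicSchurMultiplier G 1 := by
  constructor
  · refine ⟨G, inferInstance, inferInstance, MonoidHom.id G, ⟨fun g => ⟨g, rfl⟩, ?_, ?_⟩, ⟨?_⟩⟩
    · intro x hx
      have : x = 1 := hx
      rw [this]; exact one_mem _
    · intro x hx
      have : x = 1 := hx
      rw [this]; exact one_mem _
    · haveI : Subsingleton (Multiplicative (ZMod 1)) := inferInstanceAs (Subsingleton (Fin 1))
      exact
        { toFun := fun _ => 1
          invFun := fun _ => 1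
          left_inv := fun x => Subtype.ext (by
            have : (x : G) = 1 := x.2
            rw [this]; rfl)
          right_inv := fun x => Subsingleton.elim _ _
          map_mul' := fun _ _ => (one_mul _).symm }
  · intro Γ _ _ σ hσ
    have hk := ker_eq_bot_of h _ Γ σ hσ rfl
    refine ⟨1, ?_⟩
    rintro ⟨x, hx⟩
    refine ⟨1, ?_⟩
    apply Subtype.ext
    have hx' := hx
    rw [hk, Subgroup.mem_bot] at hx'
    exact hx'.symm

end reduction

end Cfsg.Agent.Lib.Helper28.Schur
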