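import Mathlib

set_option autoImplicit false

/-! Polycyclic chains: upper bounds for orders of generated subgroups; commutator subgroups of
two-generator groups. -/

namespace Cfsg.Agent.Lib.Helper28.Schur

open Subgroup
open scoped commutatorElement Pointwise

variable {Γ : Type*} [Group Γ]

theorem card_sup_le [Finite Γ] (H N : Subgroup Γ) (h : H ≤ normalizer (N : Set Γ)) :
    Nat.card (H ⊔ N : Subgroup Γ) ≤ Nat.card H * Nat.card N := by
  rw [← Nat.card_prod]
  have hs : ∀ x : (H ⊔ N : Subgroup Γ), ∃ a : H × N, (a.1 : Γ) * a.2 = x := by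
    rintro ⟨x, hx⟩
    have hx' : x ∈ ((H ⊔ N : Subgroup Γ) : Set Γ) := hx
    rw [Subgroup.coe_mul_of_left_le_normalizer_right H N h] at hx'
    obtain ⟨a, ha, b, hb, e⟩ := Set.mem_mul.1 hx'
    exact ⟨(⟨a, ha⟩, ⟨b, hb⟩), e⟩
  choose f hf using hs
  apply Nat.card_le_card_of_injective f
  intro x y e
  apply Subtype.ext
  rw [← hf x, ← hf y, e]

theorem mem_normalizer_of_conj [Finite Γ] (N : Subgroup Γ) (t : Γ)
    (hn : ∀ n ∈ N, t * n * t⁻¹ ∈ N) : t ∈ normalizer (N : Set Γ) := by
  rw [Subgroup.mem_normalizer_iff_map_conj_eq]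
  apply Subgroup.eq_of_le_of_card_ge
  · rintro _ ⟨n, hn', rfl⟩
    exact hn n hn'
  · rw [Subgroup.card_map_of_injective (MulAut.conj t).injective]

/-- subgroup generated by `N` and the first components of the list -/
def cl (N : Subgroup Γ) : List (Γ × ℕ) → Subgroup Γ
  | [] => N
  | e :: l => Subgroup.zpowers e.1 ⊔ cl N l

theorem le_cl (N : Subgroup Γ) (l : List (Γ × ℕ)) : N ≤ cl N l := by
  induction l with
  | nil => exact le_rfl
  | cons e l ih => exact ih.trans le_sup_right

theorem mem_cl (N : Subgroup Γ) {l : List (Γ × ℕ)} {e : Γ × ℕ} (he : e ∈ l) : e.1 ∈ cl N l := by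
  induction l with
  | nil => cases he
  | cons a l ih =>
    rcases List.mem_cons.1 he with rfl | h
    · exact (le_sup_left : Subgroup.zpowers e.1 ≤ _) (Subgroup.mem_zpowers _)
    · exact (le_sup_right : cl N l ≤ _) (ih h)

theorem cl_le {N M : Subgroup Γ} {l : List (Γ × ℕ)} (hN : N ≤ M) (hl : ∀ e ∈ l, e.1 ∈ M) :
    cl N l ≤ M := by
  induction l with
  | nil => exact hN
  | cons a l ih =>
    apply sup_le
    · rw [Subgroup.zpowers_le]; exact hl a (List.mem_cons_self)
    · exact ih (fun e he => hl e (List.mem_cons_of_mem _ he))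

/-- a polycyclic chain over `N` -/
def Good (N : Subgroup Γ) : List (Γ × ℕ) → Prop
  | [] => True
  | e :: l => 0 < e.2 ∧ e.1 ^ e.2 = 1 ∧ (∀ n ∈ N, e.1 * n * e.1⁻¹ ∈ cl N l) ∧
      (∀ g ∈ l, e.1 * g.1 * e.1⁻¹ ∈ cl N l) ∧ Good N l

theorem card_cl_le [Finite Γ] (N : Subgroup Γ) (l : List (Γ × ℕ)) (h : Good N l) :
    Nat.card (cl N l) ≤ (l.map Prod.snd).prod * Nat.card N := by
  induction l with
  | nil => simp [cl]
  | cons e l ih =>
    obtain ⟨h0, h1, h2, h3, h4⟩ := h
    have hconj : cl N l ≤ (cl N l).comap (MulAut.conj e.1).toMonoidHom := by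
      apply cl_le
      · intro n hn
        exact h2 n hn
      · intro g hg
        exact h3 g hg
    have hnorm : Subgroup.zpowers e.1 ≤ normalizer (cl N l : Set Γ) := by
      rw [Subgroup.zpowers_le]
      exact mem_normalizer_of_conj _ _ (fun n hn => hconj hn)
    have hc := card_sup_le _ _ hnorm
    have ho : Nat.card (Subgroup.zpowers e.1) ≤ e.2 := by
      rw [Nat.card_zpowers]
      exact orderOf_le_of_pow_eq_one h0 h1
    calc Nat.card (cl N (e :: l)) ≤ Nat.card (Subgroup.zpowers e.1) * Nat.card (cl N l) := hc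
      _ ≤ e.2 * ((l.map Prod.snd).prod * Nat.card N) := Nat.mul_le_mul ho (ih h4)
      _ = ((e :: l).map Prod.snd).prod * Nat.card N := by
        rw [List.map_cons, List.prod_cons, mul_assoc]

/-- commutator subgroup of a two-generator group -/
theorem commutator_pair_le [Finite Γ] (x y : Γ) (N : Subgroup Γ) (hN : ⁅x, y⁆ ∈ N)
    (hx : ∀ n ∈ N, x * n * x⁻¹ ∈ N) (hy : ∀ n ∈ N, y * n * y⁻¹ ∈ N) :
    ⁅Subgroup.closure {x, y}, Subgroup.closure {x, y}⁆ ≤ N := by
  have hQ : Subgroup.closure {x, y} ≤ normalizer (N : Set Γ) := by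
    rw [Subgroup.closure_le]
    rintro a (rfl | rfl)
    · exact mem_normalizer_of_conj _ _ hx
    · exact mem_normalizer_of_conj _ _ hy
  have hc : ∀ a ∈ Subgroup.closure {x, y}, ∀ n ∈ N, a * n * a⁻¹ ∈ N :=
    Subgroup.le_normalizer_iff.1 hQ
  rw [Subgroup.commutator_le]
  intro a ha b hb
  induction ha, hb using Subgroup.closure_induction₂ with
  | mem a b ha hb =>
    rcases ha with rfl | rfl <;> rcases hb with rfl | rfl
    · rw [commutatorElement_self]; exact one_mem _
    · exact hN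
    · rw [← commutatorElement_inv]; exact inv_mem hN
    · rw [commutatorElement_self]; exact one_mem _
  | one_left a ha => rw [commutatorElement_one_left]; exact one_mem _
  | one_right a ha => rw [commutatorElement_one_right]; exact one_mem _
  | mul_left a b c ha hb hc' h1 h2 =>
    have : ⁅a * b, c⁆ = a * ⁅b, c⁆ * a⁻¹ * ⁅a, c⁆ := by
      simp only [commutatorElement_def]; group
    rw [this]
    exact mul_mem (hc a ha _ h2) h1
  | mul_right b c a hb hc' ha h1 h2 =>
    have : ⁅a, b * c⁆ = ⁅a, b⁆ * (b * ⁅a, c⁆ * b⁻¹) := by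
      simp only [commutatorElement_def]; group
    rw [this]
    exact mul_mem h1 (hc b hb _ h2)
  | inv_left a b ha hb h =>
    have : ⁅a⁻¹, b⁆ = a⁻¹ * ⁅a, b⁆⁻¹ * a⁻¹⁻¹ := by
      simp only [commutatorElement_def]; group
    rw [this]
    exact hc _ (inv_mem ha) _ (inv_mem h)
  | inv_right a b ha hb h =>
    have : ⁅a, b⁻¹⁆ = b⁻¹ * ⁅a, b⁆⁻¹ * b⁻¹⁻¹ := by
      simp only [commutatorElement_def]; group
    rw [this]
    exact hc _ (inv_mem hb) _ (inv_mem h)

end Cfsg.Agent.Lib.Helper28.Schur
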