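import Mathlib
import Cfsg.Agent.Lib.Helper28.Schur1
import Cfsg.Agent.Lib.Helper28.Schur2

set_option autoImplicit false

/-! Central extensions by a group of order 2 in which involutions lift to involutions. -/

namespace Cfsg.Agent.Lib.Helper28.Schur

open Subgroup
open scoped commutatorElement

/-- `σ` maps onto `A` with central kernel of exponent `p`. -/
structure Cov {Γ X : Type*} [Group Γ] [Group X] (σ : Γ →* X) (A : Subgroup X) (p : ℕ) : Prop where
  lift : ∀ g ∈ A, ∃ γ, σ γ = g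
  range : ∀ γ, σ γ ∈ A
  central : ∀ k, σ k = 1 → ∀ γ, γ * k = k * γ
  pow : ∀ k, σ k = 1 → k ^ p = 1

section tau
variable {X : Type*} [Group X]

/-- the norm of `a` under an element of order three -/
def tau (u a : X) : X := a * (u * a * u⁻¹) * (u⁻¹ * a * u)

theorem tau_mul (u a b : X) (h1 : Commute b (u * a * u⁻¹)) (h2 : Commute b (u⁻¹ * a * u))
    (h3 : Commute (u * b * u⁻¹) (u⁻¹ * a * u)) : tau u (a * b) = tau u a * tau u b := by
  have e1 : u * (a * b) * u⁻¹ = (u * a * u⁻¹) * (u * b * u⁻¹) := by group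
  have e2 : u⁻¹ * (a * b) * u = (u⁻¹ * a * u) * (u⁻¹ * b * u) := by group
  unfold tau
  rw [e1, e2, h1.mul_mul_mul_comm, (h2.mul_left h3).mul_mul_mul_comm]

theorem tau_central (u k : X) (hk : ∀ g, g * k = k * g) : tau u k = k ^ 3 := by
  unfold tau
  rw [hk u, mul_inv_cancel_right, hk u⁻¹, inv_mul_cancel_right, pow_succ, pow_two]

theorem tau_mul_central (u a k : X) (hk : ∀ g, g * k = k * g) :
    tau u (a * k) = tau u a * k ^ 3 := by
  have hc : ∀ g, Commute k g := fun g => (hk g).symm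
  have e : u * k * u⁻¹ = k := by rw [hk u, mul_inv_cancel_right]
  rw [tau_mul u a k (hc _) (hc _) (by rw [e]; exact hc _), tau_central u k hk]

theorem tau_one (u : X) : tau u 1 = 1 := by simp [tau]

theorem tau_conj (g u a : X) (h : g * u * g⁻¹ = u) : tau u (g * a * g⁻¹) = g * tau u a * g⁻¹ := by
  have h1 : u * g = g * u := by
    conv_lhs => rw [← h]
    group
  have h2 : u⁻¹ * g = g * u⁻¹ := by
    rw [eq_mul_inv_iff_mul_eq, mul_assoc, ← h1, inv_mul_cancel_left]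
  have h3 : g⁻¹ * u⁻¹ = u⁻¹ * g⁻¹ := by
    rw [← mul_inv_rev, ← mul_inv_rev, h1]
  have h4 : g⁻¹ * u = u * g⁻¹ := by
    rw [eq_mul_inv_iff_mul_eq, mul_assoc, h1, inv_mul_cancel_left]
  unfold tau
  have e1 : u * (g * a * g⁻¹) * u⁻¹ = g * (u * a * u⁻¹) * g⁻¹ := by
    calc u * (g * a * g⁻¹) * u⁻¹ = (u * g) * a * (g⁻¹ * u⁻¹) := by group
      _ = g * (u * a * u⁻¹) * g⁻¹ := by rw [h1, h3]; group
  have e2 : u⁻¹ * (g * a * g⁻¹) * u = g * (u⁻¹ * a * u) * g⁻¹ := by
    calc u⁻¹ * (g * a * g⁻¹) * u = (u⁻¹ * g) * a * (g⁻¹ * u) := by group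
      _ = g * (u⁻¹ * a * u) * g⁻¹ := by rw [h2, h4]; group
  rw [e1, e2]; group

theorem tau_conj' (g u a : X) (h : g * u * g⁻¹ = u⁻¹)
    (hc : Commute (u * a * u⁻¹) (u⁻¹ * a * u)) :
    tau u (g * a * g⁻¹) = g * tau u a * g⁻¹ := by
  have h1 : u⁻¹ * g = g * u := by
    rw [← h]; group
  have h2 : u * g = g * u⁻¹ := by
    rw [eq_mul_inv_iff_mul_eq, mul_assoc, ← h1, mul_inv_cancel_left]
  have h3 : g⁻¹ * u⁻¹ = u * g⁻¹ := by
    have := congrArg (·⁻¹) h2
    simpa [mul_inv_rev] using this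
  have h4 : g⁻¹ * u = u⁻¹ * g⁻¹ := by
    have := congrArg (·⁻¹) h1
    simpa [mul_inv_rev] using this
  unfold tau
  have e1 : u * (g * a * g⁻¹) * u⁻¹ = g * (u⁻¹ * a * u) * g⁻¹ := by
    calc u * (g * a * g⁻¹) * u⁻¹ = (u * g) * a * (g⁻¹ * u⁻¹) := by group
      _ = g * (u⁻¹ * a * u) * g⁻¹ := by rw [h2, h3]; group
  have e2 : u⁻¹ * (g * a * g⁻¹) * u = g * (u * a * u⁻¹) * g⁻¹ := by
    calc u⁻¹ * (g * a * g⁻¹) * u = (u⁻¹ * g) * a * (g⁻¹ * u) := by group
      _ = g * (u * a * u⁻¹) * g⁻¹ := by rw [h1, h4]; group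
  rw [e1, e2, mul_assoc a, hc.eq]; group

end tau

section two
variable {Γ X : Type*} [Group Γ] [Group X] {σ : Γ →* X} {A : Subgroup X}

theorem map_tau (σ : Γ →* X) (u a : Γ) : σ (tau u a) = tau (σ u) (σ a) := by
  simp [tau]

/-- involutions lift to involutions -/
def Hinv (σ : Γ →* X) : Prop := ∀ γ : Γ, σ γ * σ γ = 1 → γ * γ = 1

theorem Hinv.comm (H : Hinv σ) {a b : Γ} (ha : σ a * σ a = 1) (hb : σ b * σ b = 1)
    (hab : σ a * σ b = σ b * σ a) : a * b = b * a := by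
  have h1 := H a ha
  have h2 := H b hb
  have h3 : (a * b) * (a * b) = 1 := H (a * b) (by
    rw [map_mul]
    calc σ a * σ b * (σ a * σ b) = σ a * (σ b * σ a) * σ b := by group
      _ = σ a * (σ a * σ b) * σ b := by rw [hab]
      _ = (σ a * σ a) * (σ b * σ b) := by group
      _ = 1 := by rw [ha, hb, one_mul])
  have e1 : a⁻¹ = a := inv_eq_of_mul_eq_one_left h1
  have e2 : b⁻¹ = b := inv_eq_of_mul_eq_one_left h2
  have e3 : (a * b)⁻¹ = a * b := inv_eq_of_mul_eq_one_left h3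
  rw [← e3, mul_inv_rev, e1, e2]

theorem eq_one_of_pow (k : Γ) (h2 : k ^ 2 = 1) (h3 : k ^ 3 = 1) : k = 1 := by
  have : k ^ 3 = k ^ 2 * k := pow_succ k 2
  rw [h3, h2, one_mul] at this
  exact this.symm

theorem lift_unique3 (hC : Cov σ A 2) {a b : Γ} (h : σ a = σ b) (ha : a ^ 3 = 1)
    (hb : b ^ 3 = 1) : a = b := by
  have hk : σ (b⁻¹ * a) = 1 := by rw [map_mul, map_inv, h, inv_mul_cancel]
  have hcomm : Commute b (b⁻¹ * a) := hC.central _ hk b
  have e : a = b * (b⁻¹ * a) := by group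
  have h3 : (b⁻¹ * a) ^ 3 = 1 := by
    have := hcomm.mul_pow 3
    rw [← e, ha, hb, one_mul] at this
    exact this.symm
  have := eq_one_of_pow _ (hC.pow _ hk) h3
  rw [e, this, mul_one]

theorem exists_W (hC : Cov σ A 2) (H : Hinv σ) (V : Subgroup X) (hVA : V ≤ A)
    (hV2 : ∀ a ∈ V, a * a = 1) (hVc : ∀ a ∈ V, ∀ b ∈ V, a * b = b * a) (u : X) (huA : u ∈ A)
    (hu3 : u ^ 3 = 1) (huV : ∀ a ∈ V, u * a * u⁻¹ ∈ V) (huV' : ∀ a ∈ V, u⁻¹ * a * u ∈ V)
    (hfpf : ∀ a ∈ V, tau u a = 1) :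
    ∃ W : Subgroup Γ, (∀ a ∈ V, ∃ w ∈ W, σ w = a) ∧ (∀ w ∈ W, σ w ∈ V) ∧
      (∀ w ∈ W, σ w = 1 → w = 1) ∧
      (∀ g : Γ, (∀ a ∈ V, σ g * a * (σ g)⁻¹ ∈ V) →
        (σ g * u * (σ g)⁻¹ = u ∨ σ g * u * (σ g)⁻¹ = u⁻¹) → ∀ w ∈ W, g * w * g⁻¹ ∈ W) := by
  obtain ⟨u0, hu0⟩ := hC.lift u huA
  have hκ : σ (u0 ^ 3) = 1 := by rw [map_pow, hu0, hu3]
  obtain ⟨û, hû, hû3⟩ : ∃ û : Γ, σ û = u ∧ û ^ 3 = 1 := by
    refine ⟨u0 * u0 ^ 3, by rw [map_mul, hκ, mul_one, hu0], ?_⟩
    have hcomm : Commute u0 (u0 ^ 3) := hC.central _ hκ u0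
    rw [hcomm.mul_pow 3]
    have h2 := hC.pow _ hκ
    calc u0 ^ 3 * (u0 ^ 3) ^ 3 = ((u0 ^ 3) ^ 2) ^ 2 := by group
      _ = 1 := by rw [h2, one_pow]
  have hcomm : ∀ v w : Γ, σ v ∈ V → σ w ∈ V → Commute v w := fun v w hv hw =>
    H.comm (hV2 _ hv) (hV2 _ hw) (hVc _ hv _ hw)
  have hc1 : ∀ v : Γ, σ v ∈ V → σ (û * v * û⁻¹) ∈ V := by
    intro v hv
    rw [map_mul, map_mul, map_inv, hû]; exact huV _ hv
  have hc2 : ∀ v : Γ, σ v ∈ V → σ (û⁻¹ * v * û) ∈ V := by
    intro v hv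
    rw [map_mul, map_mul, map_inv, hû]; exact huV' _ hv
  let W : Subgroup Γ :=
    { carrier := {v | σ v ∈ V ∧ tau û v = 1}
      one_mem' := ⟨by rw [map_one]; exact one_mem _, tau_one _⟩
      mul_mem' := by
        rintro a b ⟨ha, ha'⟩ ⟨hb, hb'⟩
        refine ⟨by rw [map_mul]; exact mul_mem ha hb, ?_⟩
        rw [tau_mul û a b (hcomm _ _ hb (hc1 _ ha)) (hcomm _ _ hb (hc2 _ ha))
          (hcomm _ _ (hc1 _ hb) (hc2 _ ha)), ha', hb', one_mul]
      inv_mem' := by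
        rintro a ⟨ha, ha'⟩
        have : a⁻¹ = a := inv_eq_of_mul_eq_one_left (H a (hV2 _ ha))
        rw [this]
        exact ⟨ha, ha'⟩ }
  refine ⟨W, ?_, fun w hw => hw.1, ?_, ?_⟩
  · intro a ha
    obtain ⟨v0, hv0⟩ := hC.lift a (hVA ha)
    have hk : σ (tau û v0) = 1 := by rw [map_tau, hû, hv0]; exact hfpf a ha
    refine ⟨v0 * tau û v0, ⟨?_, ?_⟩, ?_⟩
    · rw [map_mul, hk, mul_one, hv0]; exact ha
    · rw [tau_mul_central û v0 _ (hC.central _ hk)]
      have h2 := hC.pow _ hk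
      calc tau û v0 * (tau û v0) ^ 3 = ((tau û v0) ^ 2) ^ 2 := by group
        _ = 1 := by rw [h2, one_pow]
    · rw [map_mul, hk, mul_one, hv0]
  · intro w hw hw1
    have h3 : w ^ 3 = 1 := by
      rw [← tau_central û w (hC.central _ hw1)]; exact hw.2
    exact eq_one_of_pow w (hC.pow _ hw1) h3
  · intro g hgV hgu w hw
    refine ⟨?_, ?_⟩
    · rw [map_mul, map_mul, map_inv]; exact hgV _ hw.1
    · have hp : (g * û * g⁻¹) ^ 3 = 1 := by rw [conj_pow, hû3, mul_one, mul_inv_cancel]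
      rcases hgu with h | h
      · have e : g * û * g⁻¹ = û := lift_unique3 hC (by
          rw [map_mul, map_mul, map_inv, hû, h]) hp hû3
        rw [tau_conj g û w e, hw.2, mul_one, mul_inv_cancel]
      · have e : g * û * g⁻¹ = û⁻¹ := lift_unique3 hC (by
          rw [map_mul, map_mul, map_inv, map_inv, hû, h]) hp (by rw [inv_pow, hû3, inv_one])
        rw [tau_conj' g û w e (hcomm _ _ (hc1 _ hw.1) (hc2 _ hw.1)), hw.2, mul_one,
          mul_inv_cancel]

end two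

section chains
variable {Γ X : Type*} [Group Γ] [Group X] {σ : Γ →* X} {A : Subgroup X}

theorem sq_of_mul_self {a : Γ} (h : a * a = 1) : a ^ 2 = 1 := by rw [pow_two, h]

theorem conj_eq_of_comm {a b : Γ} (h : a * b = b * a) : a * b * a⁻¹ = b := by
  rw [h, mul_inv_cancel_right]

/-- the dihedral chain -/
theorem good_D8 (H : Hinv σ) (W : Subgroup Γ) (s t : Γ) (hs : σ s * σ s = 1)
    (ht : σ t * σ t = 1) (hc : σ (s * t * s * t) * σ (s * t * s * t) = 1)
    (hsc : σ s * σ (s * t * s * t) = σ (s * t * s * t) * σ s)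
    (htc : σ t * σ (s * t * s * t) = σ (s * t * s * t) * σ t)
    (hWs : ∀ w ∈ W, s * w * s⁻¹ ∈ W) (hWt : ∀ w ∈ W, t * w * t⁻¹ ∈ W) :
    Good W [(t, 2), (s, 2), (s * t * s * t, 2)] := by
  have s2 := H s hs
  have t2 := H t ht
  have c2 := H _ hc
  have sc := H.comm hs hc hsc
  have tc := H.comm ht hc htc
  refine ⟨by norm_num, sq_of_mul_self t2, ?_, ?_, by norm_num, sq_of_mul_self s2, ?_, ?_,
    by norm_num, sq_of_mul_self c2, ?_, ?_, trivial⟩
  · intro n hn
    exact le_cl _ _ (hWt n hn)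
  · intro g hg
    simp only [List.mem_cons, List.not_mem_nil, or_false] at hg
    rcases hg with rfl | rfl
    · have e : t * s * t⁻¹ = s * (s * t * s * t) := by
        have ti : t⁻¹ = t := inv_eq_of_mul_eq_one_left t2
        rw [ti]
        calc t * s * t = (s * s) * (t * s * t) := by rw [s2, one_mul]
          _ = s * (s * t * s * t) := by group
      show t * s * t⁻¹ ∈ _
      rw [e]
      exact mul_mem (mem_cl W (e := (s, 2)) (by simp)) (mem_cl W (e := (s * t * s * t, 2)) (by simp))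
    · show t * (s * t * s * t) * t⁻¹ ∈ _
      rw [conj_eq_of_comm tc]
      exact mem_cl W (e := (s * t * s * t, 2)) (by simp)
  · intro n hn
    exact le_cl _ _ (hWs n hn)
  · intro g hg
    simp only [List.mem_cons, List.not_mem_nil, or_false] at hg
    subst hg
    show s * (s * t * s * t) * s⁻¹ ∈ _
    rw [conj_eq_of_comm sc]
    exact mem_cl W (e := (s * t * s * t, 2)) (by simp)
  · intro n hn
    have e : s * t * s * t * n * (s * t * s * t)⁻¹ =
        s * (t * (s * (t * n * t⁻¹) * s⁻¹) * t⁻¹) * s⁻¹ := by group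
    rw [e]
    exact hWs _ (hWt _ (hWs _ (hWt _ hn)))
  · intro g hg
    cases hg

theorem good_D8x2 (H : Hinv σ) (W : Subgroup Γ) (s t r : Γ) (hs : σ s * σ s = 1)
    (ht : σ t * σ t = 1) (hr : σ r * σ r = 1)
    (hc : σ (s * t * s * t) * σ (s * t * s * t) = 1)
    (hsc : σ s * σ (s * t * s * t) = σ (s * t * s * t) * σ s)
    (htc : σ t * σ (s * t * s * t) = σ (s * t * s * t) * σ t)
    (hrs : σ r * σ s = σ s * σ r) (hrt : σ r * σ t = σ t * σ r)
    (hWs : ∀ w ∈ W, s * w * s⁻¹ ∈ W) (hWt : ∀ w ∈ W, t * w * t⁻¹ ∈ W)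
    (hWr : ∀ w ∈ W, r * w * r⁻¹ ∈ W) :
    Good W [(r, 2), (t, 2), (s, 2), (s * t * s * t, 2)] := by
  have r2 := H r hr
  have rs : Commute r s := H.comm hr hs hrs
  have rt : Commute r t := H.comm hr ht hrt
  have rc : Commute r (s * t * s * t) := ((rs.mul_right rt).mul_right rs).mul_right rt
  refine ⟨by norm_num, sq_of_mul_self r2, ?_, ?_, good_D8 H W s t hs ht hc hsc htc hWs hWt⟩
  · intro n hn
    exact le_cl _ _ (hWr n hn)
  · intro g hg
    simp only [List.mem_cons, List.not_mem_nil, or_false] at hg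
    rcases hg with rfl | rfl | rfl
    · show r * t * r⁻¹ ∈ _
      rw [conj_eq_of_comm rt.eq]
      exact mem_cl W (e := (t, 2)) (by simp)
    · show r * s * r⁻¹ ∈ _
      rw [conj_eq_of_comm rs.eq]
      exact mem_cl W (e := (s, 2)) (by simp)
    · show r * (s * t * s * t) * r⁻¹ ∈ _
      rw [conj_eq_of_comm rc.eq]
      exact mem_cl W (e := (s * t * s * t, 2)) (by simp)

theorem card_W_le [Finite X] (V : Subgroup X) (W : Subgroup Γ) (h1 : ∀ w ∈ W, σ w ∈ V)
    (h2 : ∀ w ∈ W, σ w = 1 → w = 1) : Nat.card W ≤ Nat.card V := by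
  apply Nat.card_le_card_of_injective (fun w : W => (⟨σ w.1, h1 _ w.2⟩ : V))
  intro a b e
  have e' : σ a.1 = σ b.1 := congrArg Subtype.val e
  have : a.1 * b.1⁻¹ = 1 := h2 _ (mul_mem a.2 (inv_mem b.2)) (by
    rw [map_mul, map_inv, e', mul_inv_cancel])
  exact Subtype.ext (mul_inv_eq_one.1 this)

end chains

section parity
variable {Γ X : Type*} [Group Γ] [Group X] {σ : Γ →* X} {A : Subgroup X}

theorem sq_eq_of_conj (hC : Cov σ A 2) {γ δ : Γ} {h : X} (hh : h ∈ A)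
    (e : σ γ = h * σ δ * h⁻¹) (hδ : σ (δ * δ) = 1) : γ * γ = δ * δ := by
  obtain ⟨g, rfl⟩ := hC.lift h hh
  have hk : σ ((g * δ * g⁻¹)⁻¹ * γ) = 1 := by
    rw [map_mul, map_inv, e, map_mul, map_mul, map_inv, inv_mul_cancel]
  set k := (g * δ * g⁻¹)⁻¹ * γ with hkdef
  have eγ : γ = g * δ * g⁻¹ * k := by rw [hkdef]; group
  have hkc := hC.central _ hk
  have hk2 : k * k = 1 := by rw [← pow_two]; exact hC.pow _ hk
  have hd := hC.central _ hδ
  calc γ * γ = g * δ * g⁻¹ * k * (g * δ * g⁻¹ * k) := by rw [← eγ]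
    _ = g * δ * g⁻¹ * (k * (g * δ * g⁻¹)) * k := by group
    _ = g * δ * g⁻¹ * ((g * δ * g⁻¹) * k) * k := by rw [← hkc (g * δ * g⁻¹)]
    _ = g * (δ * δ) * g⁻¹ * (k * k) := by group
    _ = δ * δ := by rw [hk2, mul_one, hd g, mul_inv_cancel_right]

theorem pure7 {w a b c : Γ} (hw : ∀ g, g * w = w * g) (hw2 : w * w = 1) (ha : a * a = w)
    (hb : b * b = w) (hc : c * c = w) (hab : (a * b) * (a * b) = w)
    (hac : (a * c) * (a * c) = w) (hbc : (b * c) * (b * c) = w)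
    (habc : (a * b * c) * (a * b * c) = w) : w = 1 := by
  have key : ∀ x y : Γ, x * x = w → y * y = w → (x * y) * (x * y) = w → y * x = x * y * w := by
    intro x y hx hy hxy
    have h1 : x * (y * x) * y = w := by rw [← hxy]; group
    have h2 : x * (x * y * w) * y = w := by
      calc x * (x * y * w) * y = (x * x) * (y * w) * y := by group
        _ = (x * x) * (w * y) * y := by rw [hw y]
        _ = (x * x) * w * (y * y) := by group
        _ = w := by rw [hx, hy, hw2, one_mul]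
    have h3 : x * (y * x) * y = x * (x * y * w) * y := by rw [h1, h2]
    exact mul_left_cancel (mul_right_cancel h3)
  have kab := key a b ha hb hab
  have kac := key a c ha hc hac
  have kbc := key b c hb hc hbc
  have : (a * b * c) * (a * b * c) = 1 := by
    calc (a * b * c) * (a * b * c) = a * b * (c * a) * b * c := by group
      _ = a * b * (a * c * w) * b * c := by rw [kac]
      _ = a * (b * a) * c * (w * b) * c := by group
      _ = a * (a * b * w) * c * (b * w) * c := by rw [kab, hw b]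
      _ = a * a * b * (w * c) * b * (w * c) := by group
      _ = a * a * b * (c * w) * b * (c * w) := by rw [hw c]
      _ = a * a * b * c * (w * b) * c * w := by group
      _ = a * a * b * c * (b * w) * c * w := by rw [hw b]
      _ = a * a * b * (c * b) * (w * c) * w := by group
      _ = a * a * b * (b * c * w) * (c * w) * w := by rw [kbc, hw c]
      _ = (a * a) * (b * b) * c * (w * c) * (w * w) := by group
      _ = (a * a) * (b * b) * c * (c * w) * (w * w) := by rw [hw c]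
      _ = (a * a) * (b * b) * (c * c) * w * (w * w) := by group
      _ = 1 := by rw [ha, hb, hc, hw2, one_mul, mul_one, hw2]
  rw [← habc, this]

theorem six_one {a b c : Γ} (ha : a * a = 1) (hb : b * b = 1) (hc : c * c = 1)
    (hab : (a * b) * (a * b) = 1) (hac : (a * c) * (a * c) = 1) (hbc : (b * c) * (b * c) = 1) :
    (a * b * c) * (a * b * c) = 1 := by
  have key : ∀ x y : Γ, x * x = 1 → y * y = 1 → (x * y) * (x * y) = 1 → y * x = x * y := by
    intro x y hx hy hxy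
    have e1 : x⁻¹ = x := inv_eq_of_mul_eq_one_left hx
    have e2 : y⁻¹ = y := inv_eq_of_mul_eq_one_left hy
    have e3 : (x * y)⁻¹ = x * y := inv_eq_of_mul_eq_one_left hxy
    rw [← e3, mul_inv_rev, e1, e2]
  have kab := key a b ha hb hab
  have kac := key a c ha hc hac
  have kbc := key b c hb hc hbc
  calc (a * b * c) * (a * b * c) = a * b * (c * a) * b * c := by group
    _ = a * (b * a) * (c * b) * c := by rw [kac]; group
    _ = (a * a) * (b * b) * (c * c) := by rw [kab, kbc]; group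
    _ = 1 := by rw [ha, hb, hc, one_mul, one_mul]

end parity

end Cfsg.Agent.Lib.Helper28.Schur
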