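import Mathlib
import Cfsg.Agent.Lib.Helper28.Schur3

set_option autoImplicit false

/-! Elementary abelian subgroups given by generators; the prime 3; semidihedral Sylow subgroups. -/

namespace Cfsg.Agent.Lib.Helper28.Schur

open Subgroup
open scoped commutatorElement

section elem
variable {X : Type*} [Group X]

/-- subgroup generated by a list -/
def clo (l : List X) : Subgroup X := Subgroup.closure {x | x ∈ l}

theorem mem_clo {l : List X} {a : X} (h : a ∈ l) : a ∈ clo l := Subgroup.subset_closure h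

theorem clo_le {l : List X} {M : Subgroup X} (h : ∀ a ∈ l, a ∈ M) : clo l ≤ M :=
  (Subgroup.closure_le _).2 h

theorem clo_comm {l : List X} (hc : ∀ a ∈ l, ∀ b ∈ l, a * b = b * a) :
    ∀ a ∈ clo l, ∀ b ∈ clo l, a * b = b * a := by
  intro a ha b hb
  have : Commute a b := by
    induction ha, hb using Subgroup.closure_induction₂ with
    | mem a b ha hb => exact hc a ha b hb
    | one_left a ha => exact Commute.one_left _
    | one_right a ha => exact Commute.one_right _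
    | mul_left a b c ha hb hc' h1 h2 => exact h1.mul_left h2
    | mul_right b c a hb hc' ha h1 h2 => exact h1.mul_right h2
    | inv_left a b ha hb h => exact h.inv_left
    | inv_right a b ha hb h => exact h.inv_right
  exact this

theorem clo_sq {l : List X} (hc : ∀ a ∈ l, ∀ b ∈ l, a * b = b * a) (h2 : ∀ a ∈ l, a * a = 1) :
    ∀ a ∈ clo l, a * a = 1 := by
  intro a ha
  induction ha using Subgroup.closure_induction with
  | mem a ha => exact h2 a ha
  | one => exact one_mul 1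
  | mul a b ha hb h1 h2' =>
    have : Commute a b := clo_comm hc a ha b hb
    rw [this.symm.mul_mul_mul_comm, h1, h2', one_mul]
  | inv a ha h =>
    rw [← mul_inv_rev, h, inv_one]

theorem clo_conj {l : List X} (g : X) (M : Subgroup X) (h : ∀ a ∈ l, g * a * g⁻¹ ∈ M) :
    ∀ a ∈ clo l, g * a * g⁻¹ ∈ M := by
  have : clo l ≤ M.comap (MulAut.conj g).toMonoidHom := clo_le h
  intro a ha
  exact this ha

theorem clo_tau {l : List X} (hc : ∀ a ∈ l, ∀ b ∈ l, a * b = b * a) (h2 : ∀ a ∈ l, a * a = 1)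
    (u : X) (hu : ∀ a ∈ l, u * a * u⁻¹ ∈ clo l) (hu' : ∀ a ∈ l, u⁻¹ * a * u ∈ clo l)
    (ht : ∀ a ∈ l, tau u a = 1) : ∀ a ∈ clo l, tau u a = 1 := by
  have c1 := clo_conj u (clo l) hu
  have c2 : ∀ a ∈ clo l, u⁻¹ * a * u ∈ clo l := by
    have := clo_conj u⁻¹ (clo l) (by simpa using hu')
    simpa using this
  have hcm := clo_comm hc
  intro a ha
  induction ha using Subgroup.closure_induction with
  | mem a ha => exact ht a ha
  | one => exact tau_one u
  | mul a b ha hb h1 h2' =>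
    rw [tau_mul u a b (hcm _ hb _ (c1 _ ha)) (hcm _ hb _ (c2 _ ha)) (hcm _ (c1 _ hb) _ (c2 _ ha)),
      h1, h2', one_mul]
  | inv a ha h =>
    have : a⁻¹ = a := inv_eq_of_mul_eq_one_left (clo_sq hc h2 a ha)
    rw [this, h]

theorem good_comm {l : List X} (hc : ∀ a ∈ l, ∀ b ∈ l, a * b = b * a) (h2 : ∀ a ∈ l, a * a = 1) :
    Good (⊥ : Subgroup X) (l.map fun x => (x, 2)) := by
  induction l with
  | nil => trivial
  | cons a l ih =>
    refine ⟨by norm_num, ?_, ?_, ?_, ih (fun x hx y hy => hc x (List.mem_cons_of_mem _ hx) y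
      (List.mem_cons_of_mem _ hy)) (fun x hx => h2 x (List.mem_cons_of_mem _ hx))⟩
    · show a ^ 2 = 1
      rw [pow_two]; exact h2 a List.mem_cons_self
    · intro n hn
      rw [Subgroup.mem_bot] at hn
      subst hn
      show a * 1 * a⁻¹ ∈ _
      rw [mul_one, mul_inv_cancel]; exact one_mem _
    · intro g hg
      obtain ⟨x, hx, rfl⟩ := List.mem_map.1 hg
      show a * x * a⁻¹ ∈ _
      rw [hc a List.mem_cons_self x (List.mem_cons_of_mem _ hx), mul_inv_cancel_right]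
      exact mem_cl _ hg

theorem card_clo_le [Finite X] {l : List X} (hc : ∀ a ∈ l, ∀ b ∈ l, a * b = b * a)
    (h2 : ∀ a ∈ l, a * a = 1) : Nat.card (clo l) ≤ 2 ^ l.length := by
  have h1 : clo l ≤ cl ⊥ (l.map fun x => (x, 2)) := by
    apply clo_le
    intro a ha
    exact mem_cl ⊥ (e := (a, 2)) (List.mem_map.2 ⟨a, ha, rfl⟩)
  have h3 := card_cl_le ⊥ _ (good_comm hc h2)
  have h4 : ((l.map fun x => (x, 2)).map Prod.snd).prod = 2 ^ l.length := by
    rw [List.map_map]
    have : (Prod.snd ∘ fun x : X => (x, 2)) = fun _ => 2 := rfl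
    rw [this, List.map_const', List.prod_replicate]
  rw [h4, Subgroup.card_bot, mul_one] at h3
  exact (Subgroup.card_le_of_le h1).trans h3

end elem

section three
variable {Γ X : Type*} [Group Γ] [Group X] {σ : Γ →* X} {A : Subgroup X}

theorem Cov.mem_center {p : ℕ} (hC : Cov σ A p) {k : Γ} (hk : σ k = 1) :
    k ∈ Subgroup.center Γ := Subgroup.mem_center_iff.2 (hC.central k hk)

theorem conj_commutator (n a b : Γ) : n * ⁅a, b⁆ * n⁻¹ = ⁅n * a * n⁻¹, n * b * n⁻¹⁆ := by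
  simp only [commutatorElement_def]; group

/-- a central commutator that is inverted must be trivial -/
theorem comm_inv_aux (hC : Cov σ A 3) {n a b : Γ} (hk : σ ⁅a, b⁆ = 1)
    (ha : σ (n * a * n⁻¹) = σ a⁻¹) (hb : σ (n * b * n⁻¹) = σ b) : ⁅a, b⁆ = 1 := by
  have hc := hC.central _ hk
  have e1 : n * ⁅a, b⁆ * n⁻¹ = ⁅a, b⁆ := by rw [hc n, mul_inv_cancel_right]
  have k1 : σ (a * (n * a * n⁻¹)) = 1 := by rw [map_mul, ha, map_inv, mul_inv_cancel]
  have k2 : σ (b⁻¹ * (n * b * n⁻¹)) = 1 := by rw [map_mul, hb, map_inv, inv_mul_cancel]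
  have e2 : ⁅n * a * n⁻¹, n * b * n⁻¹⁆ = ⁅a⁻¹, b⁆ := by
    have := commutatorElement_central (a := a⁻¹) (b := b) (hC.mem_center k1) (hC.mem_center k2)
    rwa [inv_mul_cancel_left, mul_inv_cancel_left] at this
  have e3 : ⁅a⁻¹, b⁆ = a⁻¹ * ⁅a, b⁆⁻¹ * a := by
    simp only [commutatorElement_def]; group
  have e4 : a⁻¹ * ⁅a, b⁆⁻¹ * a = ⁅a, b⁆⁻¹ := by
    have hc' : a⁻¹ * ⁅a, b⁆⁻¹ = ⁅a, b⁆⁻¹ * a⁻¹ := by
      rw [← mul_inv_rev, ← mul_inv_rev, hc a]
    rw [hc', inv_mul_cancel_right]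
  have e5 : ⁅a, b⁆ = ⁅a, b⁆⁻¹ := by
    rw [← e4, ← e3, ← e2, ← conj_commutator, e1]
  have h2 : ⁅a, b⁆ ^ 2 = 1 := by
    rw [pow_two]
    nth_rewrite 1 [e5]
    exact inv_mul_cancel _
  exact eq_one_of_pow _ h2 (hC.pow _ hk)

/-- abelian Sylow 3-subgroup of rank two with a reflection in its normaliser -/
theorem three_abelian [Finite Γ] (hC : Cov σ A 3) {n x y : Γ} (hk : σ ⁅x, y⁆ = 1)
    (hx : σ (n * x * n⁻¹) = σ x⁻¹) (hy : σ (n * y * n⁻¹) = σ y) :
    ∀ q ∈ ⁅Subgroup.closure {x, y}, Subgroup.closure {x, y}⁆, q = 1 := by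
  have h1 := comm_inv_aux hC hk hx hy
  have h2 := commutator_pair_le x y ⊥ (by rw [h1]; exact one_mem _)
    (by
      intro n hn
      rw [Subgroup.mem_bot] at hn
      rw [hn, mul_one, mul_inv_cancel]; exact one_mem _)
    (by
      intro n hn
      rw [Subgroup.mem_bot] at hn
      rw [hn, mul_one, mul_inv_cancel]; exact one_mem _)
  intro q hq
  exact Subgroup.mem_bot.1 (h2 hq)

theorem cube_aux (x y c : Γ) (hxy : x * y = c * y * x) (h1 : x * c = c * x) :
    x ^ 3 * y = c ^ 3 * (y * x ^ 3) := by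
  calc x ^ 3 * y = x * x * (x * y) := by simp only [pow_succ, pow_zero, one_mul, mul_assoc]
    _ = x * x * (c * y * x) := by rw [hxy]
    _ = x * (x * c) * y * x := by group
    _ = x * (c * x) * y * x := by rw [h1]
    _ = (x * c) * (x * y) * x := by group
    _ = (c * x) * (c * y * x) * x := by rw [h1, hxy]
    _ = c * (x * c) * y * x * x := by group
    _ = c * (c * x) * y * x * x := by rw [h1]
    _ = c * c * (x * y) * x * x := by group
    _ = c * c * (c * y * x) * x * x := by rw [hxy]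
    _ = c ^ 3 * (y * x ^ 3) := by simp only [pow_succ, pow_zero, one_mul, mul_assoc]

/-- extraspecial Sylow 3-subgroup of order 27 with an element inverting its Frattini quotient -/
theorem three_extraspecial [Finite Γ] (hC : Cov σ A 3) {n x y : Γ}
    (hxc : σ ⁅x, ⁅x, y⁆⁆ = 1) (hyc : σ ⁅y, ⁅x, y⁆⁆ = 1)
    (hx : σ (n * x * n⁻¹) = σ x⁻¹) (hy : σ (n * y * n⁻¹) = σ y⁻¹)
    (hc : σ (n * ⁅x, y⁆ * n⁻¹) = σ ⁅x, y⁆) (hx3 : σ (x ^ 3) = 1) (hc1 : σ ⁅x, y⁆ ≠ 1) :
    ∀ q ∈ ⁅Subgroup.closure {x, y}, Subgroup.closure {x, y}⁆, σ q = 1 → q = 1 := by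
  have h1 := comm_inv_aux hC hxc hx hc
  have h2 := comm_inv_aux hC hyc hy hc
  rw [commutatorElement_eq_one_iff_mul_comm] at h1 h2
  set c := ⁅x, y⁆ with hcdef
  have hxy : x * y = c * y * x := by
    rw [hcdef, commutatorElement_def]; group
  have hc3 : c ^ 3 = 1 := by
    have e : x ^ 3 * y = c ^ 3 * (y * x ^ 3) := cube_aux x y c hxy h1
    rw [← hC.central _ hx3 y] at e
    exact (mul_eq_right.1 e.symm)
  have hconj : ∀ g : Γ, g * c = c * g → ∀ m ∈ Subgroup.zpowers c, g * m * g⁻¹ ∈ Subgroup.zpowers c := by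
    intro g hg m hm
    obtain ⟨i, rfl⟩ := Subgroup.mem_zpowers_iff.1 hm
    have : Commute g (c ^ i) := (show Commute g c from hg).zpow_right i
    rw [this.eq, mul_inv_cancel_right]
    exact hm
  have h3 := commutator_pair_le x y (Subgroup.zpowers c) (Subgroup.mem_zpowers c)
    (hconj x h1) (hconj y h2)
  intro q hq hq1
  obtain ⟨i, rfl⟩ := Subgroup.mem_zpowers_iff.1 (h3 hq)
  have ho : orderOf (σ c) = 3 := by
    apply orderOf_eq_prime _ hc1
    rw [← map_pow, hc3, map_one]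
  rw [map_zpow, ← orderOf_dvd_iff_zpow_eq_one, ho] at hq1
  obtain ⟨j, rfl⟩ := hq1
  rw [zpow_mul]
  rw [zpow_natCast, hc3, one_zpow]

end three

end Cfsg.Agent.Lib.Helper28.Schur
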