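import Mathlib
import Cfsg.Agent.Lib.Helper28.Schur4

set_option autoImplicit false

/-! Central extensions of a semidihedral group of order 16. -/

namespace Cfsg.Agent.Lib.Helper28.Schur

open Subgroup
open scoped commutatorElement

variable {Γ X : Type*} [Group Γ] [Group X] {σ : Γ →* X} {A : Subgroup X}

theorem conj_mul' (b x y : Γ) : b * (x * y) * b⁻¹ = (b * x * b⁻¹) * (b * y * b⁻¹) := by group

theorem sd16_aux {a b k : Γ} (hk : ∀ g, g * k = k * g) (hA : b * a * b⁻¹ = a ^ 3 * k)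
    (hbb : ∀ g, g * (b * b) = b * b * g) :
    ⁅b, a⁆ = a ^ 2 * k ∧ b * (a ^ 2 * k) * b⁻¹ = (a ^ 2 * k) ^ 3 ∧ (a ^ 2 * k) ^ 4 = 1 := by
  have hka : ∀ n : ℕ, Commute (a ^ n) k := fun n => hk (a ^ n)
  have hbk : b * k * b⁻¹ = k := by rw [hk b, mul_inv_cancel_right]
  have conjpow : ∀ n : ℕ, b * a ^ n * b⁻¹ = a ^ (3 * n) * k ^ n := by
    intro n
    rw [← conj_pow, hA, (hka 3).mul_pow, ← pow_mul]
  refine ⟨?_, ?_, ?_⟩
  · rw [commutatorElement_def, hA, mul_assoc, ← hk a⁻¹, ← mul_assoc]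
    congr 1
    rw [pow_succ a 2, mul_inv_cancel_right]
  · rw [conj_mul', conjpow 2, hbk, (hka 2).mul_pow, ← pow_mul, mul_assoc, ← pow_succ]
  · have e1 : b * (b * a * b⁻¹) * b⁻¹ = a := by
      calc b * (b * a * b⁻¹) * b⁻¹ = (b * b) * a * (b * b)⁻¹ := by group
        _ = a := by rw [← hbb a, mul_inv_cancel_right]
    rw [hA, conj_mul', conjpow 3, hbk, mul_assoc, ← pow_succ] at e1
    have e2 : a * (a ^ 8 * k ^ 4) = a := by
      rw [← mul_assoc, ← pow_succ' a 8]
      exact e1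
    rw [(hka 2).mul_pow, ← pow_mul]
    exact mul_eq_left.1 e2

/-- a central extension of a semidihedral group of order 16 meets its kernel trivially in the
commutator subgroup -/
theorem sd16 [Finite Γ] {p : ℕ} (hC : Cov σ A p) {a b : Γ} (hab : σ (b * a * b⁻¹) = σ (a ^ 3))
    (hb2 : σ (b * b) = 1) (ho : orderOf (σ a) = 8) :
    ∀ q ∈ ⁅Subgroup.closure {b, a}, Subgroup.closure {b, a}⁆, σ q = 1 → q = 1 := by
  have hk : σ ((a ^ 3)⁻¹ * (b * a * b⁻¹)) = 1 := by rw [map_mul, map_inv, hab, inv_mul_cancel]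
  obtain ⟨h1, h2, h3⟩ := sd16_aux (a := a) (b := b) (hC.central _ hk)
    (by rw [mul_inv_cancel_left]) (hC.central _ hb2)
  set k := (a ^ 3)⁻¹ * (b * a * b⁻¹) with hkdef
  set d := a ^ 2 * k with hd
  have had : Commute a d := by
    have : Commute a k := hC.central _ hk a
    exact ((Commute.refl a).pow_right 2).mul_right this
  have hN := commutator_pair_le b a (Subgroup.zpowers d) (by rw [h1]; exact Subgroup.mem_zpowers d)
    (by
      intro m hm
      obtain ⟨i, rfl⟩ := Subgroup.mem_zpowers_iff.1 hm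
      rw [← conj_zpow, h2]
      exact Subgroup.zpow_mem _ (Subgroup.pow_mem _ (Subgroup.mem_zpowers d) 3) i)
    (by
      intro m hm
      obtain ⟨i, rfl⟩ := Subgroup.mem_zpowers_iff.1 hm
      rw [(had.zpow_right i).eq, mul_inv_cancel_right]
      exact hm)
  intro q hq hq1
  obtain ⟨i, rfl⟩ := Subgroup.mem_zpowers_iff.1 (hN hq)
  have hσd : σ d = σ a ^ 2 := by rw [hd, map_mul, hk, mul_one, map_pow]
  have ho4 : orderOf (σ d) = 4 := by
    rw [hσd, orderOf_pow' _ (by norm_num), ho]; rfl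
  rw [map_zpow, ← orderOf_dvd_iff_zpow_eq_one, ho4] at hq1
  obtain ⟨j, rfl⟩ := hq1
  rw [zpow_mul, zpow_natCast, h3, one_zpow]

end Cfsg.Agent.Lib.Helper28.Schur
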