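import Mathlib
import Cfsg.Agent.Lib.Helper28.Schur4

set_option autoImplicit false

/-! Multipliers of order two: the reduction, and complements over homocyclic subgroups. -/

namespace Cfsg.Agent.Lib.Helper28.Schur

open Subgroup
open scoped commutatorElement

universe u

section cards
variable {Γ : Type*} {G : Type*} [Group Γ] [Group G]

theorem card_eq_mul_ker [Finite Γ] {σ : Γ →* G} (hs : Function.Surjective σ) :
    Nat.card Γ = Nat.card G * Nat.card σ.ker := by
  rw [Subgroup.card_eq_card_quotient_mul_card_subgroup σ.ker,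
    Nat.card_congr (QuotientGroup.quotientKerEquivOfSurjective σ hs).toEquiv]

theorem card_ker_lift [Finite Γ] [Finite G] {σ : Γ →* G} (hs : Function.Surjective σ)
    (L : Subgroup Γ) [L.Normal] (hL : ∀ x ∈ L, σ x = 1) :
    Nat.card σ.ker = Nat.card (QuotientGroup.lift L σ hL).ker * Nat.card L := by
  have h1 := card_eq_mul_ker hs
  have hs' : Function.Surjective (QuotientGroup.lift L σ hL) := by
    intro g
    obtain ⟨x, rfl⟩ := hs g
    exact ⟨QuotientGroup.mk x, rfl⟩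
  have h2 := card_eq_mul_ker hs'
  have h3 := Subgroup.card_eq_card_quotient_mul_card_subgroup L
  rw [h2, h1, mul_assoc] at h3
  exact Nat.eq_of_mul_eq_mul_left Nat.card_pos h3

theorem normal_of_central {L : Subgroup Γ} (h : L ≤ Subgroup.center Γ) : L.Normal := by
  constructor
  intro y hy g
  have := Subgroup.mem_center_iff.1 (h hy)
  rw [this g, mul_inv_cancel_right]
  exact hy

end cards

section reduction2

theorem card_ker_le_two {G : Type u} [Group G] [Finite G]
    (hodd : ∀ (p : ℕ) (Γ : Type u) [Group Γ] [Finite Γ] (σ : Γ →* G), p.Prime → p ≠ 2 →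
      IsStemExtension σ → Nat.card σ.ker = p → False)
    (h4 : ∀ (Γ : Type u) [Group Γ] [Finite Γ] (σ : Γ →* G), IsStemExtension σ →
      Nat.card σ.ker = 4 → False) :
    ∀ (n : ℕ) (Γ : Type u) [Group Γ] [Finite Γ] (σ : Γ →* G), IsStemExtension σ →
      Nat.card Γ = n → Nat.card σ.ker ≤ 2 := by
  intro n
  induction n using Nat.strong_induction_on with
  | _ n ih =>
    intro Γ _ _ σ hσ hn
    by_contra hgt
    obtain ⟨p, hp, hpd, hpref⟩ :
        ∃ p, p.Prime ∧ p ∣ Nat.card σ.ker ∧ (2 ∣ Nat.card σ.ker → p = 2) := by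
      by_cases h2 : 2 ∣ Nat.card σ.ker
      · exact ⟨2, Nat.prime_two, h2, fun _ => rfl⟩
      · obtain ⟨p, hp, hpd⟩ := Nat.exists_prime_and_dvd (show Nat.card σ.ker ≠ 1 by omega)
        exact ⟨p, hp, hpd, fun h => absurd h h2⟩
    have : Fact p.Prime := ⟨hp⟩
    obtain ⟨⟨x, hxK⟩, hx⟩ := exists_prime_orderOf_dvd_card' p hpd
    rw [Subgroup.orderOf_mk] at hx
    have hLK : Subgroup.zpowers x ≤ σ.ker := by
      rw [Subgroup.zpowers_le]; exact hxK
    have : (Subgroup.zpowers x).Normal := normal_of_central (hLK.trans hσ.2.1)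
    have hcardL : Nat.card (Subgroup.zpowers x) = p := by rw [Nat.card_zpowers, hx]
    have hlt : Nat.card (Γ ⧸ Subgroup.zpowers x) < n := by
      have := Subgroup.card_eq_card_quotient_mul_card_subgroup (Subgroup.zpowers x)
      rw [hcardL, hn] at this
      have hpos : 0 < Nat.card (Γ ⧸ Subgroup.zpowers x) := Nat.card_pos
      have := hp.two_le
      nlinarith
    have hq := ih _ hlt (Γ ⧸ Subgroup.zpowers x)
      (QuotientGroup.lift (Subgroup.zpowers x) σ (fun y hy => hLK hy))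
      (stem_quotient hσ _ _) rfl
    have hc := card_ker_lift hσ.1 (Subgroup.zpowers x) (fun y hy => hLK hy)
    rw [hcardL] at hc
    have hk'pos : 0 < Nat.card
        (QuotientGroup.lift (Subgroup.zpowers x) σ (fun y hy => hLK hy)).ker := Nat.card_pos
    generalize Nat.card
        (QuotientGroup.lift (Subgroup.zpowers x) σ (fun y hy => hLK hy)).ker = k' at hq hc hk'pos
    by_cases h2 : 2 ∣ Nat.card σ.ker
    · have hp2 := hpref h2
      rw [hp2] at hc
      exact h4 Γ σ hσ (by omega)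
    · have hk1 : k' = 1 := by
        rcases (by omega : k' = 1 ∨ k' = 2) with h | h
        · exact h
        · exfalso
          apply h2
          rw [hc, h]
          exact Dvd.intro _ rfl
      have hp2 : p ≠ 2 := by
        rintro rfl
        exact h2 hpd
      exact hodd p Γ σ hp hp2 hσ (by rw [hc, hk1, one_mul])

theorem cyclic2_multiplier {G : Type u} [Group G] [Finite G]
    (hcov : ∃ (Γ : Type u) (_ : Group Γ) (_ : Finite Γ) (σ : Γ →* G),
      IsStemExtension σ ∧ Nat.card σ.ker = 2)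
    (hodd : ∀ (p : ℕ) (Γ : Type u) [Group Γ] [Finite Γ] (σ : Γ →* G), p.Prime → p ≠ 2 →
      IsStemExtension σ → Nat.card σ.ker = p → False)
    (h4 : ∀ (Γ : Type u) [Group Γ] [Finite Γ] (σ : Γ →* G), IsStemExtension σ →
      Nat.card σ.ker = 4 → False) : HasCyclicSchurMultiplier G 2 := by
  haveI : Fact (Nat.Prime 2) := ⟨Nat.prime_two⟩
  have hZ : Nat.card (Multiplicative (ZMod 2)) = 2 := by
    rw [Nat.card_eq_fintype_card]; rfl
  constructor
  · obtain ⟨Γ, i1, i2, σ, hσ, hc⟩ := hcov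
    exact ⟨Γ, i1, i2, σ, hσ, ⟨mulEquivOfPrimeCardEq hc hZ⟩⟩
  · intro Γ _ _ σ hσ
    have hle := card_ker_le_two hodd h4 _ Γ σ hσ rfl
    have hpos : 0 < Nat.card σ.ker := Nat.card_pos
    rcases (by omega : Nat.card σ.ker = 1 ∨ Nat.card σ.ker = 2) with h | h
    · refine ⟨1, ?_⟩
      haveI : Subsingleton σ.ker := (Nat.card_eq_one_iff_unique.1 h).1
      intro x
      exact ⟨1, Subsingleton.elim _ _⟩
    · exact ⟨(mulEquivOfPrimeCardEq hZ h).toMonoidHom, (mulEquivOfPrimeCardEq hZ h).surjective⟩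

theorem four_of_two {G : Type u} [Group G] [Finite G] (a b : G) (hab : a * b = b * a)
    (hb : b * b = 1)
    (h2 : ∀ (Γ : Type u) [Group Γ] [Finite Γ] (σ : Γ →* G), IsStemExtension σ →
      Nat.card σ.ker = 2 → ∀ x y : Γ, σ x = a → σ y = b → x * y = y * x → False) :
    ∀ (Γ : Type u) [Group Γ] [Finite Γ] (σ : Γ →* G), IsStemExtension σ →
      Nat.card σ.ker = 4 → False := by
  intro Γ _ _ σ hσ hK
  obtain ⟨x, hx⟩ := hσ.1 a
  obtain ⟨y, hy⟩ := hσ.1 b
  obtain ⟨c, hc⟩ : ∃ c, c = ⁅x, y⁆ := ⟨_, rfl⟩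
  have hcK : c ∈ σ.ker := by
    rw [MonoidHom.mem_ker, hc, map_commutatorElement, hx, hy,
      commutatorElement_eq_one_iff_mul_comm]
    exact hab
  have hcc := Subgroup.mem_center_iff.1 (hσ.2.1 hcK)
  have hyy : y * y ∈ σ.ker := by rw [MonoidHom.mem_ker, map_mul, hy, hb]
  have hyc := Subgroup.mem_center_iff.1 (hσ.2.1 hyy)
  have hxy : x * y = y * x * c := by
    rw [hcc, hc, commutatorElement_def]; group
  have hc2 : c * c = 1 := by
    have e1 : x * y * x⁻¹ = c * y := by rw [hc, commutatorElement_def]; group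
    have e2 : x * (y * y) * x⁻¹ = (c * y) * (c * y) := by rw [← e1]; group
    rw [hyc x, mul_inv_cancel_right] at e2
    have e3 : (c * y) * (c * y) = (c * c) * (y * y) := by
      calc c * y * (c * y) = c * (y * c) * y := by group
        _ = c * (c * y) * y := by rw [hcc y]
        _ = (c * c) * (y * y) := by group
    rw [e3] at e2
    exact mul_eq_right.1 e2.symm
  obtain ⟨l, hlK, hl2, hcl⟩ : ∃ l ∈ σ.ker, orderOf l = 2 ∧ c ∈ Subgroup.zpowers l := by
    by_cases h1 : c = 1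
    · have : Fact (Nat.Prime 2) := ⟨Nat.prime_two⟩
      obtain ⟨⟨l, hl⟩, ho⟩ := exists_prime_orderOf_dvd_card' (G := σ.ker) 2 (by rw [hK]; norm_num)
      rw [Subgroup.orderOf_mk] at ho
      exact ⟨l, hl, ho, by rw [h1]; exact one_mem _⟩
    · have : Fact (Nat.Prime 2) := ⟨Nat.prime_two⟩
      exact ⟨c, hcK, orderOf_eq_prime (by rw [pow_two]; exact hc2) h1, Subgroup.mem_zpowers c⟩
  have hLK : Subgroup.zpowers l ≤ σ.ker := by
    rw [Subgroup.zpowers_le]; exact hlK
  haveI : (Subgroup.zpowers l).Normal := normal_of_central (hLK.trans hσ.2.1)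
  have hcard := card_ker_lift hσ.1 (Subgroup.zpowers l) (fun y hy => hLK hy)
  rw [Nat.card_zpowers, hl2, hK] at hcard
  apply h2 (Γ ⧸ Subgroup.zpowers l) (QuotientGroup.lift (Subgroup.zpowers l) σ (fun y hy => hLK hy))
    (stem_quotient hσ _ _) (by omega) (QuotientGroup.mk x) (QuotientGroup.mk y) hx hy
  symm
  rw [← QuotientGroup.mk_mul, ← QuotientGroup.mk_mul, QuotientGroup.eq, hxy, inv_mul_cancel_left]
  exact hcl

end reduction2

section homocyclic
variable {X : Type*} [Group X]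

theorem clo_tau' {l : List X} (hc : ∀ a ∈ l, ∀ b ∈ l, a * b = b * a)
    (u : X) (hu : ∀ a ∈ l, u * a * u⁻¹ ∈ clo l) (hu' : ∀ a ∈ l, u⁻¹ * a * u ∈ clo l)
    (ht : ∀ a ∈ l, tau u a = 1) : ∀ a ∈ clo l, tau u a = 1 := by
  have c1 := clo_conj u (clo l) hu
  have c2 : ∀ a ∈ clo l, u⁻¹ * a * u ∈ clo l := by
    have := clo_conj u⁻¹ (clo l) (by simpa using hu')
    simpa using this
  have hcm := clo_comm hc
  intro a ha
  induction ha using Subgroup.closure_induction with
  | mem a ha => exact ht a ha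
  | one => exact tau_one u
  | mul a b ha hb h1 h2' =>
    rw [tau_mul u a b (hcm _ hb _ (c1 _ ha)) (hcm _ hb _ (c2 _ ha)) (hcm _ (c1 _ hb) _ (c2 _ ha)),
      h1, h2', one_mul]
  | inv a ha h =>
    have hai : a⁻¹ ∈ clo l := inv_mem ha
    have := tau_mul u a a⁻¹ (hcm _ hai _ (c1 _ ha)) (hcm _ hai _ (c2 _ ha))
      (hcm _ (c1 _ hai) _ (c2 _ ha))
    rw [mul_inv_cancel, tau_one, h, one_mul] at this
    exact this.symm

theorem card_clo_pair_le [Finite X] {a b : X} {m n : ℕ} (hm : 0 < m) (hn : 0 < n)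
    (hab : a * b = b * a) (ha : a ^ m = 1) (hb : b ^ n = 1) : Nat.card (clo [a, b]) ≤ m * n := by
  have hG : Good (⊥ : Subgroup X) [(a, m), (b, n)] := by
    refine ⟨hm, ha, ?_, ?_, hn, hb, ?_, ?_, trivial⟩
    · intro k hk
      rw [Subgroup.mem_bot] at hk
      subst hk
      show a * 1 * a⁻¹ ∈ _
      rw [mul_one, mul_inv_cancel]; exact one_mem _
    · intro g hg
      rw [List.mem_singleton] at hg
      subst hg
      show a * b * a⁻¹ ∈ _
      rw [hab, mul_inv_cancel_right]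
      exact mem_cl _ (e := (b, n)) (by simp)
    · intro k hk
      rw [Subgroup.mem_bot] at hk
      subst hk
      show b * 1 * b⁻¹ ∈ _
      rw [mul_one, mul_inv_cancel]; exact one_mem _
    · intro g hg
      cases hg
  have h1 : clo [a, b] ≤ cl ⊥ [(a, m), (b, n)] := clo_le (by
    intro x hx
    simp only [List.mem_cons, List.not_mem_nil, or_false] at hx
    rcases hx with rfl | rfl
    · exact mem_cl ⊥ (e := (x, m)) (by simp)
    · exact mem_cl ⊥ (e := (x, n)) (by simp))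
  have h3 := card_cl_le ⊥ _ hG
  simp only [List.map_cons, List.map_nil, List.prod_cons, List.prod_nil, Subgroup.card_bot,
    mul_one] at h3
  exact (Subgroup.card_le_of_le h1).trans h3

theorem comm_of_inverted {s e f : X} (hs : s * s = 1) (he : (e * s) * (e * s) = 1)
    (hf : (f * s) * (f * s) = 1) (hef : (e * f * s) * (e * f * s) = 1) : e * f = f * e := by
  have key : ∀ g : X, (g * s) * (g * s) = 1 → s * g * s = g⁻¹ := by
    intro g hg
    have : g * (s * g * s) = 1 := by rw [← hg]; group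
    exact eq_inv_of_mul_eq_one_right this
  have h1 := key e he
  have h2 := key f hf
  have h3 := key (e * f) hef
  have h4 : s * (e * f) * s = (s * e * s) * (s * f * s) := by
    calc s * (e * f) * s = s * e * 1 * f * s := by group
      _ = s * e * (s * s) * f * s := by rw [hs]
      _ = (s * e * s) * (s * f * s) := by group
  rw [h3, h1, h2, mul_inv_rev] at h4
  have := congrArg (·⁻¹) h4
  simpa [mul_inv_rev] using this

end homocyclic

section lifts
variable {Γ X : Type*} [Group Γ] [Group X] {σ : Γ →* X} {A : Subgroup X}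

theorem lift_comm {p : ℕ} (hC : Cov σ A p) {l : List Γ} (hc : ∀ a ∈ l, ∀ b ∈ l, a * b = b * a) :
    ∀ v w : Γ, σ v ∈ clo (l.map σ) → σ w ∈ clo (l.map σ) → Commute v w := by
  have hmap : clo (l.map σ) = (clo l).map σ := by
    unfold clo
    rw [MonoidHom.map_closure]
    congr 1
    ext x
    simp [List.mem_map]
  intro v w hv hw
  rw [hmap] at hv hw
  obtain ⟨v', hv', ev⟩ := hv
  obtain ⟨w', hw', ew⟩ := hw
  have kv : σ (v'⁻¹ * v) = 1 := by rw [map_mul, map_inv, ev, inv_mul_cancel]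
  have kw : σ (w'⁻¹ * w) = 1 := by rw [map_mul, map_inv, ew, inv_mul_cancel]
  have e1 : v = v' * (v'⁻¹ * v) := by group
  have e2 : w = w' * (w'⁻¹ * w) := by group
  have c0 : Commute v' w' := clo_comm hc v' hv' w' hw'
  have cv : ∀ g, Commute g (v'⁻¹ * v) := fun g => hC.central _ kv g
  have cw : ∀ g, Commute g (w'⁻¹ * w) := fun g => hC.central _ kw g
  rw [e1, e2]
  exact (c0.mul_right (cw _)).mul_left (cv _).symm

theorem exists_W' (hC : Cov σ A 2) (V : Subgroup X) (hVA : V ≤ A)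
    (hcomm : ∀ v w : Γ, σ v ∈ V → σ w ∈ V → Commute v w) (u : X) (huA : u ∈ A)
    (hu3 : u ^ 3 = 1) (huV : ∀ a ∈ V, u * a * u⁻¹ ∈ V) (huV' : ∀ a ∈ V, u⁻¹ * a * u ∈ V)
    (hfpf : ∀ a ∈ V, tau u a = 1) :
    ∃ W : Subgroup Γ, (∀ a ∈ V, ∃ w ∈ W, σ w = a) ∧ (∀ w ∈ W, σ w ∈ V) ∧
      (∀ w ∈ W, σ w = 1 → w = 1) ∧
      (∀ g : Γ, (∀ a ∈ V, σ g * a * (σ g)⁻¹ ∈ V) →
        (σ g * u * (σ g)⁻¹ = u ∨ σ g * u * (σ g)⁻¹ = u⁻¹) → ∀ w ∈ W, g * w * g⁻¹ ∈ W) := by
  obtain ⟨u0, hu0⟩ := hC.lift u huA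
  have hκ : σ (u0 ^ 3) = 1 := by rw [map_pow, hu0, hu3]
  obtain ⟨û, hû, hû3⟩ : ∃ û : Γ, σ û = u ∧ û ^ 3 = 1 := by
    refine ⟨u0 * u0 ^ 3, by rw [map_mul, hκ, mul_one, hu0], ?_⟩
    have hcomm : Commute u0 (u0 ^ 3) := hC.central _ hκ u0
    rw [hcomm.mul_pow 3]
    have h2 := hC.pow _ hκ
    calc u0 ^ 3 * (u0 ^ 3) ^ 3 = ((u0 ^ 3) ^ 2) ^ 2 := by group
      _ = 1 := by rw [h2, one_pow]
  have hc1 : ∀ v : Γ, σ v ∈ V → σ (û * v * û⁻¹) ∈ V := by
    intro v hv
    rw [map_mul, map_mul, map_inv, hû]; exact huV _ hv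
  have hc2 : ∀ v : Γ, σ v ∈ V → σ (û⁻¹ * v * û) ∈ V := by
    intro v hv
    rw [map_mul, map_mul, map_inv, hû]; exact huV' _ hv
  let W : Subgroup Γ :=
    { carrier := {v | σ v ∈ V ∧ tau û v = 1}
      one_mem' := ⟨by rw [map_one]; exact one_mem _, tau_one _⟩
      mul_mem' := by
        rintro a b ⟨ha, ha'⟩ ⟨hb, hb'⟩
        refine ⟨by rw [map_mul]; exact mul_mem ha hb, ?_⟩
        rw [tau_mul û a b (hcomm _ _ hb (hc1 _ ha)) (hcomm _ _ hb (hc2 _ ha))
          (hcomm _ _ (hc1 _ hb) (hc2 _ ha)), ha', hb', one_mul]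
      inv_mem' := by
        rintro a ⟨ha, ha'⟩
        have hai : σ a⁻¹ ∈ V := by rw [map_inv]; exact inv_mem ha
        refine ⟨hai, ?_⟩
        have := tau_mul û a a⁻¹ (hcomm _ _ hai (hc1 _ ha)) (hcomm _ _ hai (hc2 _ ha))
          (hcomm _ _ (hc1 _ hai) (hc2 _ ha))
        rw [mul_inv_cancel, tau_one, ha', one_mul] at this
        exact this.symm }
  refine ⟨W, ?_, fun w hw => hw.1, ?_, ?_⟩
  · intro a ha
    obtain ⟨v0, hv0⟩ := hC.lift a (hVA ha)
    have hk : σ (tau û v0) = 1 := by rw [map_tau, hû, hv0]; exact hfpf a ha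
    refine ⟨v0 * tau û v0, ⟨?_, ?_⟩, ?_⟩
    · rw [map_mul, hk, mul_one, hv0]; exact ha
    · rw [tau_mul_central û v0 _ (hC.central _ hk)]
      have h2 := hC.pow _ hk
      calc tau û v0 * (tau û v0) ^ 3 = ((tau û v0) ^ 2) ^ 2 := by group
        _ = 1 := by rw [h2, one_pow]
    · rw [map_mul, hk, mul_one, hv0]
  · intro w hw hw1
    have h3 : w ^ 3 = 1 := by
      rw [← tau_central û w (hC.central _ hw1)]; exact hw.2
    exact eq_one_of_pow w (hC.pow _ hw1) h3
  · intro g hgV hgu w hw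
    refine ⟨?_, ?_⟩
    · rw [map_mul, map_mul, map_inv]; exact hgV _ hw.1
    · have hp : (g * û * g⁻¹) ^ 3 = 1 := by rw [conj_pow, hû3, mul_one, mul_inv_cancel]
      rcases hgu with h | h
      · have e : g * û * g⁻¹ = û := lift_unique3 hC (by
          rw [map_mul, map_mul, map_inv, hû, h]) hp hû3
        rw [tau_conj g û w e, hw.2, mul_one, mul_inv_cancel]
      · have e : g * û * g⁻¹ = û⁻¹ := lift_unique3 hC (by
          rw [map_mul, map_mul, map_inv, map_inv, hû, h]) hp (by rw [inv_pow, hû3, inv_one])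
        rw [tau_conj' g û w e (hcomm _ _ (hc1 _ hw.1) (hc2 _ hw.1)), hw.2, mul_one,
          mul_inv_cancel]

end lifts

end Cfsg.Agent.Lib.Helper28.Schur
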