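import Mathlib
import Cfsg.Agent.Lib.Helper28.Schur4
import Cfsg.Agent.Lib.Helper3.SylTab
import Cfsg.Agent.Lib.Helper3.SylGroups

set_option autoImplicit false

/-! Word tools for the Mathieu groups, and the bridge from stem extensions of a subgroup. -/

namespace Cfsg.Agent.Lib.Helper28.Schur

open Cfsg Cfsg.Agent.Lib.Helper3 Cfsg.Agent.Lib.Helper3.Syl
open scoped commutatorElement

section bridge
variable {Γ X : Type*} [Group Γ] [Group X] {A : Subgroup X}

theorem cov_of_stem [Finite Γ] {σ0 : Γ →* A} (hσ : IsStemExtension σ0) {p : ℕ}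
    (hK : Nat.card σ0.ker = p) : Cov (A.subtype.comp σ0) A p where
  lift := by
    intro g hg
    obtain ⟨γ, hγ⟩ := hσ.1 ⟨g, hg⟩
    exact ⟨γ, by simp [hγ]⟩
  range := fun γ => (σ0 γ).2
  central := by
    intro k hk
    have hk' : k ∈ σ0.ker := by
      rw [MonoidHom.mem_ker]
      exact Subtype.ext hk
    exact Subgroup.mem_center_iff.1 (hσ.2.1 hk')
  pow := by
    intro k hk
    have hk' : k ∈ σ0.ker := by
      rw [MonoidHom.mem_ker]
      exact Subtype.ext hk
    have := pow_card_eq_one' (G := σ0.ker) (x := ⟨k, hk'⟩)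
    rw [hK] at this
    exact congrArg Subtype.val this

theorem card_map_comp [Finite Γ] (σ0 : Γ →* A) (Q : Subgroup Γ) :
    Nat.card (Q.map (A.subtype.comp σ0)) = Nat.card (Q.map σ0) := by
  rw [← Subgroup.map_map, Subgroup.card_map_of_injective A.subtype_injective]

theorem false_of_complement' [Finite Γ] [Finite A] {σ0 : Γ →* A} (hσ : IsStemExtension σ0) {p : ℕ}
    (hp : p.Prime) (hK : Nat.card σ0.ker = p) (Q : Subgroup Γ) (n m : ℕ) (hQn : Nat.card Q ≤ n)
    (P : Subgroup X) (hP : Nat.card P = n) (hPQ : P ≤ Q.map (A.subtype.comp σ0))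
    (hG : Nat.card A = n * m) (hm : ¬ p ∣ m) : False := by
  apply false_of_complement hσ hp hK Q n m hQn _ hG hm
  rw [← card_map_comp, ← hP]
  have : Finite (Q.map (A.subtype.comp σ0)) := by
    have : Finite ((A.subtype.comp σ0) '' (Q : Set Γ)) := Finite.Set.finite_image _ _
    exact this
  exact Subgroup.card_le_of_le hPQ

theorem false_of_card' [Finite Γ] [Finite A] {σ0 : Γ →* A} (hσ : IsStemExtension σ0) {p : ℕ}
    (hp : p.Prime) (hK : Nat.card σ0.ker = p) (Q : Subgroup Γ) (n m : ℕ)
    (hn : Nat.card (Q.map (A.subtype.comp σ0)) = n) (hG : Nat.card A = n * m) (hm : ¬ p ∣ m)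
    (hQ : ∀ x ∈ ⁅Q, Q⁆, (A.subtype.comp σ0) x = 1 → x = 1) : False := by
  apply false_of_card hσ hp hK Q n m _ hG hm
  · intro x hx hxk
    apply hQ x hx
    rw [MonoidHom.mem_ker] at hxk
    simp [hxk]
  · rw [← card_map_comp, hn]

end bridge

section words

/-- two words act in the same way -/
def weq (a b : List ℕ) : Bool := (List.range 24).all fun i => wact a i == wact b i

theorem wperm_eq {a b : List ℕ} (h : weq a b = true) : wperm a = wperm b := by
  unfold weq at h
  simp only [List.all_eq_true, List.mem_range, beq_iff_eq] at h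
  apply Equiv.ext
  intro p
  apply idx_injective
  rw [idx_wperm, idx_wperm, h _ (idx_lt p)]

theorem wperm_nil : wperm [] = 1 := rfl

theorem wperm_eq_one {a : List ℕ} (h : weq a [] = true) : wperm a = 1 := wperm_eq h

def chkComm (ws : List (List ℕ)) : Bool := ws.all fun a => ws.all fun b => weq (a ++ b) (b ++ a)

def chkSq (ws : List (List ℕ)) : Bool := ws.all fun a => weq (a ++ a) []

def chkConj (g : List ℕ) (ws : List (List ℕ)) (tbl : List (List ℕ)) : Bool :=
  (List.range ws.length).all fun i =>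
    weq (g ++ ws.getD i [] ++ winv g) ((tbl.getD i []).flatMap fun j => ws.getD j [])

def chkTau (u : List ℕ) (ws : List (List ℕ)) : Bool :=
  ws.all fun a => weq (a ++ (u ++ a ++ winv u) ++ (winv u ++ a ++ u)) []

theorem chkComm_sound {ws : List (List ℕ)} (h : chkComm ws = true) :
    ∀ a ∈ ws.map wperm, ∀ b ∈ ws.map wperm, a * b = b * a := by
  unfold chkComm at h
  simp only [List.all_eq_true] at h
  intro a ha b hb
  obtain ⟨a, ha', rfl⟩ := List.mem_map.1 ha
  obtain ⟨b, hb', rfl⟩ := List.mem_map.1 hb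
  rw [← wperm_append, ← wperm_append]
  exact wperm_eq (h a ha' b hb')

theorem chkSq_sound {ws : List (List ℕ)} (h : chkSq ws = true) :
    ∀ a ∈ ws.map wperm, a * a = 1 := by
  unfold chkSq at h
  simp only [List.all_eq_true] at h
  intro a ha
  obtain ⟨a, ha', rfl⟩ := List.mem_map.1 ha
  rw [← wperm_append]
  exact wperm_eq_one (h a ha')

theorem chkConj_sound {g : List ℕ} {ws tbl : List (List ℕ)} (h : chkConj g ws tbl = true) :
    ∀ a ∈ ws.map wperm, wperm g * a * (wperm g)⁻¹ ∈ clo (ws.map wperm) := by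
  unfold chkConj at h
  simp only [List.all_eq_true, List.mem_range] at h
  intro a ha
  obtain ⟨a, ha', rfl⟩ := List.mem_map.1 ha
  obtain ⟨i, hi, rfl⟩ := List.mem_iff_getElem.1 ha'
  have := h i hi
  rw [List.getD_eq_getElem _ _ hi] at this
  rw [← wperm_winv, ← wperm_append, ← wperm_append, wperm_eq this]
  apply wperm_flatMap_mem
  intro w hw
  exact mem_clo (List.mem_map.2 ⟨w, hw, rfl⟩)

theorem chkTau_sound {u : List ℕ} {ws : List (List ℕ)} (h : chkTau u ws = true) :
    ∀ a ∈ ws.map wperm, tau (wperm u) a = 1 := by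
  unfold chkTau at h
  simp only [List.all_eq_true] at h
  intro a ha
  obtain ⟨a, ha', rfl⟩ := List.mem_map.1 ha
  unfold tau
  rw [← wperm_winv, ← wperm_append, ← wperm_append, ← wperm_append, ← wperm_append,
    ← wperm_append, ← wperm_append]
  exact wperm_eq_one (h a ha')

theorem isTab_of {ws : List (List ℕ)} {gt tabs : List ℕ} {par : List (ℕ × ℕ)}
    (h1 : chkGen ws gt = true) (h2 : chkClosed gt tabs = true) (h3 : chkPar gt tabs par = true)
    (h4 : chkCanon tabs = true) (h5 : nodupB tabs = true) : IsTab (SP ws) tabs :=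
  ⟨closed_sound h1 h2, par_sound h1 h3, h4, nodupB_sound h5⟩

theorem SP_le {ws : List (List ℕ)} {M : Subgroup (Equiv.Perm GolayPt)}
    (h : ∀ w ∈ ws, wperm w ∈ M) : SP ws ≤ M := by
  unfold SP
  rw [Subgroup.closure_le]
  rintro _ ⟨w, hw, rfl⟩
  exact h w hw

theorem mem_SP {ws : List (List ℕ)} {w : List ℕ} (h : w ∈ ws) : wperm w ∈ SP ws :=
  Subgroup.subset_closure ⟨w, h, rfl⟩

end words

end Cfsg.Agent.Lib.Helper28.Schur
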