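import Mathlib
import Cfsg.Agent.Lib.Helper28.SchurW
import Cfsg.Agent.Lib.Helper3.ClassThm

set_option autoImplicit false
set_option maxRecDepth 100000

/-! Small word lemmas shared by the files on `M23` and `M11`. -/

namespace Cfsg.Agent.Lib.Helper28.Schur.Cl

open Cfsg Cfsg.Agent.Lib.Helper3 Cfsg.Agent.Lib.Helper3.Syl Cfsg.Agent.Lib.Helper28.Schur
open scoped commutatorElement

theorem rel1 {a : List ℕ} (h : weq (a ++ a) [] = true) : wperm a * wperm a = 1 := by
  rw [← wperm_append]; exact wperm_eq_one h

theorem rel2 {a b : List ℕ} (h : weq (a ++ b) (b ++ a) = true) :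
    wperm a * wperm b = wperm b * wperm a := by
  rw [← wperm_append, ← wperm_append]; exact wperm_eq h

theorem comm_word (a b : List ℕ) : ⁅wperm a, wperm b⁆ = wperm (a ++ b ++ winv a ++ winv b) := by
  rw [commutatorElement_def, wperm_append, wperm_append, wperm_append, wperm_winv, wperm_winv]

theorem conj_word (a b : List ℕ) : wperm a * wperm b * (wperm a)⁻¹ = wperm (a ++ b ++ winv a) := by
  rw [wperm_append, wperm_append, wperm_winv]

theorem wperm_pt {e : List ℕ} {i j : ℕ} (hi : i < 24) (hj : j < 24) (h : wact e i = j) :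
    wperm e (pt i) = pt j := by
  apply idx_injective
  rw [idx_wperm, idx_pt hi, idx_pt hj, h]

theorem wperm_move {e : List ℕ} (h : ∀ i < 24, wact e i ≠ i) (p : GolayPt) : wperm e p ≠ p := by
  intro hp
  have := congrArg idx hp
  rw [idx_wperm] at this
  exact h _ (idx_lt p) this

theorem zB_free : ∀ p, wperm zBw p ≠ p := wperm_move (by decide +kernel)

theorem conj_fix_pt {k g z : Equiv.Perm GolayPt} (h : k * g * k⁻¹ = z) {p : GolayPt}
    (hp : g p = p) : z (k p) = k p := by
  rw [← h, Equiv.Perm.mul_apply, Equiv.Perm.mul_apply, Equiv.Perm.inv_def,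
    Equiv.symm_apply_apply, hp]

/-- a nontrivial involution -/
def chkI (e : List ℕ) : Bool :=
  weq (e ++ e) [] && (List.range 24).any (fun i => wact e i != i)

theorem wperm_ne_one {e : List ℕ} (h : (List.range 24).any (fun i => wact e i != i) = true) :
    wperm e ≠ 1 := by
  simp only [List.any_eq_true, List.mem_range, bne_iff_ne] at h
  obtain ⟨j, hj, hmove⟩ := h
  intro h0
  apply hmove
  have := idx_wperm e (pt j)
  rw [h0, Equiv.Perm.one_apply, idx_pt hj] at this
  exact this.symm

theorem chkI_sound {e : List ℕ} (h : chkI e = true) : wperm e * wperm e = 1 ∧ wperm e ≠ 1 := by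
  unfold chkI at h
  rw [Bool.and_eq_true] at h
  exact ⟨rel1 h.1, wperm_ne_one h.2⟩

theorem closure_pair_eq_SP (x y : List ℕ) :
    Subgroup.closure {wperm x, wperm y} = SP [x, y, winv x, winv y] := by
  apply le_antisymm
  · rw [Subgroup.closure_le]
    rintro a (rfl | rfl)
    · exact mem_SP (by simp)
    · exact mem_SP (by simp)
  · apply SP_le
    intro w hw
    simp only [List.mem_cons, List.not_mem_nil, or_false] at hw
    rcases hw with rfl | rfl | rfl | rfl
    · exact Subgroup.subset_closure (by simp)
    · exact Subgroup.subset_closure (by simp)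
    · rw [wperm_winv]; exact inv_mem (Subgroup.subset_closure (by simp))
    · rw [wperm_winv]; exact inv_mem (Subgroup.subset_closure (by simp))

theorem mem23 {w : List ℕ} (h : inG [23] 0 w = true) : wperm w ∈ Spor.M23 :=
  (desc23 _).2 (inG_sound (by simp) h)

theorem mem11 {w : List ℕ} (h : inG [0] 340831 w = true) : wperm w ∈ Spor.M11 :=
  (desc11 _).2 (inG_sound (by simp) h)

end Cfsg.Agent.Lib.Helper28.Schur.Cl
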