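import Mathlib
import Cfsg.Agent.Lib.Helper28.SchurD12

set_option autoImplicit false
set_option maxRecDepth 100000

namespace Cfsg.Agent.Lib.Helper28.Schur.C12

open Cfsg Cfsg.Agent.Lib.Helper3 Cfsg.Agent.Lib.Helper3.Syl

/-- a Hadamard matrix indexed by the dodecad of squares and its complement -/
def Htab : List ℕ := [0, 12717184, 15747072, 4900864, 1100928, 0, 10109952, 0, 11045888, 10666112, 0, 0, 6833280, 3803264, 0, 0, 14188672, 0, 7504896, 0, 0, 0, 0, 0]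
/-- sign vectors of the lifts of the transversal words -/
def sg : ℕ → List ℕ
  | 0 => [275204, 3985778, 15825224, 4900864, 1376132, 0, 10438424, 0, 11045888, 5848626, 0, 0, 7161752, 3807964, 0, 0, 2326066, 0, 9259960, 0, 0, 0, 0, 0]
  | 1 => [0, 0, 266578, 270922, 335956, 0, 78354, 0, 335956, 8478, 0, 0, 275204, 331790, 0, 0, 331790, 0, 275204, 0, 0, 0, 0, 0]
  | 2 => [0, 0, 0, 78152, 275204, 0, 4700, 0, 8478, 266578, 0, 0, 78152, 8478, 0, 0, 78354, 0, 335956, 0, 0, 0, 0, 0]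
  | 3 => [0, 0, 0, 0, 328472, 0, 78152, 0, 266578, 66374, 0, 0, 331790, 4700, 0, 0, 8478, 0, 328472, 0, 0, 0, 0, 0]
  | 4 => [0, 0, 0, 0, 0, 0, 4700, 0, 270922, 4700, 0, 0, 0, 66374, 0, 0, 270922, 0, 66374, 0, 0, 0, 0, 0]
  | _ => []
def t0 : ℕ := 6045476
def t1 : ℕ := 3797554

end Cfsg.Agent.Lib.Helper28.Schur.C12
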