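import Mathlib
import Cfsg.Agent.Lib.Helper28.SchurD12
import Cfsg.Agent.Lib.Helper28.SchurC
import Cfsg.Agent.Lib.Helper28.Schur6

set_option autoImplicit false
set_option maxRecDepth 100000

/-! Stem extensions of `M12`: the kernel has order at most two. -/

namespace Cfsg.Agent.Lib.Helper28.Schur.Cl

open Cfsg Cfsg.Agent.Lib.Helper3 Cfsg.Agent.Lib.Helper3.Syl Cfsg.Agent.Lib.Helper28.Schur
open scoped commutatorElement
open D12

theorem mem12 {w : List ℕ} (h : inG [] 340831 w = true) : wperm w ∈ Spor.M12 :=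
  (desc12 _).2 (inG_sound (by simp) h)

theorem pow4_word (a : List ℕ) : wperm a ^ 4 = wperm (a ++ a ++ a ++ a) := by
  simp only [wperm_append]
  norm_num [pow_succ, mul_assoc]

variable {Γ : Type*} [Group Γ] [Finite Γ]

theorem two12 (σ0 : Γ →* Spor.M12) (hσ : IsStemExtension σ0) (hK : Nat.card σ0.ker = 2)
    (x y : Γ) (hx : (σ0 x : Equiv.Perm GolayPt) = wperm p0w)
    (hy : (σ0 y : Equiv.Perm GolayPt) = wperm p1w) (hxy : x * y = y * x) : False := by
  have hC : Cov (Spor.M12.subtype.comp σ0) Spor.M12 2 := cov_of_stem hσ hK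
  set σ := Spor.M12.subtype.comp σ0 with hσdef
  have hx' : σ x = wperm p0w := hx
  have hy' : σ y = wperm p1w := hy
  obtain ⟨d1, hd1⟩ := hC.lift _ (mem12 (w := z1w) (by decide +kernel))
  obtain ⟨d2, hd2⟩ := hC.lift _ (mem12 (w := z2w) (by decide +kernel))
  have hd1s : σ (d1 * d1) = 1 := by
    rw [map_mul, hd1]; exact rel1 (by decide +kernel)
  have hd2s : σ (d2 * d2) = 1 := by
    rw [map_mul, hd2]; exact rel1 (by decide +kernel)
  have key1 : ∀ (c e : List ℕ) (γ : Γ), inG [] 340831 c = true →
      weq e (c ++ z1w ++ winv c) = true → σ γ = wperm e → γ * γ = d1 * d1 := by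
    intro c e γ hc he hγ
    apply sq_eq_of_conj hC (h := wperm c) (mem12 hc) _ hd1s
    rw [hγ, hd1, conj_word]
    exact wperm_eq he
  have key2 : ∀ (c e : List ℕ) (γ : Γ), inG [] 340831 c = true →
      weq e (c ++ z2w ++ winv c) = true → σ γ = wperm e → γ * γ = d2 * d2 := by
    intro c e γ hc he hγ
    apply sq_eq_of_conj hC (h := wperm c) (mem12 hc) _ hd2s
    rw [hγ, hd2, conj_word]
    exact wperm_eq he
  have hA1 : d1 * d1 = 1 := by
    have e1 := key1 c3_0 p0w x (by decide +kernel) (by decide +kernel) hx'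
    have e2 := key1 c3_1 p1w y (by decide +kernel) (by decide +kernel) hy'
    have e3 := key1 c3_2 (p0w ++ p1w) (x * y) (by decide +kernel) (by decide +kernel)
      (by rw [map_mul, hx', hy', wperm_append])
    have hw2 : d1 * d1 * (d1 * d1) = 1 := by
      rw [← pow_two]; exact hC.pow _ hd1s
    have h : (x * y) * (x * y) = (x * x) * (y * y) := by
      calc x * y * (x * y) = x * (y * x) * y := by group
        _ = x * (x * y) * y := by rw [hxy]
        _ = (x * x) * (y * y) := by group
    rw [e1, e2, e3, hw2] at h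
    exact h
  have hA2 : d2 * d2 = 1 := by
    obtain ⟨a, ha⟩ := hC.lift _ (mem12 (w := a1w) (by decide +kernel))
    obtain ⟨b, hb⟩ := hC.lift _ (mem12 (w := a2w) (by decide +kernel))
    obtain ⟨c, hc⟩ := hC.lift _ (mem12 (w := a3w) (by decide +kernel))
    have hw2 : d2 * d2 * (d2 * d2) = 1 := by
      rw [← pow_two]; exact hC.pow _ hd2s
    exact pure7 (hC.central _ hd2s) hw2
      (key2 c7_0 a1w a (by decide +kernel) (by decide +kernel) ha)
      (key2 c7_1 a2w b (by decide +kernel) (by decide +kernel) hb)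
      (key2 c7_2 a3w c (by decide +kernel) (by decide +kernel) hc)
      (key2 c7_3 (a1w ++ a2w) (a * b) (by decide +kernel) (by decide +kernel)
        (by rw [map_mul, ha, hb, wperm_append]))
      (key2 c7_4 (a1w ++ a3w) (a * c) (by decide +kernel) (by decide +kernel)
        (by rw [map_mul, ha, hc, wperm_append]))
      (key2 c7_5 (a2w ++ a3w) (b * c) (by decide +kernel) (by decide +kernel)
        (by rw [map_mul, hb, hc, wperm_append]))
      (key2 c7_6 (a1w ++ a2w ++ a3w) (a * b * c) (by decide +kernel) (by decide +kernel)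
        (by rw [map_mul, map_mul, ha, hb, hc, wperm_append, wperm_append]))
  obtain ⟨e, he⟩ := hC.lift _ (mem12 (w := ew) (by decide +kernel))
  obtain ⟨f, hf⟩ := hC.lift _ (mem12 (w := fw) (by decide +kernel))
  obtain ⟨s, hs⟩ := hC.lift _ (mem12 (w := sw) (by decide +kernel))
  obtain ⟨r, hr⟩ := hC.lift _ (mem12 (w := D12.rw) (by decide +kernel))
  have s2 : s * s = 1 := (key1 c_s sw s (by decide +kernel) (by decide +kernel) hs).trans hA1
  have r2 : r * r = 1 := (key1 c_r D12.rw r (by decide +kernel) (by decide +kernel) hr).trans hA1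
  have sr2 : (s * r) * (s * r) = 1 :=
    (key1 c_sr (sw ++ D12.rw) (s * r) (by decide +kernel) (by decide +kernel)
      (by rw [map_mul, hs, hr, wperm_append])).trans hA1
  have es2 : (e * s) * (e * s) = 1 :=
    (key2 c_es (ew ++ sw) (e * s) (by decide +kernel) (by decide +kernel)
      (by rw [map_mul, he, hs, wperm_append])).trans hA2
  have fs2 : (f * s) * (f * s) = 1 :=
    (key2 c_fs (fw ++ sw) (f * s) (by decide +kernel) (by decide +kernel)
      (by rw [map_mul, hf, hs, wperm_append])).trans hA2
  have efs2 : (e * f * s) * (e * f * s) = 1 :=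
    (key2 c_efs (ew ++ fw ++ sw) (e * f * s) (by decide +kernel) (by decide +kernel)
      (by rw [map_mul, map_mul, he, hf, hs, wperm_append, wperm_append])).trans hA2
  have hef : e * f = f * e := comm_of_inverted s2 es2 fs2 efs2
  have hlc : ∀ a ∈ [e, f], ∀ b ∈ [e, f], a * b = b * a := by
    intro a ha b hb
    simp only [List.mem_cons, List.not_mem_nil, or_false] at ha hb
    rcases ha with rfl | rfl <;> rcases hb with rfl | rfl <;>
      first | rfl | exact hef | exact hef.symm
  have hcomm := lift_comm hC hlc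
  have hmapl : [e, f].map σ = vws.map wperm := by simp [vws, he, hf]
  rw [hmapl] at hcomm
  have hc := chkComm_sound c1
  have hVA : clo (vws.map wperm) ≤ Spor.M12 := clo_le (by
    intro a ha
    simp only [vws, List.map_cons, List.map_nil, List.mem_cons, List.not_mem_nil, or_false] at ha
    rcases ha with rfl | rfl
    · exact mem12 (by decide +kernel)
    · exact mem12 (by decide +kernel))
  have hui : ∀ a ∈ vws.map wperm, (wperm uw)⁻¹ * a * wperm uw ∈ clo (vws.map wperm) := by
    have := chkConj_sound cui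
    rw [wperm_winv] at this
    simpa using this
  have hui' : ∀ a ∈ clo (vws.map wperm), (wperm uw)⁻¹ * a * wperm uw ∈ clo (vws.map wperm) := by
    intro a ha
    have := clo_conj (l := vws.map wperm) (wperm uw)⁻¹ (clo (vws.map wperm))
      (fun b hb => by rw [inv_inv]; exact hui b hb) a ha
    rwa [inv_inv] at this
  obtain ⟨W, hW1, hW2, hW3, hW4⟩ := exists_W' hC (clo (vws.map wperm)) hVA hcomm
    (wperm uw) (mem12 (by decide +kernel))
    (by
      rw [pow_succ, pow_two, ← wperm_append, ← wperm_append]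
      exact wperm_eq_one (by decide +kernel))
    (clo_conj _ _ (chkConj_sound cu)) hui'
    (clo_tau' hc _ (chkConj_sound cu) hui (chkTau_sound c3))
  have hWs : ∀ w ∈ W, s * w * s⁻¹ ∈ W := hW4 s
    (by rw [hs]; exact clo_conj _ _ (chkConj_sound cs))
    (by rw [hs, conj_word]; left; exact wperm_eq (by decide +kernel))
  have hWr : ∀ w ∈ W, r * w * r⁻¹ ∈ W := hW4 r
    (by rw [hr]; exact clo_conj _ _ (chkConj_sound cr))
    (by rw [hr, conj_word, ← wperm_winv]; right; exact wperm_eq (by decide +kernel))
  have hrs : r * s = s * r := by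
    have e1 : s⁻¹ = s := inv_eq_of_mul_eq_one_left s2
    have e2 : r⁻¹ = r := inv_eq_of_mul_eq_one_left r2
    have e3 : (s * r)⁻¹ = s * r := inv_eq_of_mul_eq_one_left sr2
    rw [← e3, mul_inv_rev, e1, e2]
  have hG : Good W [(r, 2), (s, 2)] := by
    refine ⟨by norm_num, sq_of_mul_self r2, ?_, ?_, by norm_num, sq_of_mul_self s2, ?_, ?_, trivial⟩
    · intro n hn
      exact le_cl _ _ (hWr n hn)
    · intro g hg
      rw [List.mem_singleton] at hg
      subst hg
      show r * s * r⁻¹ ∈ _
      rw [hrs, mul_inv_cancel_right]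
      exact mem_cl W (e := (s, 2)) (by simp)
    · intro n hn
      exact hWs n hn
    · intro g hg
      cases hg
  have hcard := card_cl_le W _ hG
  have hWV := card_W_le (clo (vws.map wperm)) W hW2 hW3
  have hV : Nat.card (clo (vws.map wperm)) ≤ 4 * 4 :=
    card_clo_pair_le (a := wperm ew) (b := wperm fw) (by norm_num) (by norm_num)
      (rel2 (by decide +kernel))
      (by rw [pow4_word]; exact wperm_eq_one (by decide +kernel))
      (by rw [pow4_word]; exact wperm_eq_one (by decide +kernel))
  have hQ : Nat.card (cl W [(r, 2), (s, 2)]) ≤ 64 := by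
    simp only [List.map_cons, List.map_nil, List.prod_cons, List.prod_nil] at hcard
    omega
  apply false_of_complement' hσ Nat.prime_two hK _ 64 1485 hQ (SP ws) card_P _
    (by rw [card12]; norm_num) (by norm_num)
  have hmemV : ∀ w ∈ vws, wperm w ∈ (cl W [(r, 2), (s, 2)]).map σ := by
    intro w hw
    obtain ⟨w', hw', e⟩ := hW1 (wperm w) (mem_clo (List.mem_map.2 ⟨w, hw, rfl⟩))
    exact ⟨w', le_cl _ _ hw', e⟩
  apply SP_le
  intro w hw
  simp only [ws, List.mem_cons, List.not_mem_nil, or_false] at hw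
  rcases hw with rfl | rfl | rfl | rfl | rfl | rfl
  · exact hmemV _ (by simp [vws])
  · exact hmemV _ (by simp [vws])
  · exact ⟨s, mem_cl W (e := (s, 2)) (by simp), hs⟩
  · exact ⟨r, mem_cl W (e := (r, 2)) (by simp), hr⟩
  · rw [wperm_winv]; exact inv_mem (hmemV _ (by simp [vws]))
  · rw [wperm_winv]; exact inv_mem (hmemV _ (by simp [vws]))

theorem three12 (σ0 : Γ →* Spor.M12) (hσ : IsStemExtension σ0) (hK : Nat.card σ0.ker = 3) :
    False := by
  have hC : Cov (Spor.M12.subtype.comp σ0) Spor.M12 3 := cov_of_stem hσ hK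
  set σ := Spor.M12.subtype.comp σ0 with hσdef
  obtain ⟨x, hx⟩ := hC.lift _ (mem12 (w := xw) (by decide +kernel))
  obtain ⟨y, hy⟩ := hC.lift _ (mem12 (w := yw) (by decide +kernel))
  obtain ⟨n, hn⟩ := hC.lift _ (mem12 (w := nw) (by decide +kernel))
  have hc : σ ⁅x, y⁆ = wperm (xw ++ yw ++ winv xw ++ winv yw) := by
    rw [map_commutatorElement, hx, hy, comm_word]
  apply false_of_card' hσ Nat.prime_three hK (Subgroup.closure {x, y}) 27 3520 _
    (by rw [card12]; norm_num) (by norm_num)
    (three_extraspecial hC (n := n) _ _ _ _ _ _ _)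
  · rw [← hσdef, MonoidHom.map_closure, Set.image_pair, hx, hy, closure_pair_eq_SP]
    exact card_P3
  · rw [map_commutatorElement, hc, hx, comm_word]
    exact wperm_eq_one (by decide +kernel)
  · rw [map_commutatorElement, hc, hy, comm_word]
    exact wperm_eq_one (by decide +kernel)
  · rw [map_mul, map_mul, map_inv, map_inv, hn, hx, conj_word, ← wperm_winv]
    exact wperm_eq (by decide +kernel)
  · rw [map_mul, map_mul, map_inv, map_inv, hn, hy, conj_word, ← wperm_winv]
    exact wperm_eq (by decide +kernel)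
  · rw [map_mul, map_mul, map_inv, hn, hc, conj_word]
    exact wperm_eq (by decide +kernel)
  · rw [map_pow, hx, pow_succ, pow_two, ← wperm_append, ← wperm_append]
    exact wperm_eq_one (by decide +kernel)
  · rw [hc]
    exact wperm_ne_one (by decide +kernel)

end Cfsg.Agent.Lib.Helper28.Schur.Cl
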