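import Mathlib
import Cfsg.Agent.Lib.Helper28.SchurCovD
import Cfsg.Agent.Lib.Helper28.SchurM12
import Cfsg.Agent.Lib.Helper3.M12Chain

set_option autoImplicit false
set_option maxRecDepth 100000

/-! A double cover of `M12`: signed automorphisms of a Hadamard matrix of order twelve whose rows
are indexed by the dodecad of squares and whose columns are indexed by its complement. -/

namespace Cfsg.Agent.Lib.Helper28.Schur.C12

open Cfsg Cfsg.Agent.Lib.Helper3 Cfsg.Agent.Lib.Helper3.Syl Cfsg.Agent.Lib.Helper28.Schur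
open Cfsg.Agent.Lib.Helper28.Schur.Cl
open scoped commutatorElement

/-- signed points -/
abbrev SX := GolayPt × Bool

def hdN (i j : ℕ) : Bool := (Htab.getD i 0).testBit j

def inD (a : GolayPt) : Bool := (340831 : ℕ).testBit (idx a)

def Phi (x y : SX) : Bool :=
  inD x.1 && !inD y.1 && xor (hdN (idx x.1) (idx y.1)) (xor x.2 y.2)

theorem perm_apply_inv {α : Type*} (f : Equiv.Perm α) (x : α) : f (f⁻¹ x) = x :=
  f.apply_symm_apply x

def Gam : Subgroup (Equiv.Perm GolayPt × Equiv.Perm SX) where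
  carrier := {p | p.1 ∈ Spor.M12 ∧ (∀ x, (p.2 x).1 = p.1 x.1) ∧
    ∀ x y, Phi (p.2 x) (p.2 y) = Phi x y}
  one_mem' := ⟨one_mem _, fun _ => rfl, fun _ _ => rfl⟩
  mul_mem' := by
    rintro p q ⟨hp1, hp2, hp3⟩ ⟨hq1, hq2, hq3⟩
    refine ⟨mul_mem hp1 hq1, fun x => ?_, fun x y => ?_⟩
    · show (p.2 (q.2 x)).1 = p.1 (q.1 x.1)
      rw [hp2, hq2]
    · show Phi (p.2 (q.2 x)) (p.2 (q.2 y)) = _
      rw [hp3, hq3]
  inv_mem' := by
    rintro p ⟨hp1, hp2, hp3⟩
    refine ⟨inv_mem hp1, fun x => ?_, fun x y => ?_⟩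
    · show (p.2⁻¹ x).1 = p.1⁻¹ x.1
      rw [Equiv.Perm.eq_inv_iff_eq, ← hp2, perm_apply_inv]
    · show Phi (p.2⁻¹ x) (p.2⁻¹ y) = Phi x y
      rw [← hp3, perm_apply_inv, perm_apply_inv]

def sig : Gam →* Spor.M12 :=
  ((MonoidHom.fst _ _).comp Gam.subtype).codRestrict Spor.M12 (fun p => p.2.1)

theorem sig_coe (p : Gam) : (sig p : Equiv.Perm GolayPt) = p.1.1 := rfl

def flip : Equiv.Perm SX where
  toFun x := (x.1, !x.2)
  invFun x := (x.1, !x.2)
  left_inv x := by simp
  right_inv x := by simp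

theorem flip_apply (x : SX) : flip x = (x.1, !x.2) := rfl

theorem zeta_mem : ((1 : Equiv.Perm GolayPt), flip) ∈ Gam := by
  refine ⟨one_mem _, fun _ => rfl, fun x y => ?_⟩
  simp only [Phi, flip_apply]
  cases x.2 <;> cases y.2 <;> rfl

def zeta : Gam := ⟨(1, flip), zeta_mem⟩

theorem fibre {m : Equiv.Perm SX} {g : Equiv.Perm GolayPt} (h : ∀ x, (m x).1 = g x.1)
    (a : GolayPt) (ε : Bool) : (m (a, !ε)).2 = !(m (a, ε)).2 := by
  by_contra hne
  have h2 : (m (a, !ε)).2 = (m (a, ε)).2 := by
    revert hne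
    cases (m (a, !ε)).2 <;> cases (m (a, ε)).2 <;> simp
  have h3 : m (a, !ε) = m (a, ε) := Prod.ext (by rw [h, h]) h2
  have h4 := congrArg Prod.snd (m.injective h3)
  revert h4
  cases ε <;> simp

theorem zeta_central (p : Gam) : p * zeta = zeta * p := by
  obtain ⟨⟨g, m⟩, hg, h2, h3⟩ := p
  apply Subtype.ext
  apply Prod.ext
  · show g * 1 = 1 * g
    rw [mul_one, one_mul]
  · show m * flip = flip * m
    apply Equiv.ext
    rintro ⟨a, ε⟩
    show m (a, !ε) = ((m (a, ε)).1, !(m (a, ε)).2)
    exact Prod.ext (by rw [h2, h2]) (fibre h2 a ε)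

theorem ker_cases (p : Gam) (hp : sig p = 1) : p = 1 ∨ p = zeta := by
  obtain ⟨⟨g, m⟩, hg, h2, h3⟩ := p
  have hg1 : g = 1 := congrArg Subtype.val hp
  subst hg1
  have h2' : ∀ x, (m x).1 = x.1 := h2
  have hB : ∀ a b, inD a = true → inD b = false → (m (a, false)).2 = (m (b, false)).2 := by
    intro a b ha hb
    have := h3 (a, false) (b, false)
    simp only [Phi, h2', ha, hb] at this
    revert this
    cases (m (a, false)).2 <;> cases (m (b, false)).2 <;>
      cases hdN (idx a) (idx b) <;> simp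
  have ha0 : inD (pt 0) = true := by
    unfold inD; rw [idx_pt (by norm_num)]; decide
  have hb0 : inD (pt 5) = false := by
    unfold inD; rw [idx_pt (by norm_num)]; decide
  have hconst : ∀ a, (m (a, false)).2 = (m (pt 0, false)).2 := by
    intro a
    by_cases ha : inD a = true
    · rw [hB a _ ha hb0, hB _ _ ha0 hb0]
    · rw [Bool.not_eq_true] at ha
      exact (hB _ a ha0 ha).symm
  have hform : ∀ a ε, m (a, ε) = (a, xor ε (m (pt 0, false)).2) := by
    intro a ε
    refine Prod.ext (h2' _) ?_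
    cases ε
    · show (m (a, false)).2 = _
      rw [hconst a]; simp
    · have := fibre h2 a false
      show (m (a, true)).2 = _
      have e : (m (a, !false)).2 = (m (a, true)).2 := rfl
      rw [← e, this, hconst a]; simp
  cases ht : (m (pt 0, false)).2
  · left
    apply Subtype.ext
    refine Prod.ext rfl ?_
    apply Equiv.ext
    rintro ⟨a, ε⟩
    show m (a, ε) = (a, ε)
    rw [hform, ht]; simp
  · right
    apply Subtype.ext
    refine Prod.ext rfl ?_
    apply Equiv.ext
    rintro ⟨a, ε⟩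
    show m (a, ε) = (a, !ε)
    rw [hform, ht]; simp

/-- the signed permutation with permutation part `g` and sign vector `t` -/
def sh (g : Equiv.Perm GolayPt) (t : ℕ) : Equiv.Perm SX where
  toFun x := (g x.1, xor x.2 (t.testBit (idx x.1)))
  invFun x := (g⁻¹ x.1, xor x.2 (t.testBit (idx (g⁻¹ x.1))))
  left_inv x := by simp
  right_inv x := by simp

theorem sh_apply (g : Equiv.Perm GolayPt) (t : ℕ) (x : SX) :
    sh g t x = (g x.1, xor x.2 (t.testBit (idx x.1))) := rfl

def chkLift (w : List ℕ) (t : ℕ) : Bool :=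
  inG [] 340831 w && (List.range 24).all fun i => (List.range 24).all fun j =>
    !((340831 : ℕ).testBit i) || (340831 : ℕ).testBit j ||
      (hdN (wact w i) (wact w j) == xor (hdN i j) (xor (t.testBit i) (t.testBit j)))

theorem lift_mem {w : List ℕ} {t : ℕ} (h : chkLift w t = true) :
    (wperm w, sh (wperm w) t) ∈ Gam := by
  unfold chkLift at h
  rw [Bool.and_eq_true] at h
  obtain ⟨h1, h2⟩ := h
  simp only [List.all_eq_true, List.mem_range] at h2
  have hm := mem12 h1
  have hD : ∀ p, (340831 : ℕ).testBit (wact w (idx p)) = (340831 : ℕ).testBit (idx p) := by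
    intro p
    rw [← idx_wperm]
    exact ((desc12 _).1 hm).2.2 p
  refine ⟨hm, fun _ => rfl, fun x y => ?_⟩
  have hxy := h2 _ (idx_lt x.1) _ (idx_lt y.1)
  simp only [Phi, sh_apply, inD, idx_wperm, hD]
  revert hxy
  generalize (340831 : ℕ).testBit (idx x.1) = A
  generalize (340831 : ℕ).testBit (idx y.1) = B
  generalize hdN (wact w (idx x.1)) (wact w (idx y.1)) = H1
  generalize hdN (idx x.1) (idx y.1) = H0
  generalize t.testBit (idx x.1) = Ta
  generalize t.testBit (idx y.1) = Tb
  generalize x.2 = ε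
  generalize y.2 = δ
  revert A B H1 H0 Ta Tb ε δ
  decide

def chkAll : Bool := (List.range 5).all fun k => (List.range 24).all fun i =>
  !((allow12 k).testBit i) || chkLift ((tr12 k).getD i []) ((sg k).getD i 0)

theorem chkAll_true : chkAll = true := by decide +kernel

theorem level12_word (k : ℕ) (hk : k < 5) (q : GolayPt)
    (hq : (allow12 k).testBit (idx q) = true) :
    wperm ((tr12 k).getD (idx q) []) ∈ L k ∧ wperm ((tr12 k).getD (idx q) []) q = bpt k := by
  have h := chk12_all k hk
  unfold chk12 at h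
  rw [List.all_eq_true] at h
  have h1 := h (idx q) (List.mem_range.mpr (idx_lt q))
  rw [hq] at h1
  simp only [Bool.not_true, Bool.false_or, Bool.and_eq_true, List.all_eq_true, List.mem_range,
    beq_iff_eq] at h1
  refine ⟨(mem_L _ _).2 ⟨wperm_mem _, ?_, ?_⟩, ?_⟩
  · intro j hj
    apply idx_injective
    rw [idx_wperm, idx_bpt]
    exact h1.1.1 j hj
  · apply mask_injective
    rw [mask_wperm_smul, D0, mask_unmask (by norm_num)]
    exact h1.2
  · apply idx_injective
    rw [idx_wperm, idx_bpt]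
    exact h1.1.2

theorem L_le (R : Subgroup (Equiv.Perm GolayPt))
    (hR : ∀ k < 5, ∀ i < 24, (allow12 k).testBit i = true → wperm ((tr12 k).getD i []) ∈ R) :
    ∀ d k : ℕ, k + d = 5 → L k ≤ R := by
  intro d
  induction d with
  | zero =>
    intro k hk
    have : k = 5 := by omega
    subst this
    rw [L5]; exact bot_le
  | succ d ih =>
    intro k hk g hg
    have hk5 : k < 5 := by omega
    have hg' := (mem_L k g).1 hg
    have hgi : g⁻¹ ∈ L k := inv_mem hg
    have hgi' := (mem_L k g⁻¹).1 hgi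
    have hq : (allow12 k).testBit (idx (g⁻¹ (bpt k))) = true := by
      apply allow12_spec k hk5 _ (idx_lt _)
      · have := (apply_mem_of_smul_eq hgi'.2.2).2 (bpt_mem_D0 k hk5)
        rwa [D0, mem_unmask] at this
      · intro j hj heq
        have h1 : g⁻¹ (bpt k) = g⁻¹ (bpt j) := by
          apply idx_injective; rw [heq, hgi'.2.1 j hj, idx_bpt]
        have := bpt_inj (by omega) (by omega) ((g⁻¹).injective h1)
        omega
    obtain ⟨hu, huq⟩ := level12_word k hk5 _ hq
    have huR := hR k hk5 _ (idx_lt _) hq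
    set u := wperm ((tr12 k).getD (idx (g⁻¹ (bpt k))) []) with hudef
    have hmem : g * u⁻¹ ∈ L (k + 1) := by
      rw [L_succ, Subgroup.mem_inf, MulAction.mem_stabilizer_iff]
      refine ⟨mul_mem hg (inv_mem hu), ?_⟩
      show g (u⁻¹ (bpt k)) = bpt k
      have : u⁻¹ (bpt k) = g⁻¹ (bpt k) := by
        rw [Equiv.Perm.inv_eq_iff_eq]; exact huq.symm
      rw [this, perm_apply_inv]
    have := mul_mem (ih (k + 1) (by omega) hmem) huR
    rwa [inv_mul_cancel_right] at this

theorem M12_eq_L0 : Spor.M12 = L 0 := by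
  rw [Spor.M12, sq_eq_D0]
  rfl

theorem sig_surjective : Function.Surjective sig := by
  have hle : L 0 ≤ Gam.map (MonoidHom.fst _ _) := by
    apply L_le _ _ 5 0 (by norm_num)
    intro k hk i hi hb
    have h := chkAll_true
    unfold chkAll at h
    simp only [List.all_eq_true, List.mem_range] at h
    have h1 := h k hk i hi
    rw [hb] at h1
    exact ⟨_, lift_mem (by simpa using h1), rfl⟩
  rintro ⟨g, hg⟩
  rw [M12_eq_L0] at hg
  obtain ⟨p, hp, e⟩ := hle hg
  exact ⟨⟨p, hp⟩, Subtype.ext e⟩

noncomputable def P0 : Gam := ⟨(wperm D12.p0w, sh (wperm D12.p0w) t0), lift_mem (by decide +kernel)⟩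
noncomputable def P1 : Gam := ⟨(wperm D12.p1w, sh (wperm D12.p1w) t1), lift_mem (by decide +kernel)⟩

theorem anti : ∀ i < 24, xor (t1.testBit i) (t0.testBit (wact D12.p1w i)) =
    !(xor (t0.testBit i) (t1.testBit (wact D12.p0w i))) := by decide +kernel

theorem comm_P : ⁅P0, P1⁆ = zeta := by
  rw [commutatorElement_def, mul_inv_eq_iff_eq_mul, mul_inv_eq_iff_eq_mul]
  have hc : wperm D12.p0w * wperm D12.p1w = wperm D12.p1w * wperm D12.p0w :=
    rel2 (by decide +kernel)
  apply Subtype.ext
  refine Prod.ext ?_ ?_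
  · show wperm D12.p0w * wperm D12.p1w = 1 * wperm D12.p1w * wperm D12.p0w
    rw [one_mul, hc]
  · show sh (wperm D12.p0w) t0 * sh (wperm D12.p1w) t1 =
      flip * sh (wperm D12.p1w) t1 * sh (wperm D12.p0w) t0
    apply Equiv.ext
    rintro ⟨a, ε⟩
    show sh (wperm D12.p0w) t0 (sh (wperm D12.p1w) t1 (a, ε)) =
      flip (sh (wperm D12.p1w) t1 (sh (wperm D12.p0w) t0 (a, ε)))
    simp only [sh_apply, flip_apply, idx_wperm]
    refine Prod.ext ?_ ?_
    · exact congrArg (fun f : Equiv.Perm GolayPt => f a) hc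
    · have := anti _ (idx_lt a)
      revert this
      show _ → xor (xor ε (t1.testBit (idx a))) (t0.testBit (wact D12.p1w (idx a))) =
        !(xor (xor ε (t0.testBit (idx a))) (t1.testBit (wact D12.p0w (idx a))))
      generalize t1.testBit (idx a) = A
      generalize t0.testBit (wact D12.p1w (idx a)) = B
      generalize t0.testBit (idx a) = C
      generalize t1.testBit (wact D12.p0w (idx a)) = D
      revert A B C D ε
      decide

theorem zeta_ne_one : zeta ≠ 1 := by
  intro h
  have h1 : flip = 1 := congrArg (fun p : Gam => p.1.2) h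
  have h2 := congrArg (fun f : Equiv.Perm SX => (f (pt 0, false)).2) h1
  simp [flip_apply] at h2

theorem sig_zeta : sig zeta = 1 := rfl

theorem sig_stem : IsStemExtension sig := by
  refine ⟨sig_surjective, ?_, ?_⟩
  · intro p hp
    rw [Subgroup.mem_center_iff]
    rcases ker_cases p hp with rfl | rfl
    · intro g; rw [mul_one, one_mul]
    · exact zeta_central
  · intro p hp
    rcases ker_cases p hp with rfl | rfl
    · exact one_mem _
    · rw [← comm_P]
      exact Subgroup.commutator_mem_commutator (Subgroup.mem_top _) (Subgroup.mem_top _)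

theorem card_ker : Nat.card sig.ker = 2 := by
  rw [Nat.card_eq_two_iff]
  refine ⟨1, ⟨zeta, sig_zeta⟩, ?_, ?_⟩
  · intro h
    exact zeta_ne_one (congrArg Subtype.val h).symm
  · ext ⟨p, hp⟩
    simp only [Set.mem_insert_iff, Set.mem_singleton_iff, Set.mem_univ, iff_true]
    rcases ker_cases p hp with rfl | rfl
    · left; rfl
    · right; rfl

instance : Finite Gam := inferInstance

end Cfsg.Agent.Lib.Helper28.Schur.C12
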