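import Mathlib
import Cfsg.Agent.Lib.Helper28.SchurW

set_option autoImplicit false
set_option maxRecDepth 100000

namespace Cfsg.Agent.Lib.Helper28.Schur.D11

open Cfsg Cfsg.Agent.Lib.Helper3 Cfsg.Agent.Lib.Helper3.Syl

def aw : List ℕ := [0, 0, 4, 0, 0, 4, 3, 4, 3, 1, 0, 0, 4, 0, 4, 4, 3, 2, 2, 0, 0, 4, 0, 4, 4, 0, 0, 2, 0, 4, 0, 0]
def bw : List ℕ := [1, 3, 3, 2, 0, 4, 4, 0, 2, 1, 4, 3, 3, 3, 3, 2, 3, 3, 3, 3, 4, 3, 4, 3, 3, 4, 4, 0, 2, 0]
def gt : List ℕ := [944399194160754855699880035276293184,
  222803950135927914560252560635343424,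
  464048263045862293366169316230437152]
def tabs : List ℕ := [984818244535754528103549039458486304,
  944399194160754855699880035276293184,
  222803950135927914560252560635343424,
  464048263045862293366169316230437152,
  464201371470185119031599356133362048,
  222795342583832981306099073760208064,
  222281836544808018187636607100754208,
  944413926459821981087552253644083616,
  464043351634677206108270153024254528,
  944287680521713354254954977057420416,
  464196460059000585103953815142671552,
  984365217902686453248235801272398976,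
  222273228992712531603207507778226560,
  984817008955239316910482038318174624,
  944293816565412651426207388111472672,
  984355386066803413838770983050249280]
def par : List (ℕ × ℕ) := [(0, 0), (0, 0), (0, 1), (0, 2), (1, 1), (1, 2), (2, 0), (2, 1), (3, 0), (3, 2), (4, 0), (4, 1), (5, 0), (5, 2), (6, 1), (10, 1)]
def xw : List ℕ := [4, 4, 0, 0, 4, 0, 4, 3, 2, 3, 3, 4, 3, 3, 2, 0, 4, 4, 3, 2, 0, 4, 0, 0, 0, 4, 0, 2, 0, 4, 4]
def yw : List ℕ := [1, 0, 4, 4, 0, 0, 2, 0, 1, 4, 4, 0, 0, 2, 0, 4, 0, 0, 2, 3, 3, 4, 3, 3, 2, 0, 4, 4, 3]
def nw : List ℕ := [4, 3, 2, 3, 3, 2, 3, 3, 2, 3, 4, 4, 4, 4, 0, 0, 2, 0, 4, 0, 0]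
def gt3 : List ℕ := [975288047478159425401548877949089056,
  816061783011650072799398389186036928,
  982053498306117882053864471818186848,
  311120420898571144304531474683926592]
def tabs3 : List ℕ := [984818244535754528103549039458486304,
  975288047478159425401548877949089056,
  816061783011650072799398389186036928,
  982053498306117882053864471818186848,
  311120420898571144304531474683926592,
  818218056837123202965680406768329856,
  317155705561079494526444166374822304,
  809418025944989318047331609917656320,
  320042145551982130541103166004830592]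
def par3 : List (ℕ × ℕ) := [(0, 0), (0, 0), (0, 1), (0, 2), (0, 3), (1, 1), (1, 3), (2, 2), (3, 3)]

def ws : List (List ℕ) := [bw, aw, winv bw, winv aw]
def ws3 : List (List ℕ) := [xw, yw, winv xw, winv yw]

theorem h1 : chkGen ws gt = true := by decide +kernel
theorem h2 : chkClosed gt tabs = true := by decide +kernel
theorem h3 : chkPar gt tabs par = true := by decide +kernel
theorem h4 : chkCanon tabs = true := by decide +kernel
theorem h5 : nodupB tabs = true := by decide +kernel
theorem h6 : tabs.length = 16 := by decide +kernel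
theorem k1 : chkGen ws3 gt3 = true := by decide +kernel
theorem k2 : chkClosed gt3 tabs3 = true := by decide +kernel
theorem k3 : chkPar gt3 tabs3 par3 = true := by decide +kernel
theorem k4 : chkCanon tabs3 = true := by decide +kernel
theorem k5 : nodupB tabs3 = true := by decide +kernel
theorem k6 : tabs3.length = 9 := by decide +kernel

theorem card_P : Nat.card (SP ws) = 16 := by
  rw [(isTab_of h1 h2 h3 h4 h5).card, h6]

theorem card_P3 : Nat.card (SP ws3) = 9 := by
  rw [(isTab_of k1 k2 k3 k4 k5).card, k6]

end Cfsg.Agent.Lib.Helper28.Schur.D11
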