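import Mathlib
import Cfsg.Agent.Lib.Helper28.SchurD11
import Cfsg.Agent.Lib.Helper28.SchurC
import Cfsg.Agent.Lib.Helper28.Schur5

set_option autoImplicit false
set_option maxRecDepth 100000

/-! The Schur multiplier of `M11` is trivial. -/

namespace Cfsg.Agent.Lib.Helper28.Schur.Cl

open Cfsg Cfsg.Agent.Lib.Helper3 Cfsg.Agent.Lib.Helper3.Syl Cfsg.Agent.Lib.Helper28.Schur
open scoped commutatorElement
open D11

variable {Γ : Type*} [Group Γ] [Finite Γ]

theorem orderOf_aw : orderOf (wperm aw) = 8 := by
  have h8 : wperm aw ^ (2 ^ 3) = 1 := by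
    have : wperm aw ^ (2 ^ 3) = wperm (aw ++ aw ++ aw ++ aw ++ aw ++ aw ++ aw ++ aw) := by
      simp only [wperm_append]
      norm_num [pow_succ, mul_assoc]
    rw [this]
    exact wperm_eq_one (by decide +kernel)
  have h4 : ¬ wperm aw ^ (2 ^ 2) = 1 := by
    have : wperm aw ^ (2 ^ 2) = wperm (aw ++ aw ++ aw ++ aw) := by
      simp only [wperm_append]
      norm_num [pow_succ, mul_assoc]
    rw [this]
    exact wperm_ne_one (by decide +kernel)
  have := orderOf_eq_prime_pow h4 h8
  simpa using this

theorem two11 (σ0 : Γ →* Spor.M11) (hσ : IsStemExtension σ0) (hK : Nat.card σ0.ker = 2) :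
    False := by
  have hC : Cov (Spor.M11.subtype.comp σ0) Spor.M11 2 := cov_of_stem hσ hK
  set σ := Spor.M11.subtype.comp σ0 with hσdef
  obtain ⟨a, ha⟩ := hC.lift _ (mem11 (w := aw) (by decide +kernel))
  obtain ⟨b, hb⟩ := hC.lift _ (mem11 (w := bw) (by decide +kernel))
  have h := sd16 hC (a := a) (b := b)
    (by
      rw [map_mul, map_mul, map_inv, map_pow, ha, hb, conj_word, pow_succ, pow_two,
        ← wperm_append, ← wperm_append]
      exact wperm_eq (by decide +kernel))
    (by
      rw [map_mul, hb]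
      exact rel1 (by decide +kernel))
    (by rw [ha]; exact orderOf_aw)
  apply false_of_card' hσ Nat.prime_two hK (Subgroup.closure {b, a}) 16 495 _
    (by rw [card11]; norm_num) (by norm_num) h
  rw [← hσdef, MonoidHom.map_closure, Set.image_pair, ha, hb, closure_pair_eq_SP]
  exact card_P

theorem three11 (σ0 : Γ →* Spor.M11) (hσ : IsStemExtension σ0) (hK : Nat.card σ0.ker = 3) :
    False := by
  have hC : Cov (Spor.M11.subtype.comp σ0) Spor.M11 3 := cov_of_stem hσ hK
  set σ := Spor.M11.subtype.comp σ0 with hσdef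
  obtain ⟨x, hx⟩ := hC.lift _ (mem11 (w := xw) (by decide +kernel))
  obtain ⟨y, hy⟩ := hC.lift _ (mem11 (w := yw) (by decide +kernel))
  obtain ⟨n, hn⟩ := hC.lift _ (mem11 (w := nw) (by decide +kernel))
  have h3 := three_abelian hC (n := n) (x := x) (y := y)
    (by
      rw [map_commutatorElement, hx, hy, comm_word]
      exact wperm_eq_one (by decide +kernel))
    (by
      rw [map_mul, map_mul, map_inv, map_inv, hn, hx, conj_word, ← wperm_winv]
      exact wperm_eq (by decide +kernel))
    (by
      rw [map_mul, map_mul, map_inv, hn, hy, conj_word]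
      exact wperm_eq (by decide +kernel))
  apply false_of_card' hσ Nat.prime_three hK (Subgroup.closure {x, y}) 9 880 _
    (by rw [card11]; norm_num) (by norm_num) (fun q hq _ => h3 q hq)
  rw [← hσdef, MonoidHom.map_closure, Set.image_pair, hx, hy, closure_pair_eq_SP]
  exact card_P3

end Cfsg.Agent.Lib.Helper28.Schur.Cl
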