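import Mathlib
import Cfsg.Agent.Lib.Helper28.SchurD23
import Cfsg.Agent.Lib.Helper28.SchurC

set_option autoImplicit false
set_option maxRecDepth 100000

/-! The Schur multiplier of `M23` is trivial. -/

namespace Cfsg.Agent.Lib.Helper28.Schur.Cl

open Cfsg Cfsg.Agent.Lib.Helper3 Cfsg.Agent.Lib.Helper3.Syl Cfsg.Agent.Lib.Helper28.Schur
open scoped commutatorElement
open D23

/-- the standard involution of `M23` -/
def z23w : List ℕ := mw ++ zAw ++ winv mw

def chkCf : Bool := (List.range 24).all fun f =>
  (wact zAw f != f) || (weq (cf f ++ zAw) (zAw ++ cf f) && wact (cf f) f == 0)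

theorem chkCf_true : chkCf = true := by decide +kernel

theorem class23 {g : Equiv.Perm GolayPt} (hg : g ∈ Spor.M23) (h2 : g * g = 1) (h1 : g ≠ 1) :
    ∃ k ∈ Spor.M23, k * g * k⁻¹ = wperm z23w := by
  have hfix : g (pt 23) = pt 23 := ((desc23 g).1 hg).2.1 23 (by simp)
  obtain ⟨k, hk, hA | hB⟩ := invol_class hg.1 h2 h1
  · have hf : idx (k (pt 23)) < 24 := idx_lt _
    have hzf : wperm zAw (k (pt 23)) = k (pt 23) := conj_fix_pt hA hfix
    have hzf' : wact zAw (idx (k (pt 23))) = idx (k (pt 23)) := by
      have := congrArg idx hzf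
      rwa [idx_wperm] at this
    have hchk := chkCf_true
    unfold chkCf at hchk
    simp only [List.all_eq_true, List.mem_range, Bool.or_eq_true, bne_iff_ne, Bool.and_eq_true,
      beq_iff_eq] at hchk
    rcases hchk _ hf with h | ⟨hc1, hc2⟩
    · exact absurd hzf' h
    · set f := idx (k (pt 23)) with hfdef
      refine ⟨wperm mw * wperm (cf f) * k, ?_, ?_⟩
      · rw [desc23]
        refine ⟨mul_mem (mul_mem (wperm_mem _) (wperm_mem _)) hk, ?_, fun _ => by simp⟩
        intro a ha
        rw [List.mem_singleton] at ha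
        subst ha
        have e1 : k (pt 23) = pt f := (pt_idx _).symm
        rw [Equiv.Perm.mul_apply, Equiv.Perm.mul_apply, e1, wperm_pt hf (by norm_num) hc2]
        exact wperm_pt (by norm_num) (by norm_num) (by decide +kernel)
      · have hcomm : wperm (cf f) * wperm zAw = wperm zAw * wperm (cf f) := rel2 hc1
        calc wperm mw * wperm (cf f) * k * g * (wperm mw * wperm (cf f) * k)⁻¹
            = wperm mw * (wperm (cf f) * (k * g * k⁻¹) * (wperm (cf f))⁻¹) * (wperm mw)⁻¹ := by
              group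
          _ = wperm mw * wperm zAw * (wperm mw)⁻¹ := by
              rw [hA, hcomm, mul_inv_cancel_right]
          _ = wperm z23w := conj_word _ _
  · exact absurd (conj_fix_pt hB hfix) (zB_free _)

section hinv
variable {Γ : Type*} [Group Γ] {σ : Γ →* Equiv.Perm GolayPt}

def qa : List ℕ := vws.getD 0 []
def qb : List ℕ := vws.getD 1 []
def qc : List ℕ := vws.getD 2 []

theorem hinv23 (hC : Cov σ Spor.M23 2) : Hinv σ := by
  obtain ⟨d, hd⟩ := hC.lift _ (mem23 (w := z23w) (by decide +kernel))
  have hd2 : σ (d * d) = 1 := by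
    rw [map_mul, hd]; exact rel1 (by decide +kernel)
  have key : ∀ γ : Γ, σ γ * σ γ = 1 → σ γ ≠ 1 → γ * γ = d * d := by
    intro γ h2 h1
    obtain ⟨k, hk, hke⟩ := class23 (hC.range γ) h2 h1
    apply sq_eq_of_conj hC (h := k⁻¹) (inv_mem hk) _ hd2
    rw [hd, ← hke]; group
  have keyW : ∀ (e : List ℕ) (γ : Γ), chkI e = true → σ γ = wperm e → γ * γ = d * d := by
    intro e γ he hγ
    have := chkI_sound he
    exact key γ (by rw [hγ]; exact this.1) (by rw [hγ]; exact this.2)
  have hA : d * d = 1 := by
    obtain ⟨a, ha⟩ := hC.lift _ (mem23 (w := qa) (by decide +kernel))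
    obtain ⟨b, hb⟩ := hC.lift _ (mem23 (w := qb) (by decide +kernel))
    obtain ⟨c, hc⟩ := hC.lift _ (mem23 (w := qc) (by decide +kernel))
    have hw2 : d * d * (d * d) = 1 := by
      rw [← pow_two]; exact hC.pow _ hd2
    exact pure7 (hC.central _ hd2) hw2 (keyW qa a (by decide +kernel) ha)
      (keyW qb b (by decide +kernel) hb) (keyW qc c (by decide +kernel) hc)
      (keyW (qa ++ qb) (a * b) (by decide +kernel) (by rw [map_mul, ha, hb, wperm_append]))
      (keyW (qa ++ qc) (a * c) (by decide +kernel) (by rw [map_mul, ha, hc, wperm_append]))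
      (keyW (qb ++ qc) (b * c) (by decide +kernel) (by rw [map_mul, hb, hc, wperm_append]))
      (keyW (qa ++ qb ++ qc) (a * b * c) (by decide +kernel)
        (by rw [map_mul, map_mul, ha, hb, hc, wperm_append, wperm_append]))
  intro γ hγ
  by_cases h1 : σ γ = 1
  · rw [← pow_two]; exact hC.pow _ h1
  · exact (key γ hγ h1).trans hA

end hinv

section main
variable {Γ : Type*} [Group Γ] [Finite Γ]

theorem vws_mem : vws.all (inG [23] 0) = true := by decide +kernel

theorem two23 (σ0 : Γ →* Spor.M23) (hσ : IsStemExtension σ0) (hK : Nat.card σ0.ker = 2) :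
    False := by
  have hC : Cov (Spor.M23.subtype.comp σ0) Spor.M23 2 := cov_of_stem hσ hK
  set σ := Spor.M23.subtype.comp σ0 with hσdef
  have H := hinv23 hC
  have hc := chkComm_sound c1
  have h2 := chkSq_sound c2
  have hVA : clo (vws.map wperm) ≤ Spor.M23 := clo_le (by
    intro a ha
    obtain ⟨w, hw, rfl⟩ := List.mem_map.1 ha
    exact mem23 (List.all_eq_true.1 vws_mem w hw))
  have hui : ∀ a ∈ vws.map wperm, (wperm uw)⁻¹ * a * wperm uw ∈ clo (vws.map wperm) := by
    have := chkConj_sound cui
    rw [wperm_winv] at this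
    simpa using this
  have hui' : ∀ a ∈ clo (vws.map wperm), (wperm uw)⁻¹ * a * wperm uw ∈ clo (vws.map wperm) := by
    intro a ha
    have := clo_conj (l := vws.map wperm) (wperm uw)⁻¹ (clo (vws.map wperm))
      (fun b hb => by rw [inv_inv]; exact hui b hb) a ha
    rwa [inv_inv] at this
  obtain ⟨W, hW1, hW2, hW3, hW4⟩ := exists_W hC H (clo (vws.map wperm)) hVA (clo_sq hc h2)
    (clo_comm hc) (wperm uw) (mem23 (by decide +kernel))
    (by
      rw [pow_succ, pow_two, ← wperm_append, ← wperm_append]
      exact wperm_eq_one (by decide +kernel))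
    (clo_conj _ _ (chkConj_sound cu)) hui'
    (clo_tau hc h2 _ (chkConj_sound cu) hui (chkTau_sound c3))
  obtain ⟨s, hs⟩ := hC.lift _ (mem23 (w := sw) (by decide +kernel))
  obtain ⟨t, ht⟩ := hC.lift _ (mem23 (w := tw) (by decide +kernel))
  have hWs : ∀ w ∈ W, s * w * s⁻¹ ∈ W := hW4 s
    (by rw [hs]; exact clo_conj _ _ (chkConj_sound cs))
    (by rw [hs, conj_word]; left; exact wperm_eq (by decide +kernel))
  have hWt : ∀ w ∈ W, t * w * t⁻¹ ∈ W := hW4 t
    (by rw [ht]; exact clo_conj _ _ (chkConj_sound ct))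
    (by rw [ht, conj_word, ← wperm_winv]; right; exact wperm_eq (by decide +kernel))
  have hcσ : σ (s * t * s * t) = wperm (sw ++ tw ++ sw ++ tw) := by
    rw [map_mul, map_mul, map_mul, hs, ht, wperm_append, wperm_append, wperm_append]
  have hG := good_D8 H W s t (by rw [hs]; exact rel1 (by decide +kernel))
    (by rw [ht]; exact rel1 (by decide +kernel))
    (by rw [hcσ]; exact rel1 (by decide +kernel))
    (by rw [hcσ, hs]; exact rel2 (by decide +kernel))
    (by rw [hcσ, ht]; exact rel2 (by decide +kernel)) hWs hWt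
  have hcard := card_cl_le W _ hG
  have hWV := card_W_le (clo (vws.map wperm)) W hW2 hW3
  have hV := card_clo_le hc h2
  have hlen : (vws.map wperm).length = 4 := by simp [vws]
  rw [hlen] at hV
  have hQ : Nat.card (cl W [(t, 2), (s, 2), (s * t * s * t, 2)]) ≤ 128 := by
    simp only [List.map_cons, List.map_nil, List.prod_cons, List.prod_nil] at hcard
    omega
  apply false_of_complement' hσ Nat.prime_two hK _ 128 79695 hQ (SP ws) card_P _
    (by rw [card23]; norm_num) (by norm_num)
  apply SP_le
  intro w hw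
  rw [ws, List.mem_append] at hw
  rcases hw with hw | hw
  · obtain ⟨w', hw', e⟩ := hW1 (wperm w) (mem_clo (List.mem_map.2 ⟨w, hw, rfl⟩))
    exact ⟨w', le_cl _ _ hw', e⟩
  · simp only [List.mem_cons, List.not_mem_nil, or_false] at hw
    rcases hw with rfl | rfl
    · exact ⟨s, mem_cl W (e := (s, 2)) (by simp), hs⟩
    · exact ⟨t, mem_cl W (e := (t, 2)) (by simp), ht⟩

theorem three23 (σ0 : Γ →* Spor.M23) (hσ : IsStemExtension σ0) (hK : Nat.card σ0.ker = 3) :
    False := by
  have hC : Cov (Spor.M23.subtype.comp σ0) Spor.M23 3 := cov_of_stem hσ hK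
  set σ := Spor.M23.subtype.comp σ0 with hσdef
  obtain ⟨x, hx⟩ := hC.lift _ (mem23 (w := xw) (by decide +kernel))
  obtain ⟨y, hy⟩ := hC.lift _ (mem23 (w := yw) (by decide +kernel))
  obtain ⟨n, hn⟩ := hC.lift _ (mem23 (w := nw) (by decide +kernel))
  have h3 := three_abelian hC (n := n) (x := x) (y := y)
    (by
      rw [map_commutatorElement, hx, hy, comm_word]
      exact wperm_eq_one (by decide +kernel))
    (by
      rw [map_mul, map_mul, map_inv, map_inv, hn, hx, conj_word, ← wperm_winv]
      exact wperm_eq (by decide +kernel))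
    (by
      rw [map_mul, map_mul, map_inv, hn, hy, conj_word]
      exact wperm_eq (by decide +kernel))
  apply false_of_card' hσ Nat.prime_three hK (Subgroup.closure {x, y}) 9 1133440 _
    (by rw [card23]; norm_num) (by norm_num) (fun q hq _ => h3 q hq)
  rw [← hσdef, MonoidHom.map_closure, Set.image_pair, hx, hy, closure_pair_eq_SP]
  exact card_P3

end main

end Cfsg.Agent.Lib.Helper28.Schur.Cl
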