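import Mathlib
import Cfsg.Agent.Lib.Helper28.SchurD24
import Cfsg.Agent.Lib.Helper3.ClassThm

set_option autoImplicit false
set_option maxRecDepth 100000

/-! The Schur multiplier of `M24` is trivial. -/

namespace Cfsg.Agent.Lib.Helper28.Schur

open Cfsg Cfsg.Agent.Lib.Helper3 Cfsg.Agent.Lib.Helper3.Syl
open scoped commutatorElement

section classes

def chkA (e : List ℕ) : Bool :=
  weq (e ++ e) [] && (List.range 24).any (fun i => wact e i == i) &&
    (List.range 24).any (fun i => wact e i != i)

def chkB (e : List ℕ) : Bool :=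
  weq (e ++ e) [] && (List.range 24).all (fun i => wact e i != i)

theorem rel1 {a : List ℕ} (h : weq (a ++ a) [] = true) : wperm a * wperm a = 1 := by
  rw [← wperm_append]; exact wperm_eq_one h

theorem rel2 {a b : List ℕ} (h : weq (a ++ b) (b ++ a) = true) :
    wperm a * wperm b = wperm b * wperm a := by
  rw [← wperm_append, ← wperm_append]; exact wperm_eq h

theorem comm_word (a b : List ℕ) : ⁅wperm a, wperm b⁆ = wperm (a ++ b ++ winv a ++ winv b) := by
  rw [commutatorElement_def, wperm_append, wperm_append, wperm_append, wperm_winv, wperm_winv]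

theorem conj_word (a b : List ℕ) : wperm a * wperm b * (wperm a)⁻¹ = wperm (a ++ b ++ winv a) := by
  rw [wperm_append, wperm_append, wperm_winv]

theorem wperm_fix {e : List ℕ} {i : ℕ} (hi : i < 24) (h : wact e i = i) :
    wperm e (pt i) = pt i := by
  apply idx_injective
  rw [idx_wperm, idx_pt hi, h]

theorem wperm_move {e : List ℕ} (h : ∀ i < 24, wact e i ≠ i) (p : GolayPt) : wperm e p ≠ p := by
  intro hp
  have := congrArg idx hp
  rw [idx_wperm] at this
  exact h _ (idx_lt p) this

theorem zB_free : ∀ p, wperm zBw p ≠ p := wperm_move (by decide +kernel)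

theorem conj_fix_pt {k g z : Equiv.Perm GolayPt} (h : k * g * k⁻¹ = z) {p : GolayPt}
    (hp : g p = p) : z (k p) = k p := by
  rw [← h, Equiv.Perm.mul_apply, Equiv.Perm.mul_apply, Equiv.Perm.inv_def, Equiv.symm_apply_apply, hp]

theorem conj_fix_pt' {k g z : Equiv.Perm GolayPt} (h : k * g * k⁻¹ = z) {p : GolayPt}
    (hp : z p = p) : g (k⁻¹ p) = k⁻¹ p := by
  have : g = k⁻¹ * z * k⁻¹⁻¹ := by rw [← h]; group
  exact conj_fix_pt this.symm hp

theorem classA {e : List ℕ} (h : chkA e = true) : ∃ k ∈ M24, k * wperm e * k⁻¹ = wperm zAw := by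
  unfold chkA at h
  simp only [Bool.and_eq_true, List.any_eq_true, List.mem_range, beq_iff_eq, bne_iff_ne] at h
  obtain ⟨⟨h1, i, hi, hfix⟩, j, hj, hmove⟩ := h
  have hne : wperm e ≠ 1 := by
    intro h0
    apply hmove
    have := idx_wperm e (pt j)
    rw [h0, Equiv.Perm.one_apply, idx_pt hj] at this
    exact this.symm
  obtain ⟨k, hk, hA | hB⟩ := invol_class (wperm_mem e) (rel1 h1) hne
  · exact ⟨k, hk, hA⟩
  · exact absurd (conj_fix_pt hB (wperm_fix hi hfix)) (zB_free _)

theorem classB {e : List ℕ} (h : chkB e = true) : ∃ k ∈ M24, k * wperm e * k⁻¹ = wperm zBw := by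
  unfold chkB at h
  simp only [Bool.and_eq_true, List.all_eq_true, List.mem_range, bne_iff_ne] at h
  obtain ⟨h1, hmove⟩ := h
  have hfree := wperm_move hmove
  have hne : wperm e ≠ 1 := by
    intro h0
    apply hfree (pt 0)
    rw [h0, Equiv.Perm.one_apply]
  obtain ⟨k, hk, hA | hB⟩ := invol_class (wperm_mem e) (rel1 h1) hne
  · exact absurd (conj_fix_pt' hA (wperm_fix (e := zAw) (i := 0) (by norm_num) (by decide +kernel)))
      (hfree _)
  · exact ⟨k, hk, hB⟩

end classes

section hinv
variable {Γ : Type*} [Group Γ] {σ : Γ →* Equiv.Perm GolayPt}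

open D24

theorem hinv24 (hC : Cov σ M24 2) : Hinv σ := by
  obtain ⟨dA, hdA⟩ := hC.lift _ (wperm_mem zAw)
  obtain ⟨dB, hdB⟩ := hC.lift _ (wperm_mem zBw)
  have hdA2 : σ (dA * dA) = 1 := by
    rw [map_mul, hdA]; exact rel1 (by decide +kernel)
  have hdB2 : σ (dB * dB) = 1 := by
    rw [map_mul, hdB]; exact rel1 (by decide +kernel)
  have conjA : ∀ (γ : Γ) (k : Equiv.Perm GolayPt), k ∈ M24 → k * σ γ * k⁻¹ = wperm zAw →
      γ * γ = dA * dA := by
    intro γ k hk hke
    apply sq_eq_of_conj hC (h := k⁻¹) (inv_mem hk) _ hdA2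
    rw [hdA, ← hke]; group
  have conjB : ∀ (γ : Γ) (k : Equiv.Perm GolayPt), k ∈ M24 → k * σ γ * k⁻¹ = wperm zBw →
      γ * γ = dB * dB := by
    intro γ k hk hke
    apply sq_eq_of_conj hC (h := k⁻¹) (inv_mem hk) _ hdB2
    rw [hdB, ← hke]; group
  have keyA : ∀ (e : List ℕ) (γ : Γ), chkA e = true → σ γ = wperm e → γ * γ = dA * dA := by
    intro e γ he hγ
    obtain ⟨k, hk, hke⟩ := classA he
    exact conjA γ k hk (by rw [hγ, hke])
  have keyB : ∀ (e : List ℕ) (γ : Γ), chkB e = true → σ γ = wperm e → γ * γ = dB * dB := by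
    intro e γ he hγ
    obtain ⟨k, hk, hke⟩ := classB he
    exact conjB γ k hk (by rw [hγ, hke])
  have hA : dA * dA = 1 := by
    obtain ⟨a, ha⟩ := hC.lift _ (wperm_mem pa)
    obtain ⟨b, hb⟩ := hC.lift _ (wperm_mem pb)
    obtain ⟨c, hc⟩ := hC.lift _ (wperm_mem D24.pc)
    have hw2 : dA * dA * (dA * dA) = 1 := by
      rw [← pow_two]; exact hC.pow _ hdA2
    exact pure7 (hC.central _ hdA2) hw2 (keyA pa a (by decide +kernel) ha)
      (keyA pb b (by decide +kernel) hb) (keyA D24.pc c (by decide +kernel) hc)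
      (keyA (pa ++ pb) (a * b) (by decide +kernel) (by rw [map_mul, ha, hb, wperm_append]))
      (keyA (pa ++ D24.pc) (a * c) (by decide +kernel) (by rw [map_mul, ha, hc, wperm_append]))
      (keyA (pb ++ D24.pc) (b * c) (by decide +kernel) (by rw [map_mul, hb, hc, wperm_append]))
      (keyA (pa ++ pb ++ D24.pc) (a * b * c) (by decide +kernel)
        (by rw [map_mul, map_mul, ha, hb, hc, wperm_append, wperm_append]))
  have hB : dB * dB = 1 := by
    obtain ⟨a, ha⟩ := hC.lift _ (wperm_mem ma)
    obtain ⟨b, hb⟩ := hC.lift _ (wperm_mem mb)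
    obtain ⟨c, hc⟩ := hC.lift _ (wperm_mem mc)
    rw [← keyB (ma ++ mb ++ mc) (a * b * c) (by decide +kernel)
        (by rw [map_mul, map_mul, ha, hb, hc, wperm_append, wperm_append])]
    exact six_one ((keyA ma a (by decide +kernel) ha).trans hA)
      ((keyA mb b (by decide +kernel) hb).trans hA) ((keyA mc c (by decide +kernel) hc).trans hA)
      ((keyA (ma ++ mb) (a * b) (by decide +kernel)
        (by rw [map_mul, ha, hb, wperm_append])).trans hA)
      ((keyA (ma ++ mc) (a * c) (by decide +kernel)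
        (by rw [map_mul, ha, hc, wperm_append])).trans hA)
      ((keyA (mb ++ mc) (b * c) (by decide +kernel)
        (by rw [map_mul, hb, hc, wperm_append])).trans hA)
  intro γ hγ
  by_cases h1 : σ γ = 1
  · rw [← pow_two]; exact hC.pow _ h1
  · obtain ⟨k, hk, h | h⟩ := invol_class (hC.range γ) hγ h1
    · exact (conjA γ k hk h).trans hA
    · exact (conjB γ k hk h).trans hB

end hinv

section main
variable {Γ : Type*} [Group Γ] [Finite Γ]

open D24

theorem two24 (σ0 : Γ →* M24) (hσ : IsStemExtension σ0) (hK : Nat.card σ0.ker = 2) : False := by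
  have hC : Cov (M24.subtype.comp σ0) M24 2 := cov_of_stem hσ hK
  set σ := M24.subtype.comp σ0 with hσdef
  have H := hinv24 hC
  have hc := chkComm_sound c1
  have h2 := chkSq_sound c2
  have hVA : clo (vws.map wperm) ≤ M24 := clo_le (by
    intro a ha
    obtain ⟨w, _, rfl⟩ := List.mem_map.1 ha
    exact wperm_mem w)
  have hui : ∀ a ∈ vws.map wperm, (wperm uw)⁻¹ * a * wperm uw ∈ clo (vws.map wperm) := by
    have := chkConj_sound cui
    rw [wperm_winv] at this
    simpa using this
  have hui' : ∀ a ∈ clo (vws.map wperm), (wperm uw)⁻¹ * a * wperm uw ∈ clo (vws.map wperm) := by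
    intro a ha
    have := clo_conj (l := vws.map wperm) (wperm uw)⁻¹ (clo (vws.map wperm))
      (fun b hb => by rw [inv_inv]; exact hui b hb) a ha
    rwa [inv_inv] at this
  obtain ⟨W, hW1, hW2, hW3, hW4⟩ := exists_W hC H (clo (vws.map wperm)) hVA (clo_sq hc h2)
    (clo_comm hc) (wperm uw) (wperm_mem uw)
    (by
      rw [pow_succ, pow_two, ← wperm_append, ← wperm_append]
      exact wperm_eq_one (by decide +kernel))
    (clo_conj _ _ (chkConj_sound cu)) hui'
    (clo_tau hc h2 _ (chkConj_sound cu) hui (chkTau_sound c3))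
  obtain ⟨s, hs⟩ := hC.lift _ (wperm_mem sw)
  obtain ⟨t, ht⟩ := hC.lift _ (wperm_mem tw)
  obtain ⟨r, hr⟩ := hC.lift _ (wperm_mem rw')
  have hWs : ∀ w ∈ W, s * w * s⁻¹ ∈ W := hW4 s
    (by rw [hs]; exact clo_conj _ _ (chkConj_sound cs))
    (by rw [hs, conj_word]; left; exact wperm_eq (by decide +kernel))
  have hWt : ∀ w ∈ W, t * w * t⁻¹ ∈ W := hW4 t
    (by rw [ht]; exact clo_conj _ _ (chkConj_sound ct))
    (by rw [ht, conj_word, ← wperm_winv]; right; exact wperm_eq (by decide +kernel))
  have hWr : ∀ w ∈ W, r * w * r⁻¹ ∈ W := hW4 r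
    (by rw [hr]; exact clo_conj _ _ (chkConj_sound cr))
    (by rw [hr, conj_word, ← wperm_winv]; right; exact wperm_eq (by decide +kernel))
  have hcσ : σ (s * t * s * t) = wperm (sw ++ tw ++ sw ++ tw) := by
    rw [map_mul, map_mul, map_mul, hs, ht, wperm_append, wperm_append, wperm_append]
  have hG := good_D8x2 H W s t r (by rw [hs]; exact rel1 (by decide +kernel))
    (by rw [ht]; exact rel1 (by decide +kernel)) (by rw [hr]; exact rel1 (by decide +kernel))
    (by rw [hcσ]; exact rel1 (by decide +kernel))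
    (by rw [hcσ, hs]; exact rel2 (by decide +kernel))
    (by rw [hcσ, ht]; exact rel2 (by decide +kernel))
    (by rw [hr, hs]; exact rel2 (by decide +kernel))
    (by rw [hr, ht]; exact rel2 (by decide +kernel)) hWs hWt hWr
  have hcard := card_cl_le W _ hG
  have hWV := card_W_le (clo (vws.map wperm)) W hW2 hW3
  have hV := card_clo_le hc h2
  have hlen : (vws.map wperm).length = 6 := by simp [vws]
  rw [hlen] at hV
  have hQ : Nat.card (cl W [(r, 2), (t, 2), (s, 2), (s * t * s * t, 2)]) ≤ 1024 := by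
    simp only [List.map_cons, List.map_nil, List.prod_cons, List.prod_nil] at hcard
    omega
  apply false_of_complement' hσ Nat.prime_two hK _ 1024 239085 hQ (SP ws) card_P _
    (by rw [card24]; norm_num) (by norm_num)
  apply SP_le
  intro w hw
  rw [ws, List.mem_append] at hw
  rcases hw with hw | hw
  · obtain ⟨w', hw', e⟩ := hW1 (wperm w) (mem_clo (List.mem_map.2 ⟨w, hw, rfl⟩))
    exact ⟨w', le_cl _ _ hw', e⟩
  · simp only [List.mem_cons, List.not_mem_nil, or_false] at hw
    rcases hw with rfl | rfl | rfl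
    · exact ⟨s, mem_cl W (e := (s, 2)) (by simp), hs⟩
    · exact ⟨t, mem_cl W (e := (t, 2)) (by simp), ht⟩
    · exact ⟨r, mem_cl W (e := (r, 2)) (by simp), hr⟩

theorem closure_pair_eq_SP (x y : List ℕ) :
    Subgroup.closure {wperm x, wperm y} = SP [x, y, winv x, winv y] := by
  apply le_antisymm
  · rw [Subgroup.closure_le]
    rintro a (rfl | rfl)
    · exact mem_SP (by simp)
    · exact mem_SP (by simp)
  · apply SP_le
    intro w hw
    simp only [List.mem_cons, List.not_mem_nil, or_false] at hw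
    rcases hw with rfl | rfl | rfl | rfl
    · exact Subgroup.subset_closure (by simp)
    · exact Subgroup.subset_closure (by simp)
    · rw [wperm_winv]; exact inv_mem (Subgroup.subset_closure (by simp))
    · rw [wperm_winv]; exact inv_mem (Subgroup.subset_closure (by simp))

theorem three24 (σ0 : Γ →* M24) (hσ : IsStemExtension σ0) (hK : Nat.card σ0.ker = 3) : False := by
  have hC : Cov (M24.subtype.comp σ0) M24 3 := cov_of_stem hσ hK
  set σ := M24.subtype.comp σ0 with hσdef
  obtain ⟨x, hx⟩ := hC.lift _ (wperm_mem xw)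
  obtain ⟨y, hy⟩ := hC.lift _ (wperm_mem yw)
  obtain ⟨n, hn⟩ := hC.lift _ (wperm_mem nw)
  have hc : σ ⁅x, y⁆ = wperm (xw ++ yw ++ winv xw ++ winv yw) := by
    rw [map_commutatorElement, hx, hy, comm_word]
  apply false_of_card' hσ Nat.prime_three hK (Subgroup.closure {x, y}) 27 9067520 _
    (by rw [card24]; norm_num) (by norm_num)
    (three_extraspecial hC (n := n) _ _ _ _ _ _ _)
  · rw [← hσdef, MonoidHom.map_closure, Set.image_pair, hx, hy, closure_pair_eq_SP]
    exact card_P3
  · rw [map_commutatorElement, hc, hx, comm_word]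
    exact wperm_eq_one (by decide +kernel)
  · rw [map_commutatorElement, hc, hy, comm_word]
    exact wperm_eq_one (by decide +kernel)
  · rw [map_mul, map_mul, map_inv, map_inv, hn, hx, conj_word, ← wperm_winv]
    exact wperm_eq (by decide +kernel)
  · rw [map_mul, map_mul, map_inv, map_inv, hn, hy, conj_word, ← wperm_winv]
    exact wperm_eq (by decide +kernel)
  · rw [map_mul, map_mul, map_inv, hn, hc, conj_word]
    exact wperm_eq (by decide +kernel)
  · rw [map_pow, hx, pow_succ, pow_two, ← wperm_append, ← wperm_append]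
    exact wperm_eq_one (by decide +kernel)
  · rw [hc]
    intro h0
    have := idx_wperm (xw ++ yw ++ winv xw ++ winv yw) (pt 0)
    rw [h0, Equiv.Perm.one_apply, idx_pt (by norm_num)] at this
    revert this
    decide +kernel

end main

end Cfsg.Agent.Lib.Helper28.Schur
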