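import Mathlib
import Cfsg.Prelude.Def_RootSubgroups
import Cfsg.Agent.Lib.Helper28.RankOne
import Cfsg.Agent.Lib.Helper28.RankOne2
set_option autoImplicit false

namespace Cfsg.Agent.Lib.Helper28.Special

open Cfsg.Agent.Lib.Helper28 Cfsg.Agent.Lib.Helper28.RankOne

variable {G : Type*} [Group G] {A B : Subgroup G}

/-- `a ∈ A#`, `b ∈ B#` and `A^b = B^a`. -/
def Rel (A B : Subgroup G) (a b : G) : Prop :=
  a ∈ A ∧ a ≠ 1 ∧ b ∈ B ∧ b ≠ 1 ∧ Cfsg.conjBy A b⁻¹ = Cfsg.conjBy B a⁻¹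

/-- right action `P^g = g⁻¹ P g`. -/
def act (P : Subgroup G) (g : G) : Subgroup G := Cfsg.conjBy P g⁻¹

lemma act_act (P : Subgroup G) (g h : G) : act (act P g) h = act P (g * h) := by
  unfold act; rw [conjBy_conjBy, mul_inv_rev]

lemma act_of_mem {P : Subgroup G} {g : G} (hg : g ∈ P) : act P g = P :=
  conjBy_of_mem (P.inv_mem hg)

lemma Rel.symm {a b : G} (h : Rel A B a b) : Rel B A b a :=
  ⟨h.2.2.1, h.2.2.2.1, h.1, h.2.1, h.2.2.2.2.symm⟩

lemma Rel.act_eq {a b : G} (h : Rel A B a b) : act A b = act B a := h.2.2.2.2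

lemma exists_b (h : Cfsg.IsRankOnePair A B) {a : G} (ha : a ∈ A) (ha1 : a ≠ 1) : ∃ b, Rel A B a b := by
  obtain ⟨b, hb, hb1, hc⟩ := h.cond_left a ha ha1
  exact ⟨b, ha, ha1, hb, hb1, hc⟩

lemma exists_a (h : Cfsg.IsRankOnePair A B) {b : G} (hb : b ∈ B) (hb1 : b ≠ 1) : ∃ a, Rel A B a b := by
  obtain ⟨a, ha, ha1, hc⟩ := h.cond_right b hb hb1
  exact ⟨a, ha, ha1, hb, hb1, hc.symm⟩

lemma uniq_a (h : Cfsg.IsRankOnePair A B) {a a' b : G} (h1 : Rel A B a b) (h2 : Rel A B a' b) : a = a' := by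
  have := conjBy_B_inj h (A.inv_mem h1.1) (A.inv_mem h2.1) (h1.2.2.2.2.symm.trans h2.2.2.2.2)
  exact inv_injective this

lemma uniq_b (h : Cfsg.IsRankOnePair A B) {a b b' : G} (h1 : Rel A B a b) (h2 : Rel A B a b') : b = b' :=
  uniq_a (Cfsg.RankOnePair_symm h) h1.symm h2.symm

lemma rel_of_act (h : Cfsg.IsRankOnePair A B) {a b : G} (ha : a ∈ A) (ha1 : a ≠ 1) (hb : b ∈ B)
    (hc : act A b = act B a) : Rel A B a b := by
  refine ⟨ha, ha1, hb, ?_, hc⟩
  rintro rfl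
  unfold act at hc
  rw [inv_one, conjBy_one] at hc
  exact conjBy_B_ne_A h (A.inv_mem ha) hc.symm

lemma inter_conj (h : Cfsg.IsRankOnePair A B) {b x : G} (hb : b ∈ B) (hb1 : b ≠ 1) (hx : x ∈ A)
    (hx' : x ∈ Cfsg.conjBy A b) : x = 1 := by
  obtain ⟨α, hα, -, hc⟩ := h.cond_right b⁻¹ (B.inv_mem hb) (inv_ne_one.2 hb1)
  rw [inv_inv] at hc
  rw [← hc, mem_conjBy, inv_inv] at hx'
  have h1 : α * x * α⁻¹ ∈ A := A.mul_mem (A.mul_mem hα hx) (A.inv_mem hα)
  have h2 := eq_one_of_normalizes h h1 (Subgroup.le_normalizer hx')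
  have := congrArg (fun z => α⁻¹ * z * α) h2
  simpa [mul_assoc] using this

lemma braid (hs : Cfsg.IsSpecialRankOnePair A B) {a b : G} (h : Rel A B a b) :
    a * b⁻¹ * a = b⁻¹ * a * b⁻¹ := by
  have h1 := hs.2 a h.1 h.2.1 b h.2.2.1 h.2.2.2.1 h.2.2.2.2
  have := congrArg (fun z => a * z * b⁻¹) h1
  simpa [mul_assoc] using this

lemma special_symm (hs : Cfsg.IsSpecialRankOnePair A B) : Cfsg.IsSpecialRankOnePair B A := by
  refine ⟨Cfsg.RankOnePair_symm hs.1, ?_⟩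
  intro b hb hb1 a ha ha1 hc
  have h1 := braid hs (⟨ha, ha1, hb, hb1, hc.symm⟩ : Rel A B a b)
  have h3 := congrArg (fun z => b⁻¹ * z⁻¹ * a) h1
  simp only [mul_inv_rev, inv_inv, mul_assoc, inv_mul_cancel_left,
    inv_mul_cancel, mul_one] at h3
  simpa [mul_assoc] using h3.symm

lemma Rel.inv (hs : Cfsg.IsSpecialRankOnePair A B) {a b : G} (h : Rel A B a b) : Rel A B a⁻¹ b⁻¹ := by
  have hp := hs.1
  obtain ⟨b', hb'⟩ := exists_b hp (A.inv_mem h.1) (inv_ne_one.2 h.2.1)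
  suffices hbb : b' * b = 1 by
    have : b' = b⁻¹ := eq_inv_of_mul_eq_one_left hbb
    rwa [this] at hb'
  by_contra hne
  have hbr := braid hs h
  -- e = a b a⁻¹ lies in conjBy A b and in conjBy B a = conjBy A b'⁻¹
  have he1 : a * b * a⁻¹ ∈ Cfsg.conjBy A b := by
    rw [mem_conjBy]
    have : b⁻¹ * (a * b * a⁻¹) * b = a⁻¹ := by
      have hinv : b * a⁻¹ * b = a⁻¹ * b * a⁻¹ := by
        have h2 := congrArg (fun z => z⁻¹) hbr
        simp only [mul_inv_rev, inv_inv] at h2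
        simpa [mul_assoc] using h2.symm
      calc b⁻¹ * (a * b * a⁻¹) * b = b⁻¹ * a * (b * a⁻¹ * b) := by group
        _ = b⁻¹ * a * (a⁻¹ * b * a⁻¹) := by rw [hinv]
        _ = a⁻¹ := by group
    rw [this]; exact A.inv_mem h.1
  have he2 : a * b * a⁻¹ ∈ Cfsg.conjBy A b'⁻¹ := by
    have h3 := hb'.2.2.2.2
    rw [inv_inv] at h3
    rw [h3]; exact conj_mem_conjBy h.2.2.1
  have hx1 : b' * (a * b * a⁻¹) * b'⁻¹ ∈ A := by
    rw [mem_conjBy, inv_inv] at he2; exact he2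
  have hx2 : b' * (a * b * a⁻¹) * b'⁻¹ ∈ Cfsg.conjBy A (b' * b) := by
    rw [← conjBy_conjBy]; exact conj_mem_conjBy he1
  have h1 := inter_conj hp (B.mul_mem hb'.2.2.1 h.2.2.1) hne hx1 hx2
  apply h.2.2.2.1
  have := congrArg (fun z => a⁻¹ * (b'⁻¹ * z * b') * a) h1
  simpa [mul_assoc] using this

lemma pow_eq_one_iff (hs : Cfsg.IsSpecialRankOnePair A B) {a b : G} (h : Rel A B a b) (k : ℕ) :
    a ^ k = 1 ↔ b ^ k = 1 := by
  have h1 := hs.2 a h.1 h.2.1 b h.2.2.1 h.2.2.2.1 h.2.2.2.2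
  have h2 : a = (b * a⁻¹) * b⁻¹ * (b * a⁻¹)⁻¹ := by
    have := congrArg (fun z => b * z * b⁻¹) h1
    simpa [mul_assoc] using this
  constructor
  · intro hk
    rw [h2, conj_pow, conj_eq_one_iff, inv_pow, inv_eq_one] at hk
    exact hk
  · intro hk
    rw [h2, conj_pow, conj_eq_one_iff, inv_pow, inv_eq_one]
    exact hk

/-- no torsion below `n`. -/
def NT (A B : Subgroup G) (n : ℕ) : Prop :=
  ∀ x, (x ∈ A ∨ x ∈ B) → x ≠ 1 → ∀ k, 0 < k → k < n → x ^ k ≠ 1

lemma NT.symm {n : ℕ} (h : NT A B n) : NT B A n := fun x hx => h x hx.symm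

lemma NT.mono {m n : ℕ} (h : NT A B n) (hm : m ≤ n) : NT A B m :=
  fun x hx hx1 k hk hkm => h x hx hx1 k hk (lt_of_lt_of_le hkm hm)

/-- `b(w^N)^N = b(w)`. -/
theorem main (N : ℕ) : ∀ {A B : Subgroup G}, Cfsg.IsSpecialRankOnePair A B → IsMulCommutative A →
    IsMulCommutative B → NT A B N → ∀ w e η, Rel A B w e → Rel A B (w ^ N) η → η ^ N = e := by
  induction N using Nat.strong_induction_on with
  | _ N ih =>
    intro A B hs hA hB hnt w e η hwe hwη
    have hp := hs.1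
    match N, ih, hnt, hwη with
    | 0, _, _, hwη => exact absurd (pow_zero w) hwη.2.1
    | 1, _, _, hwη =>
      rw [pow_one] at hwη ⊢; exact uniq_b hp hwη hwe
    | m + 2, ih, hnt, hwη =>
      have hs' := special_symm hs
      have hen : e ^ (m + 1) ≠ 1 :=
        hnt e (Or.inr hwe.2.2.1) hwe.2.2.2.1 (m + 1) (by omega) (by omega)
      obtain ⟨y, hy⟩ := exists_a hp (B.pow_mem hwe.2.2.1 (m + 1)) hen
      have hyw : y ^ (m + 1) = w :=
        ih (m + 1) (by omega) hs' hB hA (hnt.symm.mono (by omega)) e w y hwe.symm hy.symm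
      have hpow : (y ^ (m + 2)) ^ (m + 1) = w ^ (m + 2) := by
        rw [← hyw, ← pow_mul, ← pow_mul, mul_comm]
      have hy2 : y ^ (m + 2) ≠ 1 := by
        intro h0; apply hwη.2.1; rw [← hpow, h0, one_pow]
      obtain ⟨f, hf⟩ := exists_b hp (A.pow_mem hy.1 (m + 2)) hy2
      have hηf : η ^ (m + 1) = f :=
        ih (m + 1) (by omega) hs hA hB (hnt.mono (by omega)) (y ^ (m + 2)) f η hf
          (by rw [hpow]; exact hwη)
      have hlast : act A (e ^ m * (w * e⁻¹ * w⁻¹)) = act B (w ^ (m + 2))⁻¹ := by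
        rcases Nat.eq_zero_or_pos m with rfl | hm
        · have hinv := hwe.inv hs
          calc act A (e ^ 0 * (w * e⁻¹ * w⁻¹)) = act (act (act A w) e⁻¹) w⁻¹ := by
                rw [act_act, act_act]; congr 1; group
            _ = act (act A e⁻¹) w⁻¹ := by rw [act_of_mem hwe.1]
            _ = act (act B w⁻¹) w⁻¹ := by rw [hinv.act_eq]
            _ = act B (w ^ (0 + 2))⁻¹ := by rw [act_act]; congr 1; group
        · have hem : e ^ m ≠ 1 := hnt e (Or.inr hwe.2.2.1) hwe.2.2.2.1 m hm (by omega)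
          obtain ⟨v, hv⟩ := exists_a hp (B.pow_mem hwe.2.2.1 m) hem
          have hvw : v ^ m = w :=
            ih m (by omega) hs' hB hA (hnt.symm.mono (by omega)) e w v hwe.symm hv.symm
          have hw1 : w ^ (m + 1) ≠ 1 := hnt w (Or.inl hwe.1) hwe.2.1 (m + 1) (by omega) (by omega)
          have hvwm : (v * w) ^ m = w ^ (m + 1) := by
            have hc : Commute v w := comm_of_isMulCommutative hA hv.1 hwe.1
            rw [hc.mul_pow, hvw, pow_succ']
          have hvw1 : v * w ≠ 1 := by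
            intro h0; apply hw1; rw [← hvwm, h0, one_pow]
          obtain ⟨ε, hε⟩ := exists_b hp (A.pow_mem hwe.1 (m + 1)) hw1
          have hεe : ε ^ (m + 1) = e :=
            ih (m + 1) (by omega) hs hA hB (hnt.mono (by omega)) w e ε hwe hε
          obtain ⟨g, hg⟩ := exists_b hp (A.mul_mem hv.1 hwe.1) hvw1
          have hεg : ε ^ m = g :=
            ih m (by omega) hs hA hB (hnt.mono (by omega)) (v * w) g ε hg (by rw [hvwm]; exact hε)
          have hinv := hε.inv hs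
          calc act A (e ^ m * (w * e⁻¹ * w⁻¹)) = act (act A (e ^ m)) (w * e⁻¹ * w⁻¹) :=
                (act_act _ _ _).symm
            _ = act (act B v) (w * e⁻¹ * w⁻¹) := by rw [hv.act_eq]
            _ = act (act B (v * w)) (e⁻¹ * w⁻¹) := by
                rw [act_act, act_act]; congr 1; group
            _ = act (act A g) (e⁻¹ * w⁻¹) := by rw [hg.act_eq]
            _ = act (act A ε⁻¹) w⁻¹ := by
                rw [act_act, act_act, ← hεg, ← hεe]; congr 1; group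
            _ = act (act B (w ^ (m + 1))⁻¹) w⁻¹ := by rw [hinv.act_eq]
            _ = act B (w ^ (m + 2))⁻¹ := by rw [act_act]; congr 1; group
      have hkey : act A (f * e⁻¹) = act B (w ^ (m + 2))⁻¹ := by
        have hbr := braid hs hwe
        have h1 : y ^ (m + 2) * e⁻¹ = y * (e⁻¹ * (w * e⁻¹ * w⁻¹)) := by
          have h2 : w * e⁻¹ = e⁻¹ * w * e⁻¹ * w⁻¹ := by rw [← hbr]; group
          calc y ^ (m + 2) * e⁻¹ = y * (y ^ (m + 1)) * e⁻¹ := by rw [pow_succ' y (m + 1)]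
            _ = y * (w * e⁻¹) := by rw [hyw]; group
            _ = y * (e⁻¹ * w * e⁻¹ * w⁻¹) := by rw [h2]
            _ = y * (e⁻¹ * (w * e⁻¹ * w⁻¹)) := by group
        calc act A (f * e⁻¹) = act (act A f) e⁻¹ := (act_act _ _ _).symm
          _ = act (act B (y ^ (m + 2))) e⁻¹ := by rw [hf.act_eq]
          _ = act B (y * (e⁻¹ * (w * e⁻¹ * w⁻¹))) := by rw [act_act, h1]
          _ = act (act B y) (e⁻¹ * (w * e⁻¹ * w⁻¹)) := (act_act _ _ _).symm
          _ = act (act A (e ^ (m + 1))) (e⁻¹ * (w * e⁻¹ * w⁻¹)) := by rw [hy.act_eq]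
          _ = act A (e ^ m * (w * e⁻¹ * w⁻¹)) := by rw [act_act]; congr 1; group
          _ = act B (w ^ (m + 2))⁻¹ := hlast
      have hrel : Rel A B (w ^ (m + 2))⁻¹ (f * e⁻¹) :=
        rel_of_act hp (A.inv_mem hwη.1) (inv_ne_one.2 hwη.2.1)
          (B.mul_mem hf.2.2.1 (B.inv_mem hwe.2.2.1)) hkey
      have h3 := uniq_b hp hrel (hwη.inv hs)
      have h4 : f = η⁻¹ * e := by rw [← h3]; group
      rw [pow_succ', hηf, h4]; group

end Cfsg.Agent.Lib.Helper28.Special
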